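import Cfsg.Agent.Lib.H35.TCMHeA.Chk
set_option autoImplicit false
set_option maxRecDepth 100000
set_option linter.all false
namespace H35.TCMHeA
open H35.TC
section
variable {G : Type} [Group G] {g : Lt → G} {H : Subgroup G}
theorem rf_0 (hinv : ∀ x, g (inv x) = (g x)⁻¹) (hr : ∀ r ∈ rels, (r.map g).prod = 1) : (([.b, .b, .b] : List Lt).map g).prod = 1 := hr _ (by decide +kernel)
theorem rb_0 (hinv : ∀ x, g (inv x) = (g x)⁻¹) (hr : ∀ r ∈ rels, (r.map g).prod = 1) : (([.bi, .bi, .bi] : List Lt).map g).prod = 1 := inv_at hinv (rf_0 hinv hr)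
theorem rf_1 (hinv : ∀ x, g (inv x) = (g x)⁻¹) (hr : ∀ r ∈ rels, (r.map g).prod = 1) : (([.c, .c, .c] : List Lt).map g).prod = 1 := hr _ (by decide +kernel)
theorem rb_1 (hinv : ∀ x, g (inv x) = (g x)⁻¹) (hr : ∀ r ∈ rels, (r.map g).prod = 1) : (([.ci, .ci, .ci] : List Lt).map g).prod = 1 := inv_at hinv (rf_1 hinv hr)
theorem rf_2 (hinv : ∀ x, g (inv x) = (g x)⁻¹) (hr : ∀ r ∈ rels, (r.map g).prod = 1) : (([.d, .d, .d] : List Lt).map g).prod = 1 := hr _ (by decide +kernel)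
theorem rb_2 (hinv : ∀ x, g (inv x) = (g x)⁻¹) (hr : ∀ r ∈ rels, (r.map g).prod = 1) : (([.di, .di, .di] : List Lt).map g).prod = 1 := inv_at hinv (rf_2 hinv hr)
theorem rf_3 (hinv : ∀ x, g (inv x) = (g x)⁻¹) (hr : ∀ r ∈ rels, (r.map g).prod = 1) : (([.d, .ci, .di, .b] : List Lt).map g).prod = 1 := hr _ (by decide +kernel)
theorem rb_3 (hinv : ∀ x, g (inv x) = (g x)⁻¹) (hr : ∀ r ∈ rels, (r.map g).prod = 1) : (([.bi, .d, .c, .di] : List Lt).map g).prod = 1 := inv_at hinv (rf_3 hinv hr)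
theorem rf_4 (hinv : ∀ x, g (inv x) = (g x)⁻¹) (hr : ∀ r ∈ rels, (r.map g).prod = 1) : (([.d, .fi, .di, .e] : List Lt).map g).prod = 1 := hr _ (by decide +kernel)
theorem rb_4 (hinv : ∀ x, g (inv x) = (g x)⁻¹) (hr : ∀ r ∈ rels, (r.map g).prod = 1) : (([.ei, .d, .f, .di] : List Lt).map g).prod = 1 := inv_at hinv (rf_4 hinv hr)
theorem rf_5 (hinv : ∀ x, g (inv x) = (g x)⁻¹) (hr : ∀ r ∈ rels, (r.map g).prod = 1) : (([.e, .e, .e, .e, .e] : List Lt).map g).prod = 1 := hr _ (by decide +kernel)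
theorem rb_5 (hinv : ∀ x, g (inv x) = (g x)⁻¹) (hr : ∀ r ∈ rels, (r.map g).prod = 1) : (([.ei, .ei, .ei, .ei, .ei] : List Lt).map g).prod = 1 := inv_at hinv (rf_5 hinv hr)
theorem rf_6 (hinv : ∀ x, g (inv x) = (g x)⁻¹) (hr : ∀ r ∈ rels, (r.map g).prod = 1) : (([.f, .f, .f, .f, .f] : List Lt).map g).prod = 1 := hr _ (by decide +kernel)
theorem rb_6 (hinv : ∀ x, g (inv x) = (g x)⁻¹) (hr : ∀ r ∈ rels, (r.map g).prod = 1) : (([.fi, .fi, .fi, .fi, .fi] : List Lt).map g).prod = 1 := inv_at hinv (rf_6 hinv hr)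
theorem rf_7 (hinv : ∀ x, g (inv x) = (g x)⁻¹) (hr : ∀ r ∈ rels, (r.map g).prod = 1) : (([.b, .ei, .fi, .ei, .c, .bi, .fi, .b, .c] : List Lt).map g).prod = 1 := hr _ (by decide +kernel)
theorem rb_7 (hinv : ∀ x, g (inv x) = (g x)⁻¹) (hr : ∀ r ∈ rels, (r.map g).prod = 1) : (([.ci, .bi, .f, .b, .ci, .e, .f, .e, .bi] : List Lt).map g).prod = 1 := inv_at hinv (rf_7 hinv hr)
theorem rf_8 (hinv : ∀ x, g (inv x) = (g x)⁻¹) (hr : ∀ r ∈ rels, (r.map g).prod = 1) : (([.b, .e, .e, .bi, .e, .b, .e, .e, .bi, .e] : List Lt).map g).prod = 1 := hr _ (by decide +kernel)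
theorem rb_8 (hinv : ∀ x, g (inv x) = (g x)⁻¹) (hr : ∀ r ∈ rels, (r.map g).prod = 1) : (([.ei, .b, .ei, .ei, .bi, .ei, .b, .ei, .ei, .bi] : List Lt).map g).prod = 1 := inv_at hinv (rf_8 hinv hr)
theorem rf_9 (hinv : ∀ x, g (inv x) = (g x)⁻¹) (hr : ∀ r ∈ rels, (r.map g).prod = 1) : (([.b, .ei, .b, .ei, .f, .b, .ei, .b, .ei, .f] : List Lt).map g).prod = 1 := hr _ (by decide +kernel)
theorem rb_9 (hinv : ∀ x, g (inv x) = (g x)⁻¹) (hr : ∀ r ∈ rels, (r.map g).prod = 1) : (([.fi, .e, .bi, .e, .bi, .fi, .e, .bi, .e, .bi] : List Lt).map g).prod = 1 := inv_at hinv (rf_9 hinv hr)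
theorem rf_10 (hinv : ∀ x, g (inv x) = (g x)⁻¹) (hr : ∀ r ∈ rels, (r.map g).prod = 1) : (([.e, .e, .f, .ci, .fi, .ci, .ei, .c, .fi, .c] : List Lt).map g).prod = 1 := hr _ (by decide +kernel)
theorem rb_10 (hinv : ∀ x, g (inv x) = (g x)⁻¹) (hr : ∀ r ∈ rels, (r.map g).prod = 1) : (([.ci, .f, .ci, .e, .c, .f, .c, .fi, .ei, .ei] : List Lt).map g).prod = 1 := inv_at hinv (rf_10 hinv hr)
theorem rf_11 (hinv : ∀ x, g (inv x) = (g x)⁻¹) (hr : ∀ r ∈ rels, (r.map g).prod = 1) : (([.b, .e, .fi, .b, .ci, .e, .bi, .f, .ci, .e] : List Lt).map g).prod = 1 := hr _ (by decide +kernel)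
theorem rb_11 (hinv : ∀ x, g (inv x) = (g x)⁻¹) (hr : ∀ r ∈ rels, (r.map g).prod = 1) : (([.ei, .c, .fi, .b, .ei, .c, .bi, .f, .ei, .bi] : List Lt).map g).prod = 1 := inv_at hinv (rf_11 hinv hr)
theorem rf_12 (hinv : ∀ x, g (inv x) = (g x)⁻¹) (hr : ∀ r ∈ rels, (r.map g).prod = 1) : (([.b, .ci, .f, .c, .bi, .c, .e, .f, .c, .e] : List Lt).map g).prod = 1 := hr _ (by decide +kernel)
theorem rb_12 (hinv : ∀ x, g (inv x) = (g x)⁻¹) (hr : ∀ r ∈ rels, (r.map g).prod = 1) : (([.ei, .ci, .fi, .ei, .ci, .b, .ci, .fi, .c, .bi] : List Lt).map g).prod = 1 := inv_at hinv (rf_12 hinv hr)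
theorem rf_13 (hinv : ∀ x, g (inv x) = (g x)⁻¹) (hr : ∀ r ∈ rels, (r.map g).prod = 1) : (([.c, .f, .f, .ci, .f, .c, .f, .f, .ci, .f] : List Lt).map g).prod = 1 := hr _ (by decide +kernel)
theorem rb_13 (hinv : ∀ x, g (inv x) = (g x)⁻¹) (hr : ∀ r ∈ rels, (r.map g).prod = 1) : (([.fi, .c, .fi, .fi, .ci, .fi, .c, .fi, .fi, .ci] : List Lt).map g).prod = 1 := inv_at hinv (rf_13 hinv hr)
theorem rf_14 (hinv : ∀ x, g (inv x) = (g x)⁻¹) (hr : ∀ r ∈ rels, (r.map g).prod = 1) : (([.b, .e, .bi, .e, .e, .b, .e, .bi, .e, .e] : List Lt).map g).prod = 1 := hr _ (by decide +kernel)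
theorem rb_14 (hinv : ∀ x, g (inv x) = (g x)⁻¹) (hr : ∀ r ∈ rels, (r.map g).prod = 1) : (([.ei, .ei, .b, .ei, .bi, .ei, .ei, .b, .ei, .bi] : List Lt).map g).prod = 1 := inv_at hinv (rf_14 hinv hr)
theorem rf_15 (hinv : ∀ x, g (inv x) = (g x)⁻¹) (hr : ∀ r ∈ rels, (r.map g).prod = 1) : (([.b, .e, .bi, .ei, .b, .e, .fi, .ei, .f, .ci] : List Lt).map g).prod = 1 := hr _ (by decide +kernel)
theorem rb_15 (hinv : ∀ x, g (inv x) = (g x)⁻¹) (hr : ∀ r ∈ rels, (r.map g).prod = 1) : (([.c, .fi, .e, .f, .ei, .bi, .e, .b, .ei, .bi] : List Lt).map g).prod = 1 := inv_at hinv (rf_15 hinv hr)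
theorem rf_16 (hinv : ∀ x, g (inv x) = (g x)⁻¹) (hr : ∀ r ∈ rels, (r.map g).prod = 1) : (([.e, .c, .fi, .ci, .f, .c, .e, .fi, .fi, .c] : List Lt).map g).prod = 1 := hr _ (by decide +kernel)
theorem rb_16 (hinv : ∀ x, g (inv x) = (g x)⁻¹) (hr : ∀ r ∈ rels, (r.map g).prod = 1) : (([.ci, .f, .f, .ei, .ci, .fi, .c, .f, .ci, .ei] : List Lt).map g).prod = 1 := inv_at hinv (rf_16 hinv hr)
theorem rf_17 (hinv : ∀ x, g (inv x) = (g x)⁻¹) (hr : ∀ r ∈ rels, (r.map g).prod = 1) : (([.b, .e, .e, .fi, .fi, .ci, .fi, .c, .bi, .e] : List Lt).map g).prod = 1 := hr _ (by decide +kernel)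
theorem rb_17 (hinv : ∀ x, g (inv x) = (g x)⁻¹) (hr : ∀ r ∈ rels, (r.map g).prod = 1) : (([.ei, .b, .ci, .f, .c, .f, .f, .ei, .ei, .bi] : List Lt).map g).prod = 1 := inv_at hinv (rf_17 hinv hr)
theorem rf_18 (hinv : ∀ x, g (inv x) = (g x)⁻¹) (hr : ∀ r ∈ rels, (r.map g).prod = 1) : (([.b, .ci, .fi, .b, .fi, .ei, .ei, .f, .e, .c] : List Lt).map g).prod = 1 := hr _ (by decide +kernel)
theorem rb_18 (hinv : ∀ x, g (inv x) = (g x)⁻¹) (hr : ∀ r ∈ rels, (r.map g).prod = 1) : (([.ci, .ei, .fi, .e, .e, .f, .bi, .f, .c, .bi] : List Lt).map g).prod = 1 := inv_at hinv (rf_18 hinv hr)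
theorem rf_19 (hinv : ∀ x, g (inv x) = (g x)⁻¹) (hr : ∀ r ∈ rels, (r.map g).prod = 1) : (([.b, .e, .b, .f, .c, .ei, .f, .b, .f, .c] : List Lt).map g).prod = 1 := hr _ (by decide +kernel)
theorem rb_19 (hinv : ∀ x, g (inv x) = (g x)⁻¹) (hr : ∀ r ∈ rels, (r.map g).prod = 1) : (([.ci, .fi, .bi, .fi, .e, .ci, .fi, .bi, .ei, .bi] : List Lt).map g).prod = 1 := inv_at hinv (rf_19 hinv hr)
theorem rf_20 (hinv : ∀ x, g (inv x) = (g x)⁻¹) (hr : ∀ r ∈ rels, (r.map g).prod = 1) : (([.d, .ci, .di, .f, .b, .ei, .fi, .ei, .fi, .b, .e, .bi, .fi] : List Lt).map g).prod = 1 := hr _ (by decide +kernel)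
theorem rb_20 (hinv : ∀ x, g (inv x) = (g x)⁻¹) (hr : ∀ r ∈ rels, (r.map g).prod = 1) : (([.f, .b, .ei, .bi, .f, .e, .f, .e, .bi, .fi, .d, .c, .di] : List Lt).map g).prod = 1 := inv_at hinv (rf_20 hinv hr)
theorem rf_21 (hinv : ∀ x, g (inv x) = (g x)⁻¹) (hr : ∀ r ∈ rels, (r.map g).prod = 1) : (([.bi, .fi, .d, .ei, .bi, .di, .f, .f, .bi, .d, .b, .fi, .fi, .d, .b, .e, .di, .f, .b, .d] : List Lt).map g).prod = 1 := hr _ (by decide +kernel)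
theorem rb_21 (hinv : ∀ x, g (inv x) = (g x)⁻¹) (hr : ∀ r ∈ rels, (r.map g).prod = 1) : (([.di, .bi, .fi, .d, .ei, .bi, .di, .f, .f, .bi, .di, .b, .fi, .fi, .d, .b, .e, .di, .f, .b] : List Lt).map g).prod = 1 := inv_at hinv (rf_21 hinv hr)
theorem rf_22 (hinv : ∀ x, g (inv x) = (g x)⁻¹) (hr : ∀ r ∈ rels, (r.map g).prod = 1) : (([.b, .bi] : List Lt).map g).prod = 1 := hr _ (by decide +kernel)
theorem rb_22 (hinv : ∀ x, g (inv x) = (g x)⁻¹) (hr : ∀ r ∈ rels, (r.map g).prod = 1) : (([.b, .bi] : List Lt).map g).prod = 1 := inv_at hinv (rf_22 hinv hr)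
theorem rf_23 (hinv : ∀ x, g (inv x) = (g x)⁻¹) (hr : ∀ r ∈ rels, (r.map g).prod = 1) : (([.bi, .b] : List Lt).map g).prod = 1 := hr _ (by decide +kernel)
theorem rb_23 (hinv : ∀ x, g (inv x) = (g x)⁻¹) (hr : ∀ r ∈ rels, (r.map g).prod = 1) : (([.bi, .b] : List Lt).map g).prod = 1 := inv_at hinv (rf_23 hinv hr)
theorem rf_24 (hinv : ∀ x, g (inv x) = (g x)⁻¹) (hr : ∀ r ∈ rels, (r.map g).prod = 1) : (([.e, .ei] : List Lt).map g).prod = 1 := hr _ (by decide +kernel)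
theorem rb_24 (hinv : ∀ x, g (inv x) = (g x)⁻¹) (hr : ∀ r ∈ rels, (r.map g).prod = 1) : (([.e, .ei] : List Lt).map g).prod = 1 := inv_at hinv (rf_24 hinv hr)
theorem rf_25 (hinv : ∀ x, g (inv x) = (g x)⁻¹) (hr : ∀ r ∈ rels, (r.map g).prod = 1) : (([.ei, .e] : List Lt).map g).prod = 1 := hr _ (by decide +kernel)
theorem rb_25 (hinv : ∀ x, g (inv x) = (g x)⁻¹) (hr : ∀ r ∈ rels, (r.map g).prod = 1) : (([.ei, .e] : List Lt).map g).prod = 1 := inv_at hinv (rf_25 hinv hr)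
theorem rf_26 (hinv : ∀ x, g (inv x) = (g x)⁻¹) (hr : ∀ r ∈ rels, (r.map g).prod = 1) : (([.c, .ci] : List Lt).map g).prod = 1 := hr _ (by decide +kernel)
theorem rb_26 (hinv : ∀ x, g (inv x) = (g x)⁻¹) (hr : ∀ r ∈ rels, (r.map g).prod = 1) : (([.c, .ci] : List Lt).map g).prod = 1 := inv_at hinv (rf_26 hinv hr)
theorem rf_27 (hinv : ∀ x, g (inv x) = (g x)⁻¹) (hr : ∀ r ∈ rels, (r.map g).prod = 1) : (([.ci, .c] : List Lt).map g).prod = 1 := hr _ (by decide +kernel)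
theorem rb_27 (hinv : ∀ x, g (inv x) = (g x)⁻¹) (hr : ∀ r ∈ rels, (r.map g).prod = 1) : (([.ci, .c] : List Lt).map g).prod = 1 := inv_at hinv (rf_27 hinv hr)
theorem rf_28 (hinv : ∀ x, g (inv x) = (g x)⁻¹) (hr : ∀ r ∈ rels, (r.map g).prod = 1) : (([.f, .fi] : List Lt).map g).prod = 1 := hr _ (by decide +kernel)
theorem rb_28 (hinv : ∀ x, g (inv x) = (g x)⁻¹) (hr : ∀ r ∈ rels, (r.map g).prod = 1) : (([.f, .fi] : List Lt).map g).prod = 1 := inv_at hinv (rf_28 hinv hr)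
theorem rf_29 (hinv : ∀ x, g (inv x) = (g x)⁻¹) (hr : ∀ r ∈ rels, (r.map g).prod = 1) : (([.fi, .f] : List Lt).map g).prod = 1 := hr _ (by decide +kernel)
theorem rb_29 (hinv : ∀ x, g (inv x) = (g x)⁻¹) (hr : ∀ r ∈ rels, (r.map g).prod = 1) : (([.fi, .f] : List Lt).map g).prod = 1 := inv_at hinv (rf_29 hinv hr)
theorem rf_30 (hinv : ∀ x, g (inv x) = (g x)⁻¹) (hr : ∀ r ∈ rels, (r.map g).prod = 1) : (([.d, .di] : List Lt).map g).prod = 1 := hr _ (by decide +kernel)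
theorem rb_30 (hinv : ∀ x, g (inv x) = (g x)⁻¹) (hr : ∀ r ∈ rels, (r.map g).prod = 1) : (([.d, .di] : List Lt).map g).prod = 1 := inv_at hinv (rf_30 hinv hr)
theorem rf_31 (hinv : ∀ x, g (inv x) = (g x)⁻¹) (hr : ∀ r ∈ rels, (r.map g).prod = 1) : (([.di, .d] : List Lt).map g).prod = 1 := hr _ (by decide +kernel)
theorem rb_31 (hinv : ∀ x, g (inv x) = (g x)⁻¹) (hr : ∀ r ∈ rels, (r.map g).prod = 1) : (([.di, .d] : List Lt).map g).prod = 1 := inv_at hinv (rf_31 hinv hr)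
/-- the points of the nodes -/
noncomputable def cP (g : Lt → G) (H : Subgroup G) : ℕ → G ⧸ H := cc (fa g) lt P ((1 : G) : G ⧸ H)
theorem dp_b_0_s (hinv : ∀ x, g (inv x) = (g x)⁻¹) (hr : ∀ r ∈ rels, (r.map g).prod = 1) (hH : ∀ r ∈ subs, (r.map g).prod ∈ H)
    (j u : ℕ) (hu : u < M) (h : dp_b_0 j u = true) : Good (fa g) T MG M (cP g H) Lt.b u := by
  unfold dp_b_0 at h
  rcases brec_true h with h | h
  · exact lF_good (T := T) (x := Lt.b) (by decide) [Lt.ci, Lt.e, Lt.f, Lt.e, Lt.bi, Lt.ci, Lt.bi, Lt.f] (hole_at (rb_7 hinv hr) 4 rfl) h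
  · exact lF_good (T := T) (x := Lt.b) (by decide) [Lt.ei, Lt.fi, Lt.ei, Lt.c, Lt.bi, Lt.fi, Lt.b, Lt.c] (hole_at (rf_7 hinv hr) 1 rfl) h
theorem dp_b_1_s (hinv : ∀ x, g (inv x) = (g x)⁻¹) (hr : ∀ r ∈ rels, (r.map g).prod = 1) (hH : ∀ r ∈ subs, (r.map g).prod ∈ H)
    (j u : ℕ) (hu : u < M) (h : dp_b_1 j u = true) : Good (fa g) T MG M (cP g H) Lt.b u := by
  unfold dp_b_1 at h
  rcases brec_true h with h | h
  · exact lF_good (T := T) (x := Lt.b) (by decide) [Lt.c, Lt.b, Lt.ei, Lt.fi, Lt.ei, Lt.c, Lt.bi, Lt.fi] (hole_at (rf_7 hinv hr) 8 rfl) h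
  · exact dp_b_0_s hinv hr hH j u hu h
theorem dp_b_2_s (hinv : ∀ x, g (inv x) = (g x)⁻¹) (hr : ∀ r ∈ rels, (r.map g).prod = 1) (hH : ∀ r ∈ subs, (r.map g).prod ∈ H)
    (j u : ℕ) (hu : u < M) (h : dp_b_2 j u = true) : Good (fa g) T MG M (cP g H) Lt.b u := by
  unfold dp_b_2 at h
  rcases brec_true h with h | h
  · exact lS_good (T := T) (x := Lt.b) (by decide) hu [Lt.ci, Lt.e, Lt.f, Lt.e, Lt.bi, Lt.ci, Lt.bi, Lt.f] (hole_at (rb_7 hinv hr) 4 rfl) h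
  · exact lS_good (T := T) (x := Lt.b) (by decide) hu [Lt.c, Lt.b, Lt.ei, Lt.fi, Lt.ei, Lt.c, Lt.bi, Lt.fi] (hole_at (rf_7 hinv hr) 8 rfl) h
theorem dp_b_3_s (hinv : ∀ x, g (inv x) = (g x)⁻¹) (hr : ∀ r ∈ rels, (r.map g).prod = 1) (hH : ∀ r ∈ subs, (r.map g).prod ∈ H)
    (j u : ℕ) (hu : u < M) (h : dp_b_3 j u = true) : Good (fa g) T MG M (cP g H) Lt.b u := by
  unfold dp_b_3 at h
  rcases brec_true h with h | h
  · exact lS_good (T := T) (x := Lt.b) (by decide) hu [Lt.ei, Lt.fi, Lt.ei, Lt.c, Lt.bi, Lt.fi, Lt.b, Lt.c] (hole_at (rf_7 hinv hr) 1 rfl) h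
  · exact lF_good (T := T) (x := Lt.b) (by decide) [Lt.ci, Lt.e, Lt.bi, Lt.f, Lt.ci, Lt.e, Lt.b, Lt.e, Lt.fi] (hole_at (rf_11 hinv hr) 4 rfl) h
theorem dp_b_4_s (hinv : ∀ x, g (inv x) = (g x)⁻¹) (hr : ∀ r ∈ rels, (r.map g).prod = 1) (hH : ∀ r ∈ subs, (r.map g).prod ∈ H)
    (j u : ℕ) (hu : u < M) (h : dp_b_4 j u = true) : Good (fa g) T MG M (cP g H) Lt.b u := by
  unfold dp_b_4 at h
  rcases brec_true h with h | h
  · exact lF_good (T := T) (x := Lt.b) (by decide) [Lt.ci, Lt.fi, Lt.c, Lt.bi, Lt.ei, Lt.ci, Lt.fi, Lt.ei, Lt.ci] (hole_at (rb_12 hinv hr) 6 rfl) h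
  · exact lF_good (T := T) (x := Lt.b) (by decide) [Lt.ei, Lt.c, Lt.bi, Lt.f, Lt.ei, Lt.bi, Lt.ei, Lt.c, Lt.fi] (hole_at (rb_11 hinv hr) 4 rfl) h
theorem dp_b_5_s (hinv : ∀ x, g (inv x) = (g x)⁻¹) (hr : ∀ r ∈ rels, (r.map g).prod = 1) (hH : ∀ r ∈ subs, (r.map g).prod ∈ H)
    (j u : ℕ) (hu : u < M) (h : dp_b_5 j u = true) : Good (fa g) T MG M (cP g H) Lt.b u := by
  unfold dp_b_5 at h
  rcases brec_true h with h | h
  · exact lS_good (T := T) (x := Lt.b) (by decide) hu [Lt.d, Lt.ci, Lt.di] (hole_at (rf_3 hinv hr) 0 rfl) h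
  · exact dp_b_4_s hinv hr hH j u hu h
theorem dp_b_6_s (hinv : ∀ x, g (inv x) = (g x)⁻¹) (hr : ∀ r ∈ rels, (r.map g).prod = 1) (hH : ∀ r ∈ subs, (r.map g).prod ∈ H)
    (j u : ℕ) (hu : u < M) (h : dp_b_6 j u = true) : Good (fa g) T MG M (cP g H) Lt.b u := by
  unfold dp_b_6 at h
  rcases brec_true h with h | h
  · exact dp_b_3_s hinv hr hH j u hu h
  · exact dp_b_5_s hinv hr hH j u hu h
theorem dp_b_7_s (hinv : ∀ x, g (inv x) = (g x)⁻¹) (hr : ∀ r ∈ rels, (r.map g).prod = 1) (hH : ∀ r ∈ subs, (r.map g).prod ∈ H)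
    (j u : ℕ) (hu : u < M) (h : dp_b_7 j u = true) : Good (fa g) T MG M (cP g H) Lt.b u := by
  unfold dp_b_7 at h
  rcases brec_true h with h | h
  · exact dp_b_2_s hinv hr hH j u hu h
  · exact dp_b_6_s hinv hr hH j u hu h
theorem dp_b_8_s (hinv : ∀ x, g (inv x) = (g x)⁻¹) (hr : ∀ r ∈ rels, (r.map g).prod = 1) (hH : ∀ r ∈ subs, (r.map g).prod ∈ H)
    (j u : ℕ) (hu : u < M) (h : dp_b_8 j u = true) : Good (fa g) T MG M (cP g H) Lt.b u := by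
  unfold dp_b_8 at h
  rcases brec_true h with h | h
  · exact lF_good (T := T) (x := Lt.b) (by decide) [Lt.e, Lt.e, Lt.fi, Lt.fi, Lt.ci, Lt.fi, Lt.c, Lt.bi, Lt.e] (hole_at (rf_17 hinv hr) 1 rfl) h
  · exact lF_good (T := T) (x := Lt.b) (by decide) [Lt.fi, Lt.ei, Lt.ei, Lt.f, Lt.e, Lt.c, Lt.b, Lt.ci, Lt.fi] (hole_at (rf_18 hinv hr) 4 rfl) h
theorem dp_b_9_s (hinv : ∀ x, g (inv x) = (g x)⁻¹) (hr : ∀ r ∈ rels, (r.map g).prod = 1) (hH : ∀ r ∈ subs, (r.map g).prod ∈ H)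
    (j u : ℕ) (hu : u < M) (h : dp_b_9 j u = true) : Good (fa g) T MG M (cP g H) Lt.b u := by
  unfold dp_b_9 at h
  rcases brec_true h with h | h
  · exact lF_good (T := T) (x := Lt.b) (by decide) [Lt.f, Lt.c, Lt.b, Lt.e, Lt.b, Lt.f, Lt.c, Lt.ei, Lt.f] (hole_at (rf_19 hinv hr) 8 rfl) h
  · exact dp_b_8_s hinv hr hH j u hu h
theorem dp_b_10_s (hinv : ∀ x, g (inv x) = (g x)⁻¹) (hr : ∀ r ∈ rels, (r.map g).prod = 1) (hH : ∀ r ∈ subs, (r.map g).prod ∈ H)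
    (j u : ℕ) (hu : u < M) (h : dp_b_10 j u = true) : Good (fa g) T MG M (cP g H) Lt.b u := by
  unfold dp_b_10 at h
  rcases brec_true h with h | h
  · exact lF_good (T := T) (x := Lt.b) (by decide) [Lt.ei, Lt.f, Lt.b, Lt.ei, Lt.b, Lt.ei, Lt.f, Lt.b, Lt.ei] (hole_at (rf_9 hinv hr) 3 rfl) h
  · exact lF_good (T := T) (x := Lt.b) (by decide) [Lt.e, Lt.fi, Lt.ei, Lt.f, Lt.ci, Lt.b, Lt.e, Lt.bi, Lt.ei] (hole_at (rf_15 hinv hr) 5 rfl) h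
theorem dp_b_11_s (hinv : ∀ x, g (inv x) = (g x)⁻¹) (hr : ∀ r ∈ rels, (r.map g).prod = 1) (hH : ∀ r ∈ subs, (r.map g).prod ∈ H)
    (j u : ℕ) (hu : u < M) (h : dp_b_11 j u = true) : Good (fa g) T MG M (cP g H) Lt.b u := by
  unfold dp_b_11 at h
  rcases brec_true h with h | h
  · exact lF_good (T := T) (x := Lt.b) (by decide) [Lt.e, Lt.fi, Lt.b, Lt.ci, Lt.e, Lt.bi, Lt.f, Lt.ci, Lt.e] (hole_at (rf_11 hinv hr) 1 rfl) h
  · exact dp_b_10_s hinv hr hH j u hu h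
theorem dp_b_12_s (hinv : ∀ x, g (inv x) = (g x)⁻¹) (hr : ∀ r ∈ rels, (r.map g).prod = 1) (hH : ∀ r ∈ subs, (r.map g).prod ∈ H)
    (j u : ℕ) (hu : u < M) (h : dp_b_12 j u = true) : Good (fa g) T MG M (cP g H) Lt.b u := by
  unfold dp_b_12 at h
  rcases brec_true h with h | h
  · exact lF_good (T := T) (x := Lt.b) (by decide) [Lt.ci, Lt.f, Lt.c, Lt.f, Lt.f, Lt.ei, Lt.ei, Lt.bi, Lt.ei] (hole_at (rb_17 hinv hr) 2 rfl) h
  · exact lF_good (T := T) (x := Lt.b) (by decide) [Lt.e, Lt.bi, Lt.ei, Lt.b, Lt.e, Lt.fi, Lt.ei, Lt.f, Lt.ci] (hole_at (rf_15 hinv hr) 1 rfl) h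
theorem dp_b_13_s (hinv : ∀ x, g (inv x) = (g x)⁻¹) (hr : ∀ r ∈ rels, (r.map g).prod = 1) (hH : ∀ r ∈ subs, (r.map g).prod ∈ H)
    (j u : ℕ) (hu : u < M) (h : dp_b_13 j u = true) : Good (fa g) T MG M (cP g H) Lt.b u := by
  unfold dp_b_13 at h
  rcases brec_true h with h | h
  · exact lF_good (T := T) (x := Lt.b) (by decide) [Lt.e, Lt.bi, Lt.e, Lt.e, Lt.b, Lt.e, Lt.bi, Lt.e, Lt.e] (hole_at (rf_14 hinv hr) 1 rfl) h
  · exact lF_good (T := T) (x := Lt.b) (by decide) [Lt.ci, Lt.f, Lt.c, Lt.bi, Lt.c, Lt.e, Lt.f, Lt.c, Lt.e] (hole_at (rf_12 hinv hr) 1 rfl) h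
theorem dp_b_14_s (hinv : ∀ x, g (inv x) = (g x)⁻¹) (hr : ∀ r ∈ rels, (r.map g).prod = 1) (hH : ∀ r ∈ subs, (r.map g).prod ∈ H)
    (j u : ℕ) (hu : u < M) (h : dp_b_14 j u = true) : Good (fa g) T MG M (cP g H) Lt.b u := by
  unfold dp_b_14 at h
  rcases brec_true h with h | h
  · exact dp_b_12_s hinv hr hH j u hu h
  · exact dp_b_13_s hinv hr hH j u hu h
theorem dp_b_15_s (hinv : ∀ x, g (inv x) = (g x)⁻¹) (hr : ∀ r ∈ rels, (r.map g).prod = 1) (hH : ∀ r ∈ subs, (r.map g).prod ∈ H)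
    (j u : ℕ) (hu : u < M) (h : dp_b_15 j u = true) : Good (fa g) T MG M (cP g H) Lt.b u := by
  unfold dp_b_15 at h
  rcases brec_true h with h | h
  · exact dp_b_11_s hinv hr hH j u hu h
  · exact dp_b_14_s hinv hr hH j u hu h
theorem dp_b_16_s (hinv : ∀ x, g (inv x) = (g x)⁻¹) (hr : ∀ r ∈ rels, (r.map g).prod = 1) (hH : ∀ r ∈ subs, (r.map g).prod ∈ H)
    (j u : ℕ) (hu : u < M) (h : dp_b_16 j u = true) : Good (fa g) T MG M (cP g H) Lt.b u := by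
  unfold dp_b_16 at h
  rcases brec_true h with h | h
  · exact dp_b_9_s hinv hr hH j u hu h
  · exact dp_b_15_s hinv hr hH j u hu h
theorem dp_b_17_s (hinv : ∀ x, g (inv x) = (g x)⁻¹) (hr : ∀ r ∈ rels, (r.map g).prod = 1) (hH : ∀ r ∈ subs, (r.map g).prod ∈ H)
    (j u : ℕ) (hu : u < M) (h : dp_b_17 j u = true) : Good (fa g) T MG M (cP g H) Lt.b u := by
  unfold dp_b_17 at h
  rcases brec_true h with h | h
  · exact lF_good (T := T) (x := Lt.b) (by decide) [Lt.ci, Lt.fi, Lt.b, Lt.fi, Lt.ei, Lt.ei, Lt.f, Lt.e, Lt.c] (hole_at (rf_18 hinv hr) 1 rfl) h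
  · exact lF_good (T := T) (x := Lt.b) (by decide) [Lt.e, Lt.b, Lt.f, Lt.c, Lt.ei, Lt.f, Lt.b, Lt.f, Lt.c] (hole_at (rf_19 hinv hr) 1 rfl) h
theorem dp_b_18_s (hinv : ∀ x, g (inv x) = (g x)⁻¹) (hr : ∀ r ∈ rels, (r.map g).prod = 1) (hH : ∀ r ∈ subs, (r.map g).prod ∈ H)
    (j u : ℕ) (hu : u < M) (h : dp_b_18 j u = true) : Good (fa g) T MG M (cP g H) Lt.b u := by
  unfold dp_b_18 at h
  rcases brec_true h with h | h
  · exact lS_good (T := T) (x := Lt.b) (by decide) hu [Lt.b, Lt.b] (hole_at (rf_0 hinv hr) 0 rfl) h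
  · exact lS_good (T := T) (x := Lt.b) (by decide) hu [Lt.f, Lt.c, Lt.b, Lt.e, Lt.b, Lt.f, Lt.c, Lt.ei, Lt.f] (hole_at (rf_19 hinv hr) 8 rfl) h
theorem dp_b_19_s (hinv : ∀ x, g (inv x) = (g x)⁻¹) (hr : ∀ r ∈ rels, (r.map g).prod = 1) (hH : ∀ r ∈ subs, (r.map g).prod ∈ H)
    (j u : ℕ) (hu : u < M) (h : dp_b_19 j u = true) : Good (fa g) T MG M (cP g H) Lt.b u := by
  unfold dp_b_19 at h
  rcases brec_true h with h | h
  · exact dp_b_17_s hinv hr hH j u hu h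
  · exact dp_b_18_s hinv hr hH j u hu h
theorem dp_b_20_s (hinv : ∀ x, g (inv x) = (g x)⁻¹) (hr : ∀ r ∈ rels, (r.map g).prod = 1) (hH : ∀ r ∈ subs, (r.map g).prod ∈ H)
    (j u : ℕ) (hu : u < M) (h : dp_b_20 j u = true) : Good (fa g) T MG M (cP g H) Lt.b u := by
  unfold dp_b_20 at h
  rcases brec_true h with h | h
  · exact lF_good (T := T) (x := Lt.b) (by decide) [Lt.f, Lt.c, Lt.ei, Lt.f, Lt.b, Lt.f, Lt.c, Lt.b, Lt.e] (hole_at (rf_19 hinv hr) 3 rfl) h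
  · exact lF_good (T := T) (x := Lt.b) (by decide) [Lt.ei, Lt.ei, Lt.bi, Lt.ei, Lt.b, Lt.ei, Lt.ei, Lt.bi, Lt.ei] (hole_at (rb_8 hinv hr) 2 rfl) h
theorem dp_b_21_s (hinv : ∀ x, g (inv x) = (g x)⁻¹) (hr : ∀ r ∈ rels, (r.map g).prod = 1) (hH : ∀ r ∈ subs, (r.map g).prod ∈ H)
    (j u : ℕ) (hu : u < M) (h : dp_b_21 j u = true) : Good (fa g) T MG M (cP g H) Lt.b u := by
  unfold dp_b_21 at h
  rcases brec_true h with h | h
  · exact lS_good (T := T) (x := Lt.b) (by decide) hu [Lt.e, Lt.bi, Lt.e, Lt.e, Lt.b, Lt.e, Lt.bi, Lt.e, Lt.e] (hole_at (rf_14 hinv hr) 1 rfl) h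
  · exact lS_good (T := T) (x := Lt.b) (by decide) hu [Lt.e, Lt.e, Lt.bi, Lt.e, Lt.b, Lt.e, Lt.e, Lt.bi, Lt.e] (hole_at (rf_8 hinv hr) 1 rfl) h
theorem dp_b_22_s (hinv : ∀ x, g (inv x) = (g x)⁻¹) (hr : ∀ r ∈ rels, (r.map g).prod = 1) (hH : ∀ r ∈ subs, (r.map g).prod ∈ H)
    (j u : ℕ) (hu : u < M) (h : dp_b_22 j u = true) : Good (fa g) T MG M (cP g H) Lt.b u := by
  unfold dp_b_22 at h
  rcases brec_true h with h | h
  · exact lF_good (T := T) (x := Lt.b) (by decide) [Lt.ei, Lt.b, Lt.ei, Lt.f, Lt.b, Lt.ei, Lt.b, Lt.ei, Lt.f] (hole_at (rf_9 hinv hr) 1 rfl) h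
  · exact dp_b_21_s hinv hr hH j u hu h
theorem dp_b_23_s (hinv : ∀ x, g (inv x) = (g x)⁻¹) (hr : ∀ r ∈ rels, (r.map g).prod = 1) (hH : ∀ r ∈ subs, (r.map g).prod ∈ H)
    (j u : ℕ) (hu : u < M) (h : dp_b_23 j u = true) : Good (fa g) T MG M (cP g H) Lt.b u := by
  unfold dp_b_23 at h
  rcases brec_true h with h | h
  · exact dp_b_20_s hinv hr hH j u hu h
  · exact dp_b_22_s hinv hr hH j u hu h
theorem dp_b_24_s (hinv : ∀ x, g (inv x) = (g x)⁻¹) (hr : ∀ r ∈ rels, (r.map g).prod = 1) (hH : ∀ r ∈ subs, (r.map g).prod ∈ H)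
    (j u : ℕ) (hu : u < M) (h : dp_b_24 j u = true) : Good (fa g) T MG M (cP g H) Lt.b u := by
  unfold dp_b_24 at h
  rcases brec_true h with h | h
  · exact dp_b_19_s hinv hr hH j u hu h
  · exact dp_b_23_s hinv hr hH j u hu h
theorem dp_b_25_s (hinv : ∀ x, g (inv x) = (g x)⁻¹) (hr : ∀ r ∈ rels, (r.map g).prod = 1) (hH : ∀ r ∈ subs, (r.map g).prod ∈ H)
    (j u : ℕ) (hu : u < M) (h : dp_b_25 j u = true) : Good (fa g) T MG M (cP g H) Lt.b u := by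
  unfold dp_b_25 at h
  rcases brec_true h with h | h
  · exact lS_good (T := T) (x := Lt.b) (by decide) hu [Lt.ci, Lt.fi, Lt.c, Lt.bi, Lt.ei, Lt.ci, Lt.fi, Lt.ei, Lt.ci] (hole_at (rb_12 hinv hr) 6 rfl) h
  · exact lS_good (T := T) (x := Lt.b) (by decide) hu [Lt.e, Lt.fi, Lt.b, Lt.ci, Lt.e, Lt.bi, Lt.f, Lt.ci, Lt.e] (hole_at (rf_11 hinv hr) 1 rfl) h
theorem dp_b_26_s (hinv : ∀ x, g (inv x) = (g x)⁻¹) (hr : ∀ r ∈ rels, (r.map g).prod = 1) (hH : ∀ r ∈ subs, (r.map g).prod ∈ H)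
    (j u : ℕ) (hu : u < M) (h : dp_b_26 j u = true) : Good (fa g) T MG M (cP g H) Lt.b u := by
  unfold dp_b_26 at h
  rcases brec_true h with h | h
  · exact lS_good (T := T) (x := Lt.b) (by decide) hu [Lt.ei, Lt.f, Lt.b, Lt.ei, Lt.b, Lt.ei, Lt.f, Lt.b, Lt.ei] (hole_at (rf_9 hinv hr) 3 rfl) h
  · exact dp_b_25_s hinv hr hH j u hu h
theorem dp_b_27_s (hinv : ∀ x, g (inv x) = (g x)⁻¹) (hr : ∀ r ∈ rels, (r.map g).prod = 1) (hH : ∀ r ∈ subs, (r.map g).prod ∈ H)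
    (j u : ℕ) (hu : u < M) (h : dp_b_27 j u = true) : Good (fa g) T MG M (cP g H) Lt.b u := by
  unfold dp_b_27 at h
  rcases brec_true h with h | h
  · exact lF_good (T := T) (x := Lt.b) (by decide) [Lt.e, Lt.e, Lt.bi, Lt.e, Lt.b, Lt.e, Lt.e, Lt.bi, Lt.e] (hole_at (rf_8 hinv hr) 1 rfl) h
  · exact lS_good (T := T) (x := Lt.b) (by decide) hu [Lt.e, Lt.fi, Lt.ei, Lt.f, Lt.ci, Lt.b, Lt.e, Lt.bi, Lt.ei] (hole_at (rf_15 hinv hr) 5 rfl) h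
theorem dp_b_28_s (hinv : ∀ x, g (inv x) = (g x)⁻¹) (hr : ∀ r ∈ rels, (r.map g).prod = 1) (hH : ∀ r ∈ subs, (r.map g).prod ∈ H)
    (j u : ℕ) (hu : u < M) (h : dp_b_28 j u = true) : Good (fa g) T MG M (cP g H) Lt.b u := by
  unfold dp_b_28 at h
  rcases brec_true h with h | h
  · exact lS_good (T := T) (x := Lt.b) (by decide) hu [Lt.ci, Lt.e, Lt.bi, Lt.f, Lt.ci, Lt.e, Lt.b, Lt.e, Lt.fi] (hole_at (rf_11 hinv hr) 4 rfl) h
  · exact lS_good (T := T) (x := Lt.b) (by decide) hu [Lt.ei, Lt.c, Lt.bi, Lt.f, Lt.ei, Lt.bi, Lt.ei, Lt.c, Lt.fi] (hole_at (rb_11 hinv hr) 4 rfl) h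
theorem dp_b_29_s (hinv : ∀ x, g (inv x) = (g x)⁻¹) (hr : ∀ r ∈ rels, (r.map g).prod = 1) (hH : ∀ r ∈ subs, (r.map g).prod ∈ H)
    (j u : ℕ) (hu : u < M) (h : dp_b_29 j u = true) : Good (fa g) T MG M (cP g H) Lt.b u := by
  unfold dp_b_29 at h
  rcases brec_true h with h | h
  · exact dp_b_27_s hinv hr hH j u hu h
  · exact dp_b_28_s hinv hr hH j u hu h
theorem dp_b_30_s (hinv : ∀ x, g (inv x) = (g x)⁻¹) (hr : ∀ r ∈ rels, (r.map g).prod = 1) (hH : ∀ r ∈ subs, (r.map g).prod ∈ H)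
    (j u : ℕ) (hu : u < M) (h : dp_b_30 j u = true) : Good (fa g) T MG M (cP g H) Lt.b u := by
  unfold dp_b_30 at h
  rcases brec_true h with h | h
  · exact dp_b_26_s hinv hr hH j u hu h
  · exact dp_b_29_s hinv hr hH j u hu h
theorem dp_b_31_s (hinv : ∀ x, g (inv x) = (g x)⁻¹) (hr : ∀ r ∈ rels, (r.map g).prod = 1) (hH : ∀ r ∈ subs, (r.map g).prod ∈ H)
    (j u : ℕ) (hu : u < M) (h : dp_b_31 j u = true) : Good (fa g) T MG M (cP g H) Lt.b u := by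
  unfold dp_b_31 at h
  rcases brec_true h with h | h
  · exact lS_good (T := T) (x := Lt.b) (by decide) hu [Lt.fi, Lt.ei, Lt.ei, Lt.f, Lt.e, Lt.c, Lt.b, Lt.ci, Lt.fi] (hole_at (rf_18 hinv hr) 4 rfl) h
  · exact lS_good (T := T) (x := Lt.b) (by decide) hu [Lt.ci, Lt.fi, Lt.b, Lt.fi, Lt.ei, Lt.ei, Lt.f, Lt.e, Lt.c] (hole_at (rf_18 hinv hr) 1 rfl) h
theorem dp_b_32_s (hinv : ∀ x, g (inv x) = (g x)⁻¹) (hr : ∀ r ∈ rels, (r.map g).prod = 1) (hH : ∀ r ∈ subs, (r.map g).prod ∈ H)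
    (j u : ℕ) (hu : u < M) (h : dp_b_32 j u = true) : Good (fa g) T MG M (cP g H) Lt.b u := by
  unfold dp_b_32 at h
  rcases brec_true h with h | h
  · exact lS_good (T := T) (x := Lt.b) (by decide) hu [Lt.ei, Lt.bi, Lt.ei, Lt.ei, Lt.b, Lt.ei, Lt.bi, Lt.ei, Lt.ei] (hole_at (rb_14 hinv hr) 3 rfl) h
  · exact lS_good (T := T) (x := Lt.b) (by decide) hu [Lt.ei, Lt.b, Lt.ei, Lt.f, Lt.b, Lt.ei, Lt.b, Lt.ei, Lt.f] (hole_at (rf_9 hinv hr) 1 rfl) h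
theorem dp_b_33_s (hinv : ∀ x, g (inv x) = (g x)⁻¹) (hr : ∀ r ∈ rels, (r.map g).prod = 1) (hH : ∀ r ∈ subs, (r.map g).prod ∈ H)
    (j u : ℕ) (hu : u < M) (h : dp_b_33 j u = true) : Good (fa g) T MG M (cP g H) Lt.b u := by
  unfold dp_b_33 at h
  rcases brec_true h with h | h
  · exact lH_good (T := T) (x := Lt.b) (by decide) [] [] (by rw [show cP g H 0 = _ from cc_zero]; exact sub_rel hinv (hH _ (by decide))) h
  · exact dp_b_32_s hinv hr hH j u hu h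
theorem dp_b_34_s (hinv : ∀ x, g (inv x) = (g x)⁻¹) (hr : ∀ r ∈ rels, (r.map g).prod = 1) (hH : ∀ r ∈ subs, (r.map g).prod ∈ H)
    (j u : ℕ) (hu : u < M) (h : dp_b_34 j u = true) : Good (fa g) T MG M (cP g H) Lt.b u := by
  unfold dp_b_34 at h
  rcases brec_true h with h | h
  · exact dp_b_31_s hinv hr hH j u hu h
  · exact dp_b_33_s hinv hr hH j u hu h
theorem dp_b_35_s (hinv : ∀ x, g (inv x) = (g x)⁻¹) (hr : ∀ r ∈ rels, (r.map g).prod = 1) (hH : ∀ r ∈ subs, (r.map g).prod ∈ H)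
    (j u : ℕ) (hu : u < M) (h : dp_b_35 j u = true) : Good (fa g) T MG M (cP g H) Lt.b u := by
  unfold dp_b_35 at h
  rcases brec_true h with h | h
  · exact lS_good (T := T) (x := Lt.b) (by decide) hu [Lt.e, Lt.b, Lt.f, Lt.c, Lt.ei, Lt.f, Lt.b, Lt.f, Lt.c] (hole_at (rf_19 hinv hr) 1 rfl) h
  · exact lF_good (T := T) (x := Lt.b) (by decide) [Lt.ei, Lt.bi, Lt.ei, Lt.ei, Lt.b, Lt.ei, Lt.bi, Lt.ei, Lt.ei] (hole_at (rb_14 hinv hr) 3 rfl) h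
theorem dp_b_36_s (hinv : ∀ x, g (inv x) = (g x)⁻¹) (hr : ∀ r ∈ rels, (r.map g).prod = 1) (hH : ∀ r ∈ subs, (r.map g).prod ∈ H)
    (j u : ℕ) (hu : u < M) (h : dp_b_36 j u = true) : Good (fa g) T MG M (cP g H) Lt.b u := by
  unfold dp_b_36 at h
  rcases brec_true h with h | h
  · exact lF_good (T := T) (x := Lt.b) (by decide) [Lt.e, Lt.bi, Lt.fi, Lt.d, Lt.ci, Lt.di, Lt.f, Lt.b, Lt.ei, Lt.fi, Lt.ei, Lt.fi] (hole_at (rf_20 hinv hr) 10 rfl) h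
  · exact lS_good (T := T) (x := Lt.b) (by decide) hu [Lt.ci, Lt.f, Lt.c, Lt.bi, Lt.c, Lt.e, Lt.f, Lt.c, Lt.e] (hole_at (rf_12 hinv hr) 1 rfl) h
theorem dp_b_37_s (hinv : ∀ x, g (inv x) = (g x)⁻¹) (hr : ∀ r ∈ rels, (r.map g).prod = 1) (hH : ∀ r ∈ subs, (r.map g).prod ∈ H)
    (j u : ℕ) (hu : u < M) (h : dp_b_37 j u = true) : Good (fa g) T MG M (cP g H) Lt.b u := by
  unfold dp_b_37 at h
  rcases brec_true h with h | h
  · exact dp_b_35_s hinv hr hH j u hu h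
  · exact dp_b_36_s hinv hr hH j u hu h
theorem dp_b_38_s (hinv : ∀ x, g (inv x) = (g x)⁻¹) (hr : ∀ r ∈ rels, (r.map g).prod = 1) (hH : ∀ r ∈ subs, (r.map g).prod ∈ H)
    (j u : ℕ) (hu : u < M) (h : dp_b_38 j u = true) : Good (fa g) T MG M (cP g H) Lt.b u := by
  unfold dp_b_38 at h
  rcases brec_true h with h | h
  · exact lS_good (T := T) (x := Lt.b) (by decide) hu [Lt.ei, Lt.bi, Lt.c, Lt.fi, Lt.e, Lt.f, Lt.ei, Lt.bi, Lt.e] (hole_at (rb_15 hinv hr) 8 rfl) h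
  · exact lS_good (T := T) (x := Lt.b) (by decide) hu [Lt.ei, Lt.fi, Lt.ei, Lt.fi, Lt.b, Lt.e, Lt.bi, Lt.fi, Lt.d, Lt.ci, Lt.di, Lt.f] (hole_at (rf_20 hinv hr) 5 rfl) h
theorem dp_b_39_s (hinv : ∀ x, g (inv x) = (g x)⁻¹) (hr : ∀ r ∈ rels, (r.map g).prod = 1) (hH : ∀ r ∈ subs, (r.map g).prod ∈ H)
    (j u : ℕ) (hu : u < M) (h : dp_b_39 j u = true) : Good (fa g) T MG M (cP g H) Lt.b u := by
  unfold dp_b_39 at h
  rcases brec_true h with h | h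
  · exact lS_good (T := T) (x := Lt.b) (by decide) hu [Lt.e, Lt.e, Lt.fi, Lt.fi, Lt.ci, Lt.fi, Lt.c, Lt.bi, Lt.e] (hole_at (rf_17 hinv hr) 1 rfl) h
  · exact lF_good (T := T) (x := Lt.b) (by decide) [Lt.ei, Lt.bi, Lt.c, Lt.fi, Lt.e, Lt.f, Lt.ei, Lt.bi, Lt.e] (hole_at (rb_15 hinv hr) 8 rfl) h
theorem dp_b_40_s (hinv : ∀ x, g (inv x) = (g x)⁻¹) (hr : ∀ r ∈ rels, (r.map g).prod = 1) (hH : ∀ r ∈ subs, (r.map g).prod ∈ H)
    (j u : ℕ) (hu : u < M) (h : dp_b_40 j u = true) : Good (fa g) T MG M (cP g H) Lt.b u := by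
  unfold dp_b_40 at h
  rcases brec_true h with h | h
  · exact dp_b_38_s hinv hr hH j u hu h
  · exact dp_b_39_s hinv hr hH j u hu h
theorem dp_b_41_s (hinv : ∀ x, g (inv x) = (g x)⁻¹) (hr : ∀ r ∈ rels, (r.map g).prod = 1) (hH : ∀ r ∈ subs, (r.map g).prod ∈ H)
    (j u : ℕ) (hu : u < M) (h : dp_b_41 j u = true) : Good (fa g) T MG M (cP g H) Lt.b u := by
  unfold dp_b_41 at h
  rcases brec_true h with h | h
  · exact dp_b_37_s hinv hr hH j u hu h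
  · exact dp_b_40_s hinv hr hH j u hu h
theorem dp_b_42_s (hinv : ∀ x, g (inv x) = (g x)⁻¹) (hr : ∀ r ∈ rels, (r.map g).prod = 1) (hH : ∀ r ∈ subs, (r.map g).prod ∈ H)
    (j u : ℕ) (hu : u < M) (h : dp_b_42 j u = true) : Good (fa g) T MG M (cP g H) Lt.b u := by
  unfold dp_b_42 at h
  rcases brec_true h with h | h
  · exact dp_b_34_s hinv hr hH j u hu h
  · exact dp_b_41_s hinv hr hH j u hu h
theorem dp_b_43_s (hinv : ∀ x, g (inv x) = (g x)⁻¹) (hr : ∀ r ∈ rels, (r.map g).prod = 1) (hH : ∀ r ∈ subs, (r.map g).prod ∈ H)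
    (j u : ℕ) (hu : u < M) (h : dp_b_43 j u = true) : Good (fa g) T MG M (cP g H) Lt.b u := by
  unfold dp_b_43 at h
  rcases brec_true h with h | h
  · exact dp_b_30_s hinv hr hH j u hu h
  · exact dp_b_42_s hinv hr hH j u hu h
theorem dp_b_44_s (hinv : ∀ x, g (inv x) = (g x)⁻¹) (hr : ∀ r ∈ rels, (r.map g).prod = 1) (hH : ∀ r ∈ subs, (r.map g).prod ∈ H)
    (j u : ℕ) (hu : u < M) (h : dp_b_44 j u = true) : Good (fa g) T MG M (cP g H) Lt.b u := by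
  unfold dp_b_44 at h
  rcases brec_true h with h | h
  · exact dp_b_24_s hinv hr hH j u hu h
  · exact dp_b_43_s hinv hr hH j u hu h
theorem dp_b_45_s (hinv : ∀ x, g (inv x) = (g x)⁻¹) (hr : ∀ r ∈ rels, (r.map g).prod = 1) (hH : ∀ r ∈ subs, (r.map g).prod ∈ H)
    (j u : ℕ) (hu : u < M) (h : dp_b_45 j u = true) : Good (fa g) T MG M (cP g H) Lt.b u := by
  unfold dp_b_45 at h
  rcases brec_true h with h | h
  · exact dp_b_16_s hinv hr hH j u hu h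
  · exact dp_b_44_s hinv hr hH j u hu h
theorem dp_b_46_s (hinv : ∀ x, g (inv x) = (g x)⁻¹) (hr : ∀ r ∈ rels, (r.map g).prod = 1) (hH : ∀ r ∈ subs, (r.map g).prod ∈ H)
    (j u : ℕ) (hu : u < M) (h : dp_b_46 j u = true) : Good (fa g) T MG M (cP g H) Lt.b u := by
  unfold dp_b_46 at h
  rcases brec_true h with h | h
  · exact dp_b_7_s hinv hr hH j u hu h
  · exact dp_b_45_s hinv hr hH j u hu h
theorem dp_b_47_s (hinv : ∀ x, g (inv x) = (g x)⁻¹) (hr : ∀ r ∈ rels, (r.map g).prod = 1) (hH : ∀ r ∈ subs, (r.map g).prod ∈ H)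
    (j u : ℕ) (hu : u < M) (h : dp_b_47 j u = true) : Good (fa g) T MG M (cP g H) Lt.b u := by
  unfold dp_b_47 at h
  rcases brec_true h with h | h
  · exact dp_b_1_s hinv hr hH j u hu h
  · exact dp_b_46_s hinv hr hH j u hu h
theorem dp_b_48_s (hinv : ∀ x, g (inv x) = (g x)⁻¹) (hr : ∀ r ∈ rels, (r.map g).prod = 1) (hH : ∀ r ∈ subs, (r.map g).prod ∈ H)
    (j u : ℕ) (hu : u < M) (h : dp_b_48 j u = true) : Good (fa g) T MG M (cP g H) Lt.b u := by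
  unfold dp_b_48 at h
  rcases brec_true h with h | h
  · rcases brec_true h with h | h
    · exact lDef_good (T := T) (x := Lt.b) (by decide) rfl h
    · exact lS_good (T := T) (x := Lt.b) (by decide) hu [Lt.bi] (hole_at (rf_22 hinv hr) 1 rfl) h
  · exact dp_b_47_s hinv hr hH j u hu h
theorem dp_b_49_s (hinv : ∀ x, g (inv x) = (g x)⁻¹) (hr : ∀ r ∈ rels, (r.map g).prod = 1) (hH : ∀ r ∈ subs, (r.map g).prod ∈ H)
    (j u : ℕ) (hu : u < M) (h : dp_b_49 j u = true) : Good (fa g) T MG M (cP g H) Lt.b u := by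
  unfold dp_b_49 at h
  rcases brec_true h with h | h
  · rcases brec_true h with h | h
    · exact lF3_good (T := T) (x := Lt.b) (by decide) .d .ci .di (hole_at (rf_3 hinv hr) 0 rfl) h
    · exact lPar_good (T := T) (x := Lt.b) (x' := Lt.bi) (by decide) rfl (inv_rel hinv _ _ rfl) h
  · exact dp_b_48_s hinv hr hH j u hu h
theorem snd_b (hinv : ∀ x, g (inv x) = (g x)⁻¹) (hr : ∀ r ∈ rels, (r.map g).prod = 1) (hH : ∀ r ∈ subs, (r.map g).prod ∈ H)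
    (j u : ℕ) (hu : u < M) (h : disp_b j u = true) : Good (fa g) T MG M (cP g H) Lt.b u := by
  unfold disp_b at h
  rcases brec_true h with h | h
  · rcases brec_true h with h | h
    · exact lF1_good (T := T) (x := Lt.b) (by decide) .bi (hole_at (rf_22 hinv hr) 1 rfl) h
    · exact lF_good (T := T) (x := Lt.b) (by decide) [Lt.b, Lt.b] (hole_at (rf_0 hinv hr) 0 rfl) h
  · exact dp_b_49_s hinv hr hH j u hu h
theorem snc_b (hinv : ∀ x, g (inv x) = (g x)⁻¹) (hr : ∀ r ∈ rels, (r.map g).prod = 1) (hH : ∀ r ∈ subs, (r.map g).prod ∈ H)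
    (j u : ℕ) (hu : u < M) (h : chk_b j u = true) : (T Lt.b u < A ∧ Good (fa g) T MG M (cP g H) Lt.b u) ∨ (A ≤ T Lt.b u ∧ MG u < A) := by
  unfold chk_b at h
  cases hb : Nat.ble A (T_b u) with
  | true => rw [hb] at h; exact Or.inr ⟨le_of_ble hb, le_of_ble h⟩
  | false => rw [hb] at h; exact Or.inl ⟨lt_of_ble_false hb, snd_b hinv hr hH j u hu h⟩
theorem dp_bi_0_s (hinv : ∀ x, g (inv x) = (g x)⁻¹) (hr : ∀ r ∈ rels, (r.map g).prod = 1) (hH : ∀ r ∈ subs, (r.map g).prod ∈ H)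
    (j u : ℕ) (hu : u < M) (h : dp_bi_0 j u = true) : Good (fa g) T MG M (cP g H) Lt.bi u := by
  unfold dp_bi_0 at h
  rcases brec_true h with h | h
  · exact lF_good (T := T) (x := Lt.bi) (by decide) [Lt.fi, Lt.b, Lt.c, Lt.b, Lt.ei, Lt.fi, Lt.ei, Lt.c] (hole_at (rf_7 hinv hr) 6 rfl) h
  · exact lF_good (T := T) (x := Lt.bi) (by decide) [Lt.ci, Lt.bi, Lt.f, Lt.b, Lt.ci, Lt.e, Lt.f, Lt.e] (hole_at (rb_7 hinv hr) 0 rfl) h
theorem dp_bi_1_s (hinv : ∀ x, g (inv x) = (g x)⁻¹) (hr : ∀ r ∈ rels, (r.map g).prod = 1) (hH : ∀ r ∈ subs, (r.map g).prod ∈ H)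
    (j u : ℕ) (hu : u < M) (h : dp_bi_1 j u = true) : Good (fa g) T MG M (cP g H) Lt.bi u := by
  unfold dp_bi_1 at h
  rcases brec_true h with h | h
  · exact lF_good (T := T) (x := Lt.bi) (by decide) [Lt.f, Lt.b, Lt.ci, Lt.e, Lt.f, Lt.e, Lt.bi, Lt.ci] (hole_at (rb_7 hinv hr) 2 rfl) h
  · exact dp_bi_0_s hinv hr hH j u hu h
theorem dp_bi_2_s (hinv : ∀ x, g (inv x) = (g x)⁻¹) (hr : ∀ r ∈ rels, (r.map g).prod = 1) (hH : ∀ r ∈ subs, (r.map g).prod ∈ H)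
    (j u : ℕ) (hu : u < M) (h : dp_bi_2 j u = true) : Good (fa g) T MG M (cP g H) Lt.bi u := by
  unfold dp_bi_2 at h
  rcases brec_true h with h | h
  · exact lS_good (T := T) (x := Lt.bi) (by decide) hu [Lt.d, Lt.c, Lt.di] (hole_at (rb_3 hinv hr) 1 rfl) h
  · exact lS_good (T := T) (x := Lt.bi) (by decide) hu [Lt.f, Lt.b, Lt.ci, Lt.e, Lt.f, Lt.e, Lt.bi, Lt.ci] (hole_at (rb_7 hinv hr) 2 rfl) h
theorem dp_bi_3_s (hinv : ∀ x, g (inv x) = (g x)⁻¹) (hr : ∀ r ∈ rels, (r.map g).prod = 1) (hH : ∀ r ∈ subs, (r.map g).prod ∈ H)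
    (j u : ℕ) (hu : u < M) (h : dp_bi_3 j u = true) : Good (fa g) T MG M (cP g H) Lt.bi u := by
  unfold dp_bi_3 at h
  rcases brec_true h with h | h
  · exact lS_good (T := T) (x := Lt.bi) (by decide) hu [Lt.ci, Lt.bi, Lt.f, Lt.b, Lt.ci, Lt.e, Lt.f, Lt.e] (hole_at (rb_7 hinv hr) 0 rfl) h
  · exact dp_bi_2_s hinv hr hH j u hu h
theorem dp_bi_4_s (hinv : ∀ x, g (inv x) = (g x)⁻¹) (hr : ∀ r ∈ rels, (r.map g).prod = 1) (hH : ∀ r ∈ subs, (r.map g).prod ∈ H)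
    (j u : ℕ) (hu : u < M) (h : dp_bi_4 j u = true) : Good (fa g) T MG M (cP g H) Lt.bi u := by
  unfold dp_bi_4 at h
  rcases brec_true h with h | h
  · exact lS_good (T := T) (x := Lt.bi) (by decide) hu [Lt.fi, Lt.b, Lt.c, Lt.b, Lt.ei, Lt.fi, Lt.ei, Lt.c] (hole_at (rf_7 hinv hr) 6 rfl) h
  · exact lF_good (T := T) (x := Lt.bi) (by decide) [Lt.ci, Lt.ei, Lt.fi, Lt.e, Lt.e, Lt.f, Lt.bi, Lt.f, Lt.c] (hole_at (rb_18 hinv hr) 0 rfl) h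
theorem dp_bi_5_s (hinv : ∀ x, g (inv x) = (g x)⁻¹) (hr : ∀ r ∈ rels, (r.map g).prod = 1) (hH : ∀ r ∈ subs, (r.map g).prod ∈ H)
    (j u : ℕ) (hu : u < M) (h : dp_bi_5 j u = true) : Good (fa g) T MG M (cP g H) Lt.bi u := by
  unfold dp_bi_5 at h
  rcases brec_true h with h | h
  · exact lF_good (T := T) (x := Lt.bi) (by decide) [Lt.f, Lt.ei, Lt.bi, Lt.ei, Lt.c, Lt.fi, Lt.b, Lt.ei, Lt.c] (hole_at (rb_11 hinv hr) 7 rfl) h
  · exact lF_good (T := T) (x := Lt.bi) (by decide) [Lt.f, Lt.ci, Lt.e, Lt.b, Lt.e, Lt.fi, Lt.b, Lt.ci, Lt.e] (hole_at (rf_11 hinv hr) 7 rfl) h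
theorem dp_bi_6_s (hinv : ∀ x, g (inv x) = (g x)⁻¹) (hr : ∀ r ∈ rels, (r.map g).prod = 1) (hH : ∀ r ∈ subs, (r.map g).prod ∈ H)
    (j u : ℕ) (hu : u < M) (h : dp_bi_6 j u = true) : Good (fa g) T MG M (cP g H) Lt.bi u := by
  unfold dp_bi_6 at h
  rcases brec_true h with h | h
  · exact dp_bi_4_s hinv hr hH j u hu h
  · exact dp_bi_5_s hinv hr hH j u hu h
theorem dp_bi_7_s (hinv : ∀ x, g (inv x) = (g x)⁻¹) (hr : ∀ r ∈ rels, (r.map g).prod = 1) (hH : ∀ r ∈ subs, (r.map g).prod ∈ H)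
    (j u : ℕ) (hu : u < M) (h : dp_bi_7 j u = true) : Good (fa g) T MG M (cP g H) Lt.bi u := by
  unfold dp_bi_7 at h
  rcases brec_true h with h | h
  · exact dp_bi_3_s hinv hr hH j u hu h
  · exact dp_bi_6_s hinv hr hH j u hu h
theorem dp_bi_8_s (hinv : ∀ x, g (inv x) = (g x)⁻¹) (hr : ∀ r ∈ rels, (r.map g).prod = 1) (hH : ∀ r ∈ subs, (r.map g).prod ∈ H)
    (j u : ℕ) (hu : u < M) (h : dp_bi_8 j u = true) : Good (fa g) T MG M (cP g H) Lt.bi u := by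
  unfold dp_bi_8 at h
  rcases brec_true h with h | h
  · exact lF_good (T := T) (x := Lt.bi) (by decide) [Lt.ci, Lt.fi, Lt.bi, Lt.fi, Lt.e, Lt.ci, Lt.fi, Lt.bi, Lt.ei] (hole_at (rb_19 hinv hr) 0 rfl) h
  · exact lF_good (T := T) (x := Lt.bi) (by decide) [Lt.fi, Lt.e, Lt.ci, Lt.fi, Lt.bi, Lt.ei, Lt.bi, Lt.ci, Lt.fi] (hole_at (rb_19 hinv hr) 3 rfl) h
theorem dp_bi_9_s (hinv : ∀ x, g (inv x) = (g x)⁻¹) (hr : ∀ r ∈ rels, (r.map g).prod = 1) (hH : ∀ r ∈ subs, (r.map g).prod ∈ H)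
    (j u : ℕ) (hu : u < M) (h : dp_bi_9 j u = true) : Good (fa g) T MG M (cP g H) Lt.bi u := by
  unfold dp_bi_9 at h
  rcases brec_true h with h | h
  · exact lF_good (T := T) (x := Lt.bi) (by decide) [Lt.ei, Lt.bi, Lt.ci, Lt.fi, Lt.bi, Lt.fi, Lt.e, Lt.ci, Lt.fi] (hole_at (rb_19 hinv hr) 8 rfl) h
  · exact lS_good (T := T) (x := Lt.bi) (by decide) hu [Lt.f, Lt.ci, Lt.e, Lt.b, Lt.e, Lt.fi, Lt.b, Lt.ci, Lt.e] (hole_at (rf_11 hinv hr) 7 rfl) h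
theorem dp_bi_10_s (hinv : ∀ x, g (inv x) = (g x)⁻¹) (hr : ∀ r ∈ rels, (r.map g).prod = 1) (hH : ∀ r ∈ subs, (r.map g).prod ∈ H)
    (j u : ℕ) (hu : u < M) (h : dp_bi_10 j u = true) : Good (fa g) T MG M (cP g H) Lt.bi u := by
  unfold dp_bi_10 at h
  rcases brec_true h with h | h
  · exact lF_good (T := T) (x := Lt.bi) (by decide) [Lt.e, Lt.bi, Lt.fi, Lt.e, Lt.bi, Lt.e, Lt.bi, Lt.fi, Lt.e] (hole_at (rb_9 hinv hr) 3 rfl) h
  · exact dp_bi_9_s hinv hr hH j u hu h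
theorem dp_bi_11_s (hinv : ∀ x, g (inv x) = (g x)⁻¹) (hr : ∀ r ∈ rels, (r.map g).prod = 1) (hH : ∀ r ∈ subs, (r.map g).prod ∈ H)
    (j u : ℕ) (hu : u < M) (h : dp_bi_11 j u = true) : Good (fa g) T MG M (cP g H) Lt.bi u := by
  unfold dp_bi_11 at h
  rcases brec_true h with h | h
  · exact dp_bi_8_s hinv hr hH j u hu h
  · exact dp_bi_10_s hinv hr hH j u hu h
theorem dp_bi_12_s (hinv : ∀ x, g (inv x) = (g x)⁻¹) (hr : ∀ r ∈ rels, (r.map g).prod = 1) (hH : ∀ r ∈ subs, (r.map g).prod ∈ H)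
    (j u : ℕ) (hu : u < M) (h : dp_bi_12 j u = true) : Good (fa g) T MG M (cP g H) Lt.bi u := by
  unfold dp_bi_12 at h
  rcases brec_true h with h | h
  · exact lF_good (T := T) (x := Lt.bi) (by decide) [Lt.c, Lt.fi, Lt.e, Lt.f, Lt.ei, Lt.bi, Lt.e, Lt.b, Lt.ei] (hole_at (rb_15 hinv hr) 0 rfl) h
  · exact lS_good (T := T) (x := Lt.bi) (by decide) hu [Lt.ci, Lt.fi, Lt.bi, Lt.fi, Lt.e, Lt.ci, Lt.fi, Lt.bi, Lt.ei] (hole_at (rb_19 hinv hr) 0 rfl) h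
theorem dp_bi_13_s (hinv : ∀ x, g (inv x) = (g x)⁻¹) (hr : ∀ r ∈ rels, (r.map g).prod = 1) (hH : ∀ r ∈ subs, (r.map g).prod ∈ H)
    (j u : ℕ) (hu : u < M) (h : dp_bi_13 j u = true) : Good (fa g) T MG M (cP g H) Lt.bi u := by
  unfold dp_bi_13 at h
  rcases brec_true h with h | h
  · exact lF_good (T := T) (x := Lt.bi) (by decide) [Lt.ei, Lt.b, Lt.ci, Lt.f, Lt.c, Lt.f, Lt.f, Lt.ei, Lt.ei] (hole_at (rb_17 hinv hr) 0 rfl) h
  · exact dp_bi_12_s hinv hr hH j u hu h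
theorem dp_bi_14_s (hinv : ∀ x, g (inv x) = (g x)⁻¹) (hr : ∀ r ∈ rels, (r.map g).prod = 1) (hH : ∀ r ∈ subs, (r.map g).prod ∈ H)
    (j u : ℕ) (hu : u < M) (h : dp_bi_14 j u = true) : Good (fa g) T MG M (cP g H) Lt.bi u := by
  unfold dp_bi_14 at h
  rcases brec_true h with h | h
  · exact lF_good (T := T) (x := Lt.bi) (by decide) [Lt.ei, Lt.c, Lt.fi, Lt.b, Lt.ei, Lt.c, Lt.bi, Lt.f, Lt.ei] (hole_at (rb_11 hinv hr) 0 rfl) h
  · exact lS_good (T := T) (x := Lt.bi) (by decide) hu [Lt.bi, Lt.bi] (hole_at (rb_0 hinv hr) 0 rfl) h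
theorem dp_bi_15_s (hinv : ∀ x, g (inv x) = (g x)⁻¹) (hr : ∀ r ∈ rels, (r.map g).prod = 1) (hH : ∀ r ∈ subs, (r.map g).prod ∈ H)
    (j u : ℕ) (hu : u < M) (h : dp_bi_15 j u = true) : Good (fa g) T MG M (cP g H) Lt.bi u := by
  unfold dp_bi_15 at h
  rcases brec_true h with h | h
  · exact lF_good (T := T) (x := Lt.bi) (by decide) [Lt.f, Lt.c, Lt.bi, Lt.ci, Lt.ei, Lt.fi, Lt.e, Lt.e, Lt.f] (hole_at (rb_18 hinv hr) 7 rfl) h
  · exact dp_bi_14_s hinv hr hH j u hu h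
theorem dp_bi_16_s (hinv : ∀ x, g (inv x) = (g x)⁻¹) (hr : ∀ r ∈ rels, (r.map g).prod = 1) (hH : ∀ r ∈ subs, (r.map g).prod ∈ H)
    (j u : ℕ) (hu : u < M) (h : dp_bi_16 j u = true) : Good (fa g) T MG M (cP g H) Lt.bi u := by
  unfold dp_bi_16 at h
  rcases brec_true h with h | h
  · exact dp_bi_13_s hinv hr hH j u hu h
  · exact dp_bi_15_s hinv hr hH j u hu h
theorem dp_bi_17_s (hinv : ∀ x, g (inv x) = (g x)⁻¹) (hr : ∀ r ∈ rels, (r.map g).prod = 1) (hH : ∀ r ∈ subs, (r.map g).prod ∈ H)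
    (j u : ℕ) (hu : u < M) (h : dp_bi_17 j u = true) : Good (fa g) T MG M (cP g H) Lt.bi u := by
  unfold dp_bi_17 at h
  rcases brec_true h with h | h
  · exact dp_bi_11_s hinv hr hH j u hu h
  · exact dp_bi_16_s hinv hr hH j u hu h
theorem dp_bi_18_s (hinv : ∀ x, g (inv x) = (g x)⁻¹) (hr : ∀ r ∈ rels, (r.map g).prod = 1) (hH : ∀ r ∈ subs, (r.map g).prod ∈ H)
    (j u : ℕ) (hu : u < M) (h : dp_bi_18 j u = true) : Good (fa g) T MG M (cP g H) Lt.bi u := by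
  unfold dp_bi_18 at h
  rcases brec_true h with h | h
  · exact lS_good (T := T) (x := Lt.bi) (by decide) hu [Lt.f, Lt.c, Lt.bi, Lt.ci, Lt.ei, Lt.fi, Lt.e, Lt.e, Lt.f] (hole_at (rb_18 hinv hr) 7 rfl) h
  · exact lF_good (T := T) (x := Lt.bi) (by decide) [Lt.c, Lt.e, Lt.f, Lt.c, Lt.e, Lt.b, Lt.ci, Lt.f, Lt.c] (hole_at (rf_12 hinv hr) 5 rfl) h
theorem dp_bi_19_s (hinv : ∀ x, g (inv x) = (g x)⁻¹) (hr : ∀ r ∈ rels, (r.map g).prod = 1) (hH : ∀ r ∈ subs, (r.map g).prod ∈ H)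
    (j u : ℕ) (hu : u < M) (h : dp_bi_19 j u = true) : Good (fa g) T MG M (cP g H) Lt.bi u := by
  unfold dp_bi_19 at h
  rcases brec_true h with h | h
  · exact lF_good (T := T) (x := Lt.bi) (by decide) [Lt.ei, Lt.ei, Lt.b, Lt.ei, Lt.bi, Lt.ei, Lt.ei, Lt.b, Lt.ei] (hole_at (rb_14 hinv hr) 0 rfl) h
  · exact lS_good (T := T) (x := Lt.bi) (by decide) hu [Lt.ci, Lt.ei, Lt.fi, Lt.e, Lt.e, Lt.f, Lt.bi, Lt.f, Lt.c] (hole_at (rb_18 hinv hr) 0 rfl) h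
theorem dp_bi_20_s (hinv : ∀ x, g (inv x) = (g x)⁻¹) (hr : ∀ r ∈ rels, (r.map g).prod = 1) (hH : ∀ r ∈ subs, (r.map g).prod ∈ H)
    (j u : ℕ) (hu : u < M) (h : dp_bi_20 j u = true) : Good (fa g) T MG M (cP g H) Lt.bi u := by
  unfold dp_bi_20 at h
  rcases brec_true h with h | h
  · exact dp_bi_18_s hinv hr hH j u hu h
  · exact dp_bi_19_s hinv hr hH j u hu h
theorem dp_bi_21_s (hinv : ∀ x, g (inv x) = (g x)⁻¹) (hr : ∀ r ∈ rels, (r.map g).prod = 1) (hH : ∀ r ∈ subs, (r.map g).prod ∈ H)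
    (j u : ℕ) (hu : u < M) (h : dp_bi_21 j u = true) : Good (fa g) T MG M (cP g H) Lt.bi u := by
  unfold dp_bi_21 at h
  rcases brec_true h with h | h
  · exact lF_good (T := T) (x := Lt.bi) (by decide) [Lt.ei, Lt.b, Lt.ei, Lt.ei, Lt.bi, Lt.ei, Lt.b, Lt.ei, Lt.ei] (hole_at (rb_8 hinv hr) 0 rfl) h
  · exact lF_good (T := T) (x := Lt.bi) (by decide) [Lt.e, Lt.b, Lt.e, Lt.e, Lt.fi, Lt.fi, Lt.ci, Lt.fi, Lt.c] (hole_at (rf_17 hinv hr) 9 rfl) h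
theorem dp_bi_22_s (hinv : ∀ x, g (inv x) = (g x)⁻¹) (hr : ∀ r ∈ rels, (r.map g).prod = 1) (hH : ∀ r ∈ subs, (r.map g).prod ∈ H)
    (j u : ℕ) (hu : u < M) (h : dp_bi_22 j u = true) : Good (fa g) T MG M (cP g H) Lt.bi u := by
  unfold dp_bi_22 at h
  rcases brec_true h with h | h
  · exact lF_good (T := T) (x := Lt.bi) (by decide) [Lt.fi, Lt.e, Lt.bi, Lt.e, Lt.bi, Lt.fi, Lt.e, Lt.bi, Lt.e] (hole_at (rb_9 hinv hr) 0 rfl) h
  · exact lS_good (T := T) (x := Lt.bi) (by decide) hu [Lt.fi, Lt.e, Lt.ci, Lt.fi, Lt.bi, Lt.ei, Lt.bi, Lt.ci, Lt.fi] (hole_at (rb_19 hinv hr) 3 rfl) h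
theorem dp_bi_23_s (hinv : ∀ x, g (inv x) = (g x)⁻¹) (hr : ∀ r ∈ rels, (r.map g).prod = 1) (hH : ∀ r ∈ subs, (r.map g).prod ∈ H)
    (j u : ℕ) (hu : u < M) (h : dp_bi_23 j u = true) : Good (fa g) T MG M (cP g H) Lt.bi u := by
  unfold dp_bi_23 at h
  rcases brec_true h with h | h
  · exact dp_bi_21_s hinv hr hH j u hu h
  · exact dp_bi_22_s hinv hr hH j u hu h
theorem dp_bi_24_s (hinv : ∀ x, g (inv x) = (g x)⁻¹) (hr : ∀ r ∈ rels, (r.map g).prod = 1) (hH : ∀ r ∈ subs, (r.map g).prod ∈ H)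
    (j u : ℕ) (hu : u < M) (h : dp_bi_24 j u = true) : Good (fa g) T MG M (cP g H) Lt.bi u := by
  unfold dp_bi_24 at h
  rcases brec_true h with h | h
  · exact dp_bi_20_s hinv hr hH j u hu h
  · exact dp_bi_23_s hinv hr hH j u hu h
theorem dp_bi_25_s (hinv : ∀ x, g (inv x) = (g x)⁻¹) (hr : ∀ r ∈ rels, (r.map g).prod = 1) (hH : ∀ r ∈ subs, (r.map g).prod ∈ H)
    (j u : ℕ) (hu : u < M) (h : dp_bi_25 j u = true) : Good (fa g) T MG M (cP g H) Lt.bi u := by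
  unfold dp_bi_25 at h
  rcases brec_true h with h | h
  · exact lS_good (T := T) (x := Lt.bi) (by decide) hu [Lt.ei, Lt.c, Lt.fi, Lt.b, Lt.ei, Lt.c, Lt.bi, Lt.f, Lt.ei] (hole_at (rb_11 hinv hr) 0 rfl) h
  · exact lS_good (T := T) (x := Lt.bi) (by decide) hu [Lt.f, Lt.ei, Lt.bi, Lt.ei, Lt.c, Lt.fi, Lt.b, Lt.ei, Lt.c] (hole_at (rb_11 hinv hr) 7 rfl) h
theorem dp_bi_26_s (hinv : ∀ x, g (inv x) = (g x)⁻¹) (hr : ∀ r ∈ rels, (r.map g).prod = 1) (hH : ∀ r ∈ subs, (r.map g).prod ∈ H)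
    (j u : ℕ) (hu : u < M) (h : dp_bi_26 j u = true) : Good (fa g) T MG M (cP g H) Lt.bi u := by
  unfold dp_bi_26 at h
  rcases brec_true h with h | h
  · exact lS_good (T := T) (x := Lt.bi) (by decide) hu [Lt.c, Lt.e, Lt.f, Lt.c, Lt.e, Lt.b, Lt.ci, Lt.f, Lt.c] (hole_at (rf_12 hinv hr) 5 rfl) h
  · exact dp_bi_25_s hinv hr hH j u hu h
theorem dp_bi_27_s (hinv : ∀ x, g (inv x) = (g x)⁻¹) (hr : ∀ r ∈ rels, (r.map g).prod = 1) (hH : ∀ r ∈ subs, (r.map g).prod ∈ H)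
    (j u : ℕ) (hu : u < M) (h : dp_bi_27 j u = true) : Good (fa g) T MG M (cP g H) Lt.bi u := by
  unfold dp_bi_27 at h
  rcases brec_true h with h | h
  · exact lF_good (T := T) (x := Lt.bi) (by decide) [Lt.e, Lt.e, Lt.b, Lt.e, Lt.bi, Lt.e, Lt.e, Lt.b, Lt.e] (hole_at (rf_14 hinv hr) 3 rfl) h
  · exact lS_good (T := T) (x := Lt.bi) (by decide) hu [Lt.e, Lt.b, Lt.e, Lt.e, Lt.bi, Lt.e, Lt.b, Lt.e, Lt.e] (hole_at (rf_8 hinv hr) 4 rfl) h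
theorem dp_bi_28_s (hinv : ∀ x, g (inv x) = (g x)⁻¹) (hr : ∀ r ∈ rels, (r.map g).prod = 1) (hH : ∀ r ∈ subs, (r.map g).prod ∈ H)
    (j u : ℕ) (hu : u < M) (h : dp_bi_28 j u = true) : Good (fa g) T MG M (cP g H) Lt.bi u := by
  unfold dp_bi_28 at h
  rcases brec_true h with h | h
  · exact lS_good (T := T) (x := Lt.bi) (by decide) hu [Lt.ei, Lt.b, Lt.ci, Lt.f, Lt.c, Lt.f, Lt.f, Lt.ei, Lt.ei] (hole_at (rb_17 hinv hr) 0 rfl) h
  · exact lS_good (T := T) (x := Lt.bi) (by decide) hu [Lt.ei, Lt.b, Lt.ei, Lt.ei, Lt.bi, Lt.ei, Lt.b, Lt.ei, Lt.ei] (hole_at (rb_8 hinv hr) 0 rfl) h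
theorem dp_bi_29_s (hinv : ∀ x, g (inv x) = (g x)⁻¹) (hr : ∀ r ∈ rels, (r.map g).prod = 1) (hH : ∀ r ∈ subs, (r.map g).prod ∈ H)
    (j u : ℕ) (hu : u < M) (h : dp_bi_29 j u = true) : Good (fa g) T MG M (cP g H) Lt.bi u := by
  unfold dp_bi_29 at h
  rcases brec_true h with h | h
  · exact lS_good (T := T) (x := Lt.bi) (by decide) hu [Lt.e, Lt.b, Lt.e, Lt.e, Lt.fi, Lt.fi, Lt.ci, Lt.fi, Lt.c] (hole_at (rf_17 hinv hr) 9 rfl) h
  · exact dp_bi_28_s hinv hr hH j u hu h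
theorem dp_bi_30_s (hinv : ∀ x, g (inv x) = (g x)⁻¹) (hr : ∀ r ∈ rels, (r.map g).prod = 1) (hH : ∀ r ∈ subs, (r.map g).prod ∈ H)
    (j u : ℕ) (hu : u < M) (h : dp_bi_30 j u = true) : Good (fa g) T MG M (cP g H) Lt.bi u := by
  unfold dp_bi_30 at h
  rcases brec_true h with h | h
  · exact dp_bi_27_s hinv hr hH j u hu h
  · exact dp_bi_29_s hinv hr hH j u hu h
theorem dp_bi_31_s (hinv : ∀ x, g (inv x) = (g x)⁻¹) (hr : ∀ r ∈ rels, (r.map g).prod = 1) (hH : ∀ r ∈ subs, (r.map g).prod ∈ H)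
    (j u : ℕ) (hu : u < M) (h : dp_bi_31 j u = true) : Good (fa g) T MG M (cP g H) Lt.bi u := by
  unfold dp_bi_31 at h
  rcases brec_true h with h | h
  · exact dp_bi_26_s hinv hr hH j u hu h
  · exact dp_bi_30_s hinv hr hH j u hu h
theorem dp_bi_32_s (hinv : ∀ x, g (inv x) = (g x)⁻¹) (hr : ∀ r ∈ rels, (r.map g).prod = 1) (hH : ∀ r ∈ subs, (r.map g).prod ∈ H)
    (j u : ℕ) (hu : u < M) (h : dp_bi_32 j u = true) : Good (fa g) T MG M (cP g H) Lt.bi u := by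
  unfold dp_bi_32 at h
  rcases brec_true h with h | h
  · exact lS_good (T := T) (x := Lt.bi) (by decide) hu [Lt.ei, Lt.bi, Lt.ci, Lt.fi, Lt.bi, Lt.fi, Lt.e, Lt.ci, Lt.fi] (hole_at (rb_19 hinv hr) 8 rfl) h
  · exact lF_good (T := T) (x := Lt.bi) (by decide) [Lt.ei, Lt.ci, Lt.fi, Lt.ei, Lt.ci, Lt.b, Lt.ci, Lt.fi, Lt.c] (hole_at (rb_12 hinv hr) 0 rfl) h
theorem dp_bi_33_s (hinv : ∀ x, g (inv x) = (g x)⁻¹) (hr : ∀ r ∈ rels, (r.map g).prod = 1) (hH : ∀ r ∈ subs, (r.map g).prod ∈ H)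
    (j u : ℕ) (hu : u < M) (h : dp_bi_33 j u = true) : Good (fa g) T MG M (cP g H) Lt.bi u := by
  unfold dp_bi_33 at h
  rcases brec_true h with h | h
  · exact lF_good (T := T) (x := Lt.bi) (by decide) [Lt.ei, Lt.b, Lt.e, Lt.fi, Lt.ei, Lt.f, Lt.ci, Lt.b, Lt.e] (hole_at (rf_15 hinv hr) 3 rfl) h
  · exact lS_good (T := T) (x := Lt.bi) (by decide) hu [Lt.e, Lt.e, Lt.b, Lt.e, Lt.bi, Lt.e, Lt.e, Lt.b, Lt.e] (hole_at (rf_14 hinv hr) 3 rfl) h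
theorem dp_bi_34_s (hinv : ∀ x, g (inv x) = (g x)⁻¹) (hr : ∀ r ∈ rels, (r.map g).prod = 1) (hH : ∀ r ∈ subs, (r.map g).prod ∈ H)
    (j u : ℕ) (hu : u < M) (h : dp_bi_34 j u = true) : Good (fa g) T MG M (cP g H) Lt.bi u := by
  unfold dp_bi_34 at h
  rcases brec_true h with h | h
  · exact lF_good (T := T) (x := Lt.bi) (by decide) [Lt.e, Lt.b, Lt.ei, Lt.bi, Lt.c, Lt.fi, Lt.e, Lt.f, Lt.ei] (hole_at (rb_15 hinv hr) 6 rfl) h
  · exact dp_bi_33_s hinv hr hH j u hu h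
theorem dp_bi_35_s (hinv : ∀ x, g (inv x) = (g x)⁻¹) (hr : ∀ r ∈ rels, (r.map g).prod = 1) (hH : ∀ r ∈ subs, (r.map g).prod ∈ H)
    (j u : ℕ) (hu : u < M) (h : dp_bi_35 j u = true) : Good (fa g) T MG M (cP g H) Lt.bi u := by
  unfold dp_bi_35 at h
  rcases brec_true h with h | h
  · exact dp_bi_32_s hinv hr hH j u hu h
  · exact dp_bi_34_s hinv hr hH j u hu h
theorem dp_bi_36_s (hinv : ∀ x, g (inv x) = (g x)⁻¹) (hr : ∀ r ∈ rels, (r.map g).prod = 1) (hH : ∀ r ∈ subs, (r.map g).prod ∈ H)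
    (j u : ℕ) (hu : u < M) (h : dp_bi_36 j u = true) : Good (fa g) T MG M (cP g H) Lt.bi u := by
  unfold dp_bi_36 at h
  rcases brec_true h with h | h
  · exact lS_good (T := T) (x := Lt.bi) (by decide) hu [Lt.fi, Lt.e, Lt.bi, Lt.e, Lt.bi, Lt.fi, Lt.e, Lt.bi, Lt.e] (hole_at (rb_9 hinv hr) 0 rfl) h
  · exact lS_good (T := T) (x := Lt.bi) (by decide) hu [Lt.ei, Lt.b, Lt.e, Lt.fi, Lt.ei, Lt.f, Lt.ci, Lt.b, Lt.e] (hole_at (rf_15 hinv hr) 3 rfl) h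
theorem dp_bi_37_s (hinv : ∀ x, g (inv x) = (g x)⁻¹) (hr : ∀ r ∈ rels, (r.map g).prod = 1) (hH : ∀ r ∈ subs, (r.map g).prod ∈ H)
    (j u : ℕ) (hu : u < M) (h : dp_bi_37 j u = true) : Good (fa g) T MG M (cP g H) Lt.bi u := by
  unfold dp_bi_37 at h
  rcases brec_true h with h | h
  · exact lS_good (T := T) (x := Lt.bi) (by decide) hu [Lt.c, Lt.fi, Lt.e, Lt.f, Lt.ei, Lt.bi, Lt.e, Lt.b, Lt.ei] (hole_at (rb_15 hinv hr) 0 rfl) h
  · exact lS_good (T := T) (x := Lt.bi) (by decide) hu [Lt.e, Lt.b, Lt.ei, Lt.bi, Lt.c, Lt.fi, Lt.e, Lt.f, Lt.ei] (hole_at (rb_15 hinv hr) 6 rfl) h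
theorem dp_bi_38_s (hinv : ∀ x, g (inv x) = (g x)⁻¹) (hr : ∀ r ∈ rels, (r.map g).prod = 1) (hH : ∀ r ∈ subs, (r.map g).prod ∈ H)
    (j u : ℕ) (hu : u < M) (h : dp_bi_38 j u = true) : Good (fa g) T MG M (cP g H) Lt.bi u := by
  unfold dp_bi_38 at h
  rcases brec_true h with h | h
  · exact dp_bi_36_s hinv hr hH j u hu h
  · exact dp_bi_37_s hinv hr hH j u hu h
theorem dp_bi_39_s (hinv : ∀ x, g (inv x) = (g x)⁻¹) (hr : ∀ r ∈ rels, (r.map g).prod = 1) (hH : ∀ r ∈ subs, (r.map g).prod ∈ H)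
    (j u : ℕ) (hu : u < M) (h : dp_bi_39 j u = true) : Good (fa g) T MG M (cP g H) Lt.bi u := by
  unfold dp_bi_39 at h
  rcases brec_true h with h | h
  · exact lS_good (T := T) (x := Lt.bi) (by decide) hu [Lt.ei, Lt.ei, Lt.b, Lt.ei, Lt.bi, Lt.ei, Lt.ei, Lt.b, Lt.ei] (hole_at (rb_14 hinv hr) 0 rfl) h
  · exact lS_good (T := T) (x := Lt.bi) (by decide) hu [Lt.ei, Lt.ci, Lt.fi, Lt.ei, Lt.ci, Lt.b, Lt.ci, Lt.fi, Lt.c] (hole_at (rb_12 hinv hr) 0 rfl) h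
theorem dp_bi_40_s (hinv : ∀ x, g (inv x) = (g x)⁻¹) (hr : ∀ r ∈ rels, (r.map g).prod = 1) (hH : ∀ r ∈ subs, (r.map g).prod ∈ H)
    (j u : ℕ) (hu : u < M) (h : dp_bi_40 j u = true) : Good (fa g) T MG M (cP g H) Lt.bi u := by
  unfold dp_bi_40 at h
  rcases brec_true h with h | h
  · exact lS_good (T := T) (x := Lt.bi) (by decide) hu [Lt.di, Lt.f, Lt.f, Lt.bi, Lt.d, Lt.b, Lt.fi, Lt.fi, Lt.d, Lt.b, Lt.e, Lt.di, Lt.f, Lt.b, Lt.d, Lt.bi, Lt.fi, Lt.d, Lt.ei] (hole_at (rf_21 hinv hr) 5 rfl) h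
  · exact lF_good (T := T) (x := Lt.bi) (by decide) [Lt.fi, Lt.d, Lt.c, Lt.di, Lt.f, Lt.b, Lt.ei, Lt.bi, Lt.f, Lt.e, Lt.f, Lt.e] (hole_at (rb_20 hinv hr) 9 rfl) h
theorem dp_bi_41_s (hinv : ∀ x, g (inv x) = (g x)⁻¹) (hr : ∀ r ∈ rels, (r.map g).prod = 1) (hH : ∀ r ∈ subs, (r.map g).prod ∈ H)
    (j u : ℕ) (hu : u < M) (h : dp_bi_41 j u = true) : Good (fa g) T MG M (cP g H) Lt.bi u := by
  unfold dp_bi_41 at h
  rcases brec_true h with h | h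
  · exact lS_good (T := T) (x := Lt.bi) (by decide) hu [Lt.e, Lt.bi, Lt.fi, Lt.e, Lt.bi, Lt.e, Lt.bi, Lt.fi, Lt.e] (hole_at (rb_9 hinv hr) 3 rfl) h
  · exact dp_bi_40_s hinv hr hH j u hu h
theorem dp_bi_42_s (hinv : ∀ x, g (inv x) = (g x)⁻¹) (hr : ∀ r ∈ rels, (r.map g).prod = 1) (hH : ∀ r ∈ subs, (r.map g).prod ∈ H)
    (j u : ℕ) (hu : u < M) (h : dp_bi_42 j u = true) : Good (fa g) T MG M (cP g H) Lt.bi u := by
  unfold dp_bi_42 at h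
  rcases brec_true h with h | h
  · exact dp_bi_39_s hinv hr hH j u hu h
  · exact dp_bi_41_s hinv hr hH j u hu h
theorem dp_bi_43_s (hinv : ∀ x, g (inv x) = (g x)⁻¹) (hr : ∀ r ∈ rels, (r.map g).prod = 1) (hH : ∀ r ∈ subs, (r.map g).prod ∈ H)
    (j u : ℕ) (hu : u < M) (h : dp_bi_43 j u = true) : Good (fa g) T MG M (cP g H) Lt.bi u := by
  unfold dp_bi_43 at h
  rcases brec_true h with h | h
  · exact dp_bi_38_s hinv hr hH j u hu h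
  · exact dp_bi_42_s hinv hr hH j u hu h
theorem dp_bi_44_s (hinv : ∀ x, g (inv x) = (g x)⁻¹) (hr : ∀ r ∈ rels, (r.map g).prod = 1) (hH : ∀ r ∈ subs, (r.map g).prod ∈ H)
    (j u : ℕ) (hu : u < M) (h : dp_bi_44 j u = true) : Good (fa g) T MG M (cP g H) Lt.bi u := by
  unfold dp_bi_44 at h
  rcases brec_true h with h | h
  · exact dp_bi_35_s hinv hr hH j u hu h
  · exact dp_bi_43_s hinv hr hH j u hu h
theorem dp_bi_45_s (hinv : ∀ x, g (inv x) = (g x)⁻¹) (hr : ∀ r ∈ rels, (r.map g).prod = 1) (hH : ∀ r ∈ subs, (r.map g).prod ∈ H)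
    (j u : ℕ) (hu : u < M) (h : dp_bi_45 j u = true) : Good (fa g) T MG M (cP g H) Lt.bi u := by
  unfold dp_bi_45 at h
  rcases brec_true h with h | h
  · exact dp_bi_31_s hinv hr hH j u hu h
  · exact dp_bi_44_s hinv hr hH j u hu h
theorem dp_bi_46_s (hinv : ∀ x, g (inv x) = (g x)⁻¹) (hr : ∀ r ∈ rels, (r.map g).prod = 1) (hH : ∀ r ∈ subs, (r.map g).prod ∈ H)
    (j u : ℕ) (hu : u < M) (h : dp_bi_46 j u = true) : Good (fa g) T MG M (cP g H) Lt.bi u := by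
  unfold dp_bi_46 at h
  rcases brec_true h with h | h
  · exact dp_bi_24_s hinv hr hH j u hu h
  · exact dp_bi_45_s hinv hr hH j u hu h
theorem dp_bi_47_s (hinv : ∀ x, g (inv x) = (g x)⁻¹) (hr : ∀ r ∈ rels, (r.map g).prod = 1) (hH : ∀ r ∈ subs, (r.map g).prod ∈ H)
    (j u : ℕ) (hu : u < M) (h : dp_bi_47 j u = true) : Good (fa g) T MG M (cP g H) Lt.bi u := by
  unfold dp_bi_47 at h
  rcases brec_true h with h | h
  · exact dp_bi_17_s hinv hr hH j u hu h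
  · exact dp_bi_46_s hinv hr hH j u hu h
theorem dp_bi_48_s (hinv : ∀ x, g (inv x) = (g x)⁻¹) (hr : ∀ r ∈ rels, (r.map g).prod = 1) (hH : ∀ r ∈ subs, (r.map g).prod ∈ H)
    (j u : ℕ) (hu : u < M) (h : dp_bi_48 j u = true) : Good (fa g) T MG M (cP g H) Lt.bi u := by
  unfold dp_bi_48 at h
  rcases brec_true h with h | h
  · exact dp_bi_7_s hinv hr hH j u hu h
  · exact dp_bi_47_s hinv hr hH j u hu h
theorem dp_bi_49_s (hinv : ∀ x, g (inv x) = (g x)⁻¹) (hr : ∀ r ∈ rels, (r.map g).prod = 1) (hH : ∀ r ∈ subs, (r.map g).prod ∈ H)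
    (j u : ℕ) (hu : u < M) (h : dp_bi_49 j u = true) : Good (fa g) T MG M (cP g H) Lt.bi u := by
  unfold dp_bi_49 at h
  rcases brec_true h with h | h
  · exact dp_bi_1_s hinv hr hH j u hu h
  · exact dp_bi_48_s hinv hr hH j u hu h
theorem dp_bi_50_s (hinv : ∀ x, g (inv x) = (g x)⁻¹) (hr : ∀ r ∈ rels, (r.map g).prod = 1) (hH : ∀ r ∈ subs, (r.map g).prod ∈ H)
    (j u : ℕ) (hu : u < M) (h : dp_bi_50 j u = true) : Good (fa g) T MG M (cP g H) Lt.bi u := by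
  unfold dp_bi_50 at h
  rcases brec_true h with h | h
  · rcases brec_true h with h | h
    · exact lF_good (T := T) (x := Lt.bi) (by decide) [Lt.bi, Lt.bi] (hole_at (rb_0 hinv hr) 0 rfl) h
    · exact lS_good (T := T) (x := Lt.bi) (by decide) hu [Lt.b] (hole_at (rf_22 hinv hr) 0 rfl) h
  · exact dp_bi_49_s hinv hr hH j u hu h
theorem dp_bi_51_s (hinv : ∀ x, g (inv x) = (g x)⁻¹) (hr : ∀ r ∈ rels, (r.map g).prod = 1) (hH : ∀ r ∈ subs, (r.map g).prod ∈ H)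
    (j u : ℕ) (hu : u < M) (h : dp_bi_51 j u = true) : Good (fa g) T MG M (cP g H) Lt.bi u := by
  unfold dp_bi_51 at h
  rcases brec_true h with h | h
  · rcases brec_true h with h | h
    · exact lDef_good (T := T) (x := Lt.bi) (by decide) rfl h
    · exact lPar_good (T := T) (x := Lt.bi) (x' := Lt.b) (by decide) rfl (inv_rel hinv _ _ rfl) h
  · exact dp_bi_50_s hinv hr hH j u hu h
theorem snd_bi (hinv : ∀ x, g (inv x) = (g x)⁻¹) (hr : ∀ r ∈ rels, (r.map g).prod = 1) (hH : ∀ r ∈ subs, (r.map g).prod ∈ H)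
    (j u : ℕ) (hu : u < M) (h : disp_bi j u = true) : Good (fa g) T MG M (cP g H) Lt.bi u := by
  unfold disp_bi at h
  rcases brec_true h with h | h
  · rcases brec_true h with h | h
    · exact lF1_good (T := T) (x := Lt.bi) (by decide) .b (hole_at (rf_22 hinv hr) 0 rfl) h
    · exact lF3_good (T := T) (x := Lt.bi) (by decide) .d .c .di (hole_at (rb_3 hinv hr) 1 rfl) h
  · exact dp_bi_51_s hinv hr hH j u hu h
theorem snc_bi (hinv : ∀ x, g (inv x) = (g x)⁻¹) (hr : ∀ r ∈ rels, (r.map g).prod = 1) (hH : ∀ r ∈ subs, (r.map g).prod ∈ H)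
    (j u : ℕ) (hu : u < M) (h : chk_bi j u = true) : (T Lt.bi u < A ∧ Good (fa g) T MG M (cP g H) Lt.bi u) ∨ (A ≤ T Lt.bi u ∧ MG u < A) := by
  unfold chk_bi at h
  cases hb : Nat.ble A (T_bi u) with
  | true => rw [hb] at h; exact Or.inr ⟨le_of_ble hb, le_of_ble h⟩
  | false => rw [hb] at h; exact Or.inl ⟨lt_of_ble_false hb, snd_bi hinv hr hH j u hu h⟩
theorem dp_e_0_s (hinv : ∀ x, g (inv x) = (g x)⁻¹) (hr : ∀ r ∈ rels, (r.map g).prod = 1) (hH : ∀ r ∈ subs, (r.map g).prod ∈ H)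
    (j u : ℕ) (hu : u < M) (h : dp_e_0 j u = true) : Good (fa g) T MG M (cP g H) Lt.e u := by
  unfold dp_e_0 at h
  rcases brec_true h with h | h
  · exact lF_good (T := T) (x := Lt.e) (by decide) [Lt.f, Lt.e, Lt.bi, Lt.ci, Lt.bi, Lt.f, Lt.b, Lt.ci] (hole_at (rb_7 hinv hr) 6 rfl) h
  · exact lS_good (T := T) (x := Lt.e) (by decide) hu [Lt.ei] (hole_at (rf_24 hinv hr) 1 rfl) h
theorem dp_e_1_s (hinv : ∀ x, g (inv x) = (g x)⁻¹) (hr : ∀ r ∈ rels, (r.map g).prod = 1) (hH : ∀ r ∈ subs, (r.map g).prod ∈ H)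
    (j u : ℕ) (hu : u < M) (h : dp_e_1 j u = true) : Good (fa g) T MG M (cP g H) Lt.e u := by
  unfold dp_e_1 at h
  rcases brec_true h with h | h
  · exact lF_good (T := T) (x := Lt.e) (by decide) [Lt.e, Lt.e, Lt.e, Lt.e] (hole_at (rf_5 hinv hr) 0 rfl) h
  · exact dp_e_0_s hinv hr hH j u hu h
theorem dp_e_2_s (hinv : ∀ x, g (inv x) = (g x)⁻¹) (hr : ∀ r ∈ rels, (r.map g).prod = 1) (hH : ∀ r ∈ subs, (r.map g).prod ∈ H)
    (j u : ℕ) (hu : u < M) (h : dp_e_2 j u = true) : Good (fa g) T MG M (cP g H) Lt.e u := by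
  unfold dp_e_2 at h
  rcases brec_true h with h | h
  · exact lF_good (T := T) (x := Lt.e) (by decide) [Lt.f, Lt.ei, Lt.bi, Lt.e, Lt.b, Lt.ei, Lt.bi, Lt.c, Lt.fi] (hole_at (rb_15 hinv hr) 3 rfl) h
  · exact lS_good (T := T) (x := Lt.e) (by decide) hu [Lt.f, Lt.e, Lt.bi, Lt.ci, Lt.bi, Lt.f, Lt.b, Lt.ci] (hole_at (rb_7 hinv hr) 6 rfl) h
theorem dp_e_3_s (hinv : ∀ x, g (inv x) = (g x)⁻¹) (hr : ∀ r ∈ rels, (r.map g).prod = 1) (hH : ∀ r ∈ subs, (r.map g).prod ∈ H)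
    (j u : ℕ) (hu : u < M) (h : dp_e_3 j u = true) : Good (fa g) T MG M (cP g H) Lt.e u := by
  unfold dp_e_3 at h
  rcases brec_true h with h | h
  · exact lS_good (T := T) (x := Lt.e) (by decide) hu [Lt.d, Lt.fi, Lt.di] (hole_at (rf_4 hinv hr) 0 rfl) h
  · exact lF_good (T := T) (x := Lt.e) (by decide) [Lt.c, Lt.f, Lt.c, Lt.fi, Lt.ei, Lt.ei, Lt.ci, Lt.f, Lt.ci] (hole_at (rb_10 hinv hr) 4 rfl) h
theorem dp_e_4_s (hinv : ∀ x, g (inv x) = (g x)⁻¹) (hr : ∀ r ∈ rels, (r.map g).prod = 1) (hH : ∀ r ∈ subs, (r.map g).prod ∈ H)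
    (j u : ℕ) (hu : u < M) (h : dp_e_4 j u = true) : Good (fa g) T MG M (cP g H) Lt.e u := by
  unfold dp_e_4 at h
  rcases brec_true h with h | h
  · exact lS_good (T := T) (x := Lt.e) (by decide) hu [Lt.bi, Lt.ci, Lt.bi, Lt.f, Lt.b, Lt.ci, Lt.e, Lt.f] (hole_at (rb_7 hinv hr) 8 rfl) h
  · exact dp_e_3_s hinv hr hH j u hu h
theorem dp_e_5_s (hinv : ∀ x, g (inv x) = (g x)⁻¹) (hr : ∀ r ∈ rels, (r.map g).prod = 1) (hH : ∀ r ∈ subs, (r.map g).prod ∈ H)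
    (j u : ℕ) (hu : u < M) (h : dp_e_5 j u = true) : Good (fa g) T MG M (cP g H) Lt.e u := by
  unfold dp_e_5 at h
  rcases brec_true h with h | h
  · exact dp_e_2_s hinv hr hH j u hu h
  · exact dp_e_4_s hinv hr hH j u hu h
theorem dp_e_6_s (hinv : ∀ x, g (inv x) = (g x)⁻¹) (hr : ∀ r ∈ rels, (r.map g).prod = 1) (hH : ∀ r ∈ subs, (r.map g).prod ∈ H)
    (j u : ℕ) (hu : u < M) (h : dp_e_6 j u = true) : Good (fa g) T MG M (cP g H) Lt.e u := by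
  unfold dp_e_6 at h
  rcases brec_true h with h | h
  · exact lF_good (T := T) (x := Lt.e) (by decide) [Lt.bi, Lt.ci, Lt.bi, Lt.f, Lt.b, Lt.ci, Lt.e, Lt.f] (hole_at (rb_7 hinv hr) 8 rfl) h
  · exact dp_e_5_s hinv hr hH j u hu h
theorem dp_e_7_s (hinv : ∀ x, g (inv x) = (g x)⁻¹) (hr : ∀ r ∈ rels, (r.map g).prod = 1) (hH : ∀ r ∈ subs, (r.map g).prod ∈ H)
    (j u : ℕ) (hu : u < M) (h : dp_e_7 j u = true) : Good (fa g) T MG M (cP g H) Lt.e u := by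
  unfold dp_e_7 at h
  rcases brec_true h with h | h
  · exact lS_good (T := T) (x := Lt.e) (by decide) hu [Lt.e, Lt.e, Lt.e, Lt.e] (hole_at (rf_5 hinv hr) 0 rfl) h
  · exact lF_good (T := T) (x := Lt.e) (by decide) [Lt.f, Lt.c, Lt.e, Lt.b, Lt.ci, Lt.f, Lt.c, Lt.bi, Lt.c] (hole_at (rf_12 hinv hr) 7 rfl) h
theorem dp_e_8_s (hinv : ∀ x, g (inv x) = (g x)⁻¹) (hr : ∀ r ∈ rels, (r.map g).prod = 1) (hH : ∀ r ∈ subs, (r.map g).prod ∈ H)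
    (j u : ℕ) (hu : u < M) (h : dp_e_8 j u = true) : Good (fa g) T MG M (cP g H) Lt.e u := by
  unfold dp_e_8 at h
  rcases brec_true h with h | h
  · exact lF_good (T := T) (x := Lt.e) (by decide) [Lt.c, Lt.fi, Lt.ci, Lt.f, Lt.c, Lt.e, Lt.fi, Lt.fi, Lt.c] (hole_at (rf_16 hinv hr) 1 rfl) h
  · exact lF_good (T := T) (x := Lt.e) (by decide) [Lt.fi, Lt.fi, Lt.c, Lt.e, Lt.c, Lt.fi, Lt.ci, Lt.f, Lt.c] (hole_at (rf_16 hinv hr) 7 rfl) h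
theorem dp_e_9_s (hinv : ∀ x, g (inv x) = (g x)⁻¹) (hr : ∀ r ∈ rels, (r.map g).prod = 1) (hH : ∀ r ∈ subs, (r.map g).prod ∈ H)
    (j u : ℕ) (hu : u < M) (h : dp_e_9 j u = true) : Good (fa g) T MG M (cP g H) Lt.e u := by
  unfold dp_e_9 at h
  rcases brec_true h with h | h
  · exact lF_good (T := T) (x := Lt.e) (by decide) [Lt.ci, Lt.fi, Lt.bi, Lt.ei, Lt.bi, Lt.ci, Lt.fi, Lt.bi, Lt.fi] (hole_at (rb_19 hinv hr) 5 rfl) h
  · exact dp_e_8_s hinv hr hH j u hu h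
theorem dp_e_10_s (hinv : ∀ x, g (inv x) = (g x)⁻¹) (hr : ∀ r ∈ rels, (r.map g).prod = 1) (hH : ∀ r ∈ subs, (r.map g).prod ∈ H)
    (j u : ℕ) (hu : u < M) (h : dp_e_10 j u = true) : Good (fa g) T MG M (cP g H) Lt.e u := by
  unfold dp_e_10 at h
  rcases brec_true h with h | h
  · exact dp_e_7_s hinv hr hH j u hu h
  · exact dp_e_9_s hinv hr hH j u hu h
theorem dp_e_11_s (hinv : ∀ x, g (inv x) = (g x)⁻¹) (hr : ∀ r ∈ rels, (r.map g).prod = 1) (hH : ∀ r ∈ subs, (r.map g).prod ∈ H)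
    (j u : ℕ) (hu : u < M) (h : dp_e_11 j u = true) : Good (fa g) T MG M (cP g H) Lt.e u := by
  unfold dp_e_11 at h
  rcases brec_true h with h | h
  · exact lF_good (T := T) (x := Lt.e) (by decide) [Lt.f, Lt.ci, Lt.fi, Lt.ci, Lt.ei, Lt.c, Lt.fi, Lt.c, Lt.e] (hole_at (rf_10 hinv hr) 2 rfl) h
  · exact lF_good (T := T) (x := Lt.e) (by decide) [Lt.bi, Lt.f, Lt.ci, Lt.e, Lt.b, Lt.e, Lt.fi, Lt.b, Lt.ci] (hole_at (rf_11 hinv hr) 6 rfl) h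
theorem dp_e_12_s (hinv : ∀ x, g (inv x) = (g x)⁻¹) (hr : ∀ r ∈ rels, (r.map g).prod = 1) (hH : ∀ r ∈ subs, (r.map g).prod ∈ H)
    (j u : ℕ) (hu : u < M) (h : dp_e_12 j u = true) : Good (fa g) T MG M (cP g H) Lt.e u := by
  unfold dp_e_12 at h
  rcases brec_true h with h | h
  · exact lS_good (T := T) (x := Lt.e) (by decide) hu [Lt.e, Lt.f, Lt.ci, Lt.fi, Lt.ci, Lt.ei, Lt.c, Lt.fi, Lt.c] (hole_at (rf_10 hinv hr) 1 rfl) h
  · exact dp_e_11_s hinv hr hH j u hu h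
theorem dp_e_13_s (hinv : ∀ x, g (inv x) = (g x)⁻¹) (hr : ∀ r ∈ rels, (r.map g).prod = 1) (hH : ∀ r ∈ subs, (r.map g).prod ∈ H)
    (j u : ℕ) (hu : u < M) (h : dp_e_13 j u = true) : Good (fa g) T MG M (cP g H) Lt.e u := by
  unfold dp_e_13 at h
  rcases brec_true h with h | h
  · exact lF_good (T := T) (x := Lt.e) (by decide) [Lt.b, Lt.f, Lt.c, Lt.ei, Lt.f, Lt.b, Lt.f, Lt.c, Lt.b] (hole_at (rf_19 hinv hr) 2 rfl) h
  · exact lS_good (T := T) (x := Lt.e) (by decide) hu [Lt.bi, Lt.e, Lt.bi, Lt.fi, Lt.e, Lt.bi, Lt.e, Lt.bi, Lt.fi] (hole_at (rb_9 hinv hr) 2 rfl) h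
theorem dp_e_14_s (hinv : ∀ x, g (inv x) = (g x)⁻¹) (hr : ∀ r ∈ rels, (r.map g).prod = 1) (hH : ∀ r ∈ subs, (r.map g).prod ∈ H)
    (j u : ℕ) (hu : u < M) (h : dp_e_14 j u = true) : Good (fa g) T MG M (cP g H) Lt.e u := by
  unfold dp_e_14 at h
  rcases brec_true h with h | h
  · exact lS_good (T := T) (x := Lt.e) (by decide) hu [Lt.fi, Lt.fi, Lt.c, Lt.e, Lt.c, Lt.fi, Lt.ci, Lt.f, Lt.c] (hole_at (rf_16 hinv hr) 7 rfl) h
  · exact lF_good (T := T) (x := Lt.e) (by decide) [Lt.b, Lt.e, Lt.e, Lt.fi, Lt.fi, Lt.ci, Lt.fi, Lt.c, Lt.bi] (hole_at (rf_17 hinv hr) 0 rfl) h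
theorem dp_e_15_s (hinv : ∀ x, g (inv x) = (g x)⁻¹) (hr : ∀ r ∈ rels, (r.map g).prod = 1) (hH : ∀ r ∈ subs, (r.map g).prod ∈ H)
    (j u : ℕ) (hu : u < M) (h : dp_e_15 j u = true) : Good (fa g) T MG M (cP g H) Lt.e u := by
  unfold dp_e_15 at h
  rcases brec_true h with h | h
  · exact lS_good (T := T) (x := Lt.e) (by decide) hu [Lt.f, Lt.ei, Lt.bi, Lt.e, Lt.b, Lt.ei, Lt.bi, Lt.c, Lt.fi] (hole_at (rb_15 hinv hr) 3 rfl) h
  · exact dp_e_14_s hinv hr hH j u hu h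
theorem dp_e_16_s (hinv : ∀ x, g (inv x) = (g x)⁻¹) (hr : ∀ r ∈ rels, (r.map g).prod = 1) (hH : ∀ r ∈ subs, (r.map g).prod ∈ H)
    (j u : ℕ) (hu : u < M) (h : dp_e_16 j u = true) : Good (fa g) T MG M (cP g H) Lt.e u := by
  unfold dp_e_16 at h
  rcases brec_true h with h | h
  · exact dp_e_13_s hinv hr hH j u hu h
  · exact dp_e_15_s hinv hr hH j u hu h
theorem dp_e_17_s (hinv : ∀ x, g (inv x) = (g x)⁻¹) (hr : ∀ r ∈ rels, (r.map g).prod = 1) (hH : ∀ r ∈ subs, (r.map g).prod ∈ H)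
    (j u : ℕ) (hu : u < M) (h : dp_e_17 j u = true) : Good (fa g) T MG M (cP g H) Lt.e u := by
  unfold dp_e_17 at h
  rcases brec_true h with h | h
  · exact dp_e_12_s hinv hr hH j u hu h
  · exact dp_e_16_s hinv hr hH j u hu h
theorem dp_e_18_s (hinv : ∀ x, g (inv x) = (g x)⁻¹) (hr : ∀ r ∈ rels, (r.map g).prod = 1) (hH : ∀ r ∈ subs, (r.map g).prod ∈ H)
    (j u : ℕ) (hu : u < M) (h : dp_e_18 j u = true) : Good (fa g) T MG M (cP g H) Lt.e u := by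
  unfold dp_e_18 at h
  rcases brec_true h with h | h
  · exact dp_e_10_s hinv hr hH j u hu h
  · exact dp_e_17_s hinv hr hH j u hu h
theorem dp_e_19_s (hinv : ∀ x, g (inv x) = (g x)⁻¹) (hr : ∀ r ∈ rels, (r.map g).prod = 1) (hH : ∀ r ∈ subs, (r.map g).prod ∈ H)
    (j u : ℕ) (hu : u < M) (h : dp_e_19 j u = true) : Good (fa g) T MG M (cP g H) Lt.e u := by
  unfold dp_e_19 at h
  rcases brec_true h with h | h
  · exact lF_good (T := T) (x := Lt.e) (by decide) [Lt.c, Lt.b, Lt.ci, Lt.fi, Lt.b, Lt.fi, Lt.ei, Lt.ei, Lt.f] (hole_at (rf_18 hinv hr) 9 rfl) h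
  · exact lF_good (T := T) (x := Lt.e) (by decide) [Lt.b, Lt.ci, Lt.f, Lt.c, Lt.bi, Lt.c, Lt.e, Lt.f, Lt.c] (hole_at (rf_12 hinv hr) 0 rfl) h
theorem dp_e_20_s (hinv : ∀ x, g (inv x) = (g x)⁻¹) (hr : ∀ r ∈ rels, (r.map g).prod = 1) (hH : ∀ r ∈ subs, (r.map g).prod ∈ H)
    (j u : ℕ) (hu : u < M) (h : dp_e_20 j u = true) : Good (fa g) T MG M (cP g H) Lt.e u := by
  unfold dp_e_20 at h
  rcases brec_true h with h | h
  · exact lF_good (T := T) (x := Lt.e) (by decide) [Lt.f, Lt.bi, Lt.f, Lt.c, Lt.bi, Lt.ci, Lt.ei, Lt.fi, Lt.e] (hole_at (rb_18 hinv hr) 5 rfl) h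
  · exact lF_good (T := T) (x := Lt.e) (by decide) [Lt.e, Lt.f, Lt.ci, Lt.fi, Lt.ci, Lt.ei, Lt.c, Lt.fi, Lt.c] (hole_at (rf_10 hinv hr) 1 rfl) h
theorem dp_e_21_s (hinv : ∀ x, g (inv x) = (g x)⁻¹) (hr : ∀ r ∈ rels, (r.map g).prod = 1) (hH : ∀ r ∈ subs, (r.map g).prod ∈ H)
    (j u : ℕ) (hu : u < M) (h : dp_e_21 j u = true) : Good (fa g) T MG M (cP g H) Lt.e u := by
  unfold dp_e_21 at h
  rcases brec_true h with h | h
  · exact lF_good (T := T) (x := Lt.e) (by decide) [Lt.bi, Lt.fi, Lt.e, Lt.bi, Lt.e, Lt.bi, Lt.fi, Lt.e, Lt.bi] (hole_at (rb_9 hinv hr) 4 rfl) h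
  · exact dp_e_20_s hinv hr hH j u hu h
theorem dp_e_22_s (hinv : ∀ x, g (inv x) = (g x)⁻¹) (hr : ∀ r ∈ rels, (r.map g).prod = 1) (hH : ∀ r ∈ subs, (r.map g).prod ∈ H)
    (j u : ℕ) (hu : u < M) (h : dp_e_22 j u = true) : Good (fa g) T MG M (cP g H) Lt.e u := by
  unfold dp_e_22 at h
  rcases brec_true h with h | h
  · exact dp_e_19_s hinv hr hH j u hu h
  · exact dp_e_21_s hinv hr hH j u hu h
theorem dp_e_23_s (hinv : ∀ x, g (inv x) = (g x)⁻¹) (hr : ∀ r ∈ rels, (r.map g).prod = 1) (hH : ∀ r ∈ subs, (r.map g).prod ∈ H)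
    (j u : ℕ) (hu : u < M) (h : dp_e_23 j u = true) : Good (fa g) T MG M (cP g H) Lt.e u := by
  unfold dp_e_23 at h
  rcases brec_true h with h | h
  · exact lF_good (T := T) (x := Lt.e) (by decide) [Lt.bi, Lt.e, Lt.bi, Lt.fi, Lt.e, Lt.bi, Lt.e, Lt.bi, Lt.fi] (hole_at (rb_9 hinv hr) 2 rfl) h
  · exact lF_good (T := T) (x := Lt.e) (by decide) [Lt.e, Lt.fi, Lt.fi, Lt.ci, Lt.fi, Lt.c, Lt.bi, Lt.e, Lt.b] (hole_at (rf_17 hinv hr) 2 rfl) h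
theorem dp_e_24_s (hinv : ∀ x, g (inv x) = (g x)⁻¹) (hr : ∀ r ∈ rels, (r.map g).prod = 1) (hH : ∀ r ∈ subs, (r.map g).prod ∈ H)
    (j u : ℕ) (hu : u < M) (h : dp_e_24 j u = true) : Good (fa g) T MG M (cP g H) Lt.e u := by
  unfold dp_e_24 at h
  rcases brec_true h with h | h
  · exact lS_good (T := T) (x := Lt.e) (by decide) hu [Lt.c, Lt.b, Lt.ci, Lt.fi, Lt.b, Lt.fi, Lt.ei, Lt.ei, Lt.f] (hole_at (rf_18 hinv hr) 9 rfl) h
  · exact lS_good (T := T) (x := Lt.e) (by decide) hu [Lt.ci, Lt.fi, Lt.bi, Lt.ei, Lt.bi, Lt.ci, Lt.fi, Lt.bi, Lt.fi] (hole_at (rb_19 hinv hr) 5 rfl) h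
theorem dp_e_25_s (hinv : ∀ x, g (inv x) = (g x)⁻¹) (hr : ∀ r ∈ rels, (r.map g).prod = 1) (hH : ∀ r ∈ subs, (r.map g).prod ∈ H)
    (j u : ℕ) (hu : u < M) (h : dp_e_25 j u = true) : Good (fa g) T MG M (cP g H) Lt.e u := by
  unfold dp_e_25 at h
  rcases brec_true h with h | h
  · exact dp_e_23_s hinv hr hH j u hu h
  · exact dp_e_24_s hinv hr hH j u hu h
theorem dp_e_26_s (hinv : ∀ x, g (inv x) = (g x)⁻¹) (hr : ∀ r ∈ rels, (r.map g).prod = 1) (hH : ∀ r ∈ subs, (r.map g).prod ∈ H)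
    (j u : ℕ) (hu : u < M) (h : dp_e_26 j u = true) : Good (fa g) T MG M (cP g H) Lt.e u := by
  unfold dp_e_26 at h
  rcases brec_true h with h | h
  · exact lF_good (T := T) (x := Lt.e) (by decide) [Lt.b, Lt.e, Lt.e, Lt.bi, Lt.e, Lt.b, Lt.e, Lt.e, Lt.bi] (hole_at (rf_8 hinv hr) 0 rfl) h
  · exact lS_good (T := T) (x := Lt.e) (by decide) hu [Lt.bi, Lt.f, Lt.ci, Lt.e, Lt.b, Lt.e, Lt.fi, Lt.b, Lt.ci] (hole_at (rf_11 hinv hr) 6 rfl) h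
theorem dp_e_27_s (hinv : ∀ x, g (inv x) = (g x)⁻¹) (hr : ∀ r ∈ rels, (r.map g).prod = 1) (hH : ∀ r ∈ subs, (r.map g).prod ∈ H)
    (j u : ℕ) (hu : u < M) (h : dp_e_27 j u = true) : Good (fa g) T MG M (cP g H) Lt.e u := by
  unfold dp_e_27 at h
  rcases brec_true h with h | h
  · exact lS_good (T := T) (x := Lt.e) (by decide) hu [Lt.bi, Lt.fi, Lt.e, Lt.bi, Lt.e, Lt.bi, Lt.fi, Lt.e, Lt.bi] (hole_at (rb_9 hinv hr) 4 rfl) h
  · exact lS_good (T := T) (x := Lt.e) (by decide) hu [Lt.f, Lt.ci, Lt.fi, Lt.ci, Lt.ei, Lt.c, Lt.fi, Lt.c, Lt.e] (hole_at (rf_10 hinv hr) 2 rfl) h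
theorem dp_e_28_s (hinv : ∀ x, g (inv x) = (g x)⁻¹) (hr : ∀ r ∈ rels, (r.map g).prod = 1) (hH : ∀ r ∈ subs, (r.map g).prod ∈ H)
    (j u : ℕ) (hu : u < M) (h : dp_e_28 j u = true) : Good (fa g) T MG M (cP g H) Lt.e u := by
  unfold dp_e_28 at h
  rcases brec_true h with h | h
  · exact dp_e_26_s hinv hr hH j u hu h
  · exact dp_e_27_s hinv hr hH j u hu h
theorem dp_e_29_s (hinv : ∀ x, g (inv x) = (g x)⁻¹) (hr : ∀ r ∈ rels, (r.map g).prod = 1) (hH : ∀ r ∈ subs, (r.map g).prod ∈ H)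
    (j u : ℕ) (hu : u < M) (h : dp_e_29 j u = true) : Good (fa g) T MG M (cP g H) Lt.e u := by
  unfold dp_e_29 at h
  rcases brec_true h with h | h
  · exact dp_e_25_s hinv hr hH j u hu h
  · exact dp_e_28_s hinv hr hH j u hu h
theorem dp_e_30_s (hinv : ∀ x, g (inv x) = (g x)⁻¹) (hr : ∀ r ∈ rels, (r.map g).prod = 1) (hH : ∀ r ∈ subs, (r.map g).prod ∈ H)
    (j u : ℕ) (hu : u < M) (h : dp_e_30 j u = true) : Good (fa g) T MG M (cP g H) Lt.e u := by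
  unfold dp_e_30 at h
  rcases brec_true h with h | h
  · exact dp_e_22_s hinv hr hH j u hu h
  · exact dp_e_29_s hinv hr hH j u hu h
theorem dp_e_31_s (hinv : ∀ x, g (inv x) = (g x)⁻¹) (hr : ∀ r ∈ rels, (r.map g).prod = 1) (hH : ∀ r ∈ subs, (r.map g).prod ∈ H)
    (j u : ℕ) (hu : u < M) (h : dp_e_31 j u = true) : Good (fa g) T MG M (cP g H) Lt.e u := by
  unfold dp_e_31 at h
  rcases brec_true h with h | h
  · exact lF_good (T := T) (x := Lt.e) (by decide) [Lt.fi, Lt.fi, Lt.ci, Lt.fi, Lt.c, Lt.bi, Lt.e, Lt.b, Lt.e] (hole_at (rf_17 hinv hr) 3 rfl) h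
  · exact lF_good (T := T) (x := Lt.e) (by decide) [Lt.e, Lt.f, Lt.bi, Lt.f, Lt.c, Lt.bi, Lt.ci, Lt.ei, Lt.fi] (hole_at (rb_18 hinv hr) 4 rfl) h
theorem dp_e_32_s (hinv : ∀ x, g (inv x) = (g x)⁻¹) (hr : ∀ r ∈ rels, (r.map g).prod = 1) (hH : ∀ r ∈ subs, (r.map g).prod ∈ H)
    (j u : ℕ) (hu : u < M) (h : dp_e_32 j u = true) : Good (fa g) T MG M (cP g H) Lt.e u := by
  unfold dp_e_32 at h
  rcases brec_true h with h | h
  · exact lF_good (T := T) (x := Lt.e) (by decide) [Lt.fi, Lt.b, Lt.ci, Lt.e, Lt.bi, Lt.f, Lt.ci, Lt.e, Lt.b] (hole_at (rf_11 hinv hr) 2 rfl) h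
  · exact lF_good (T := T) (x := Lt.e) (by decide) [Lt.fi, Lt.ei, Lt.f, Lt.ci, Lt.b, Lt.e, Lt.bi, Lt.ei, Lt.b] (hole_at (rf_15 hinv hr) 6 rfl) h
theorem dp_e_33_s (hinv : ∀ x, g (inv x) = (g x)⁻¹) (hr : ∀ r ∈ rels, (r.map g).prod = 1) (hH : ∀ r ∈ subs, (r.map g).prod ∈ H)
    (j u : ℕ) (hu : u < M) (h : dp_e_33 j u = true) : Good (fa g) T MG M (cP g H) Lt.e u := by
  unfold dp_e_33 at h
  rcases brec_true h with h | h
  · exact dp_e_31_s hinv hr hH j u hu h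
  · exact dp_e_32_s hinv hr hH j u hu h
theorem dp_e_34_s (hinv : ∀ x, g (inv x) = (g x)⁻¹) (hr : ∀ r ∈ rels, (r.map g).prod = 1) (hH : ∀ r ∈ subs, (r.map g).prod ∈ H)
    (j u : ℕ) (hu : u < M) (h : dp_e_34 j u = true) : Good (fa g) T MG M (cP g H) Lt.e u := by
  unfold dp_e_34 at h
  rcases brec_true h with h | h
  · exact lS_good (T := T) (x := Lt.e) (by decide) hu [Lt.b, Lt.e, Lt.e, Lt.fi, Lt.fi, Lt.ci, Lt.fi, Lt.c, Lt.bi] (hole_at (rf_17 hinv hr) 0 rfl) h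
  · exact lS_good (T := T) (x := Lt.e) (by decide) hu [Lt.c, Lt.fi, Lt.ci, Lt.f, Lt.c, Lt.e, Lt.fi, Lt.fi, Lt.c] (hole_at (rf_16 hinv hr) 1 rfl) h
theorem dp_e_35_s (hinv : ∀ x, g (inv x) = (g x)⁻¹) (hr : ∀ r ∈ rels, (r.map g).prod = 1) (hH : ∀ r ∈ subs, (r.map g).prod ∈ H)
    (j u : ℕ) (hu : u < M) (h : dp_e_35 j u = true) : Good (fa g) T MG M (cP g H) Lt.e u := by
  unfold dp_e_35 at h
  rcases brec_true h with h | h
  · exact lF_good (T := T) (x := Lt.e) (by decide) [Lt.b, Lt.ei, Lt.bi, Lt.c, Lt.fi, Lt.e, Lt.f, Lt.ei, Lt.bi] (hole_at (rb_15 hinv hr) 7 rfl) h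
  · exact lF_good (T := T) (x := Lt.e) (by decide) [Lt.bi, Lt.e, Lt.b, Lt.e, Lt.e, Lt.bi, Lt.e, Lt.b, Lt.e] (hole_at (rf_8 hinv hr) 3 rfl) h
theorem dp_e_36_s (hinv : ∀ x, g (inv x) = (g x)⁻¹) (hr : ∀ r ∈ rels, (r.map g).prod = 1) (hH : ∀ r ∈ subs, (r.map g).prod ∈ H)
    (j u : ℕ) (hu : u < M) (h : dp_e_36 j u = true) : Good (fa g) T MG M (cP g H) Lt.e u := by
  unfold dp_e_36 at h
  rcases brec_true h with h | h
  · exact lS_good (T := T) (x := Lt.e) (by decide) hu [Lt.b, Lt.ei, Lt.bi, Lt.c, Lt.fi, Lt.e, Lt.f, Lt.ei, Lt.bi] (hole_at (rb_15 hinv hr) 7 rfl) h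
  · exact dp_e_35_s hinv hr hH j u hu h
theorem dp_e_37_s (hinv : ∀ x, g (inv x) = (g x)⁻¹) (hr : ∀ r ∈ rels, (r.map g).prod = 1) (hH : ∀ r ∈ subs, (r.map g).prod ∈ H)
    (j u : ℕ) (hu : u < M) (h : dp_e_37 j u = true) : Good (fa g) T MG M (cP g H) Lt.e u := by
  unfold dp_e_37 at h
  rcases brec_true h with h | h
  · exact dp_e_34_s hinv hr hH j u hu h
  · exact dp_e_36_s hinv hr hH j u hu h
theorem dp_e_38_s (hinv : ∀ x, g (inv x) = (g x)⁻¹) (hr : ∀ r ∈ rels, (r.map g).prod = 1) (hH : ∀ r ∈ subs, (r.map g).prod ∈ H)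
    (j u : ℕ) (hu : u < M) (h : dp_e_38 j u = true) : Good (fa g) T MG M (cP g H) Lt.e u := by
  unfold dp_e_38 at h
  rcases brec_true h with h | h
  · exact dp_e_33_s hinv hr hH j u hu h
  · exact dp_e_37_s hinv hr hH j u hu h
theorem dp_e_39_s (hinv : ∀ x, g (inv x) = (g x)⁻¹) (hr : ∀ r ∈ rels, (r.map g).prod = 1) (hH : ∀ r ∈ subs, (r.map g).prod ∈ H)
    (j u : ℕ) (hu : u < M) (h : dp_e_39 j u = true) : Good (fa g) T MG M (cP g H) Lt.e u := by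
  unfold dp_e_39 at h
  rcases brec_true h with h | h
  · exact lF_good (T := T) (x := Lt.e) (by decide) [Lt.b, Lt.e, Lt.fi, Lt.b, Lt.ci, Lt.e, Lt.bi, Lt.f, Lt.ci] (hole_at (rf_11 hinv hr) 0 rfl) h
  · exact lS_good (T := T) (x := Lt.e) (by decide) hu [Lt.bi, Lt.e, Lt.e, Lt.b, Lt.e, Lt.bi, Lt.e, Lt.e, Lt.b] (hole_at (rf_14 hinv hr) 2 rfl) h
theorem dp_e_40_s (hinv : ∀ x, g (inv x) = (g x)⁻¹) (hr : ∀ r ∈ rels, (r.map g).prod = 1) (hH : ∀ r ∈ subs, (r.map g).prod ∈ H)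
    (j u : ℕ) (hu : u < M) (h : dp_e_40 j u = true) : Good (fa g) T MG M (cP g H) Lt.e u := by
  unfold dp_e_40 at h
  rcases brec_true h with h | h
  · exact lF_good (T := T) (x := Lt.e) (by decide) [Lt.bi, Lt.e, Lt.e, Lt.b, Lt.e, Lt.bi, Lt.e, Lt.e, Lt.b] (hole_at (rf_14 hinv hr) 2 rfl) h
  · exact dp_e_39_s hinv hr hH j u hu h
theorem dp_e_41_s (hinv : ∀ x, g (inv x) = (g x)⁻¹) (hr : ∀ r ∈ rels, (r.map g).prod = 1) (hH : ∀ r ∈ subs, (r.map g).prod ∈ H)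
    (j u : ℕ) (hu : u < M) (h : dp_e_41 j u = true) : Good (fa g) T MG M (cP g H) Lt.e u := by
  unfold dp_e_41 at h
  rcases brec_true h with h | h
  · exact lS_good (T := T) (x := Lt.e) (by decide) hu [Lt.b, Lt.e, Lt.e, Lt.bi, Lt.e, Lt.b, Lt.e, Lt.e, Lt.bi] (hole_at (rf_8 hinv hr) 0 rfl) h
  · exact lS_good (T := T) (x := Lt.e) (by decide) hu [Lt.e, Lt.bi, Lt.e, Lt.b, Lt.e, Lt.e, Lt.bi, Lt.e, Lt.b] (hole_at (rf_8 hinv hr) 2 rfl) h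
theorem dp_e_42_s (hinv : ∀ x, g (inv x) = (g x)⁻¹) (hr : ∀ r ∈ rels, (r.map g).prod = 1) (hH : ∀ r ∈ subs, (r.map g).prod ∈ H)
    (j u : ℕ) (hu : u < M) (h : dp_e_42 j u = true) : Good (fa g) T MG M (cP g H) Lt.e u := by
  unfold dp_e_42 at h
  rcases brec_true h with h | h
  · exact lS_good (T := T) (x := Lt.e) (by decide) hu [Lt.bi, Lt.ei, Lt.b, Lt.e, Lt.fi, Lt.ei, Lt.f, Lt.ci, Lt.b] (hole_at (rf_15 hinv hr) 2 rfl) h
  · exact lS_good (T := T) (x := Lt.e) (by decide) hu [Lt.b, Lt.f, Lt.c, Lt.ei, Lt.f, Lt.b, Lt.f, Lt.c, Lt.b] (hole_at (rf_19 hinv hr) 2 rfl) h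
theorem dp_e_43_s (hinv : ∀ x, g (inv x) = (g x)⁻¹) (hr : ∀ r ∈ rels, (r.map g).prod = 1) (hH : ∀ r ∈ subs, (r.map g).prod ∈ H)
    (j u : ℕ) (hu : u < M) (h : dp_e_43 j u = true) : Good (fa g) T MG M (cP g H) Lt.e u := by
  unfold dp_e_43 at h
  rcases brec_true h with h | h
  · exact dp_e_41_s hinv hr hH j u hu h
  · exact dp_e_42_s hinv hr hH j u hu h
theorem dp_e_44_s (hinv : ∀ x, g (inv x) = (g x)⁻¹) (hr : ∀ r ∈ rels, (r.map g).prod = 1) (hH : ∀ r ∈ subs, (r.map g).prod ∈ H)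
    (j u : ℕ) (hu : u < M) (h : dp_e_44 j u = true) : Good (fa g) T MG M (cP g H) Lt.e u := by
  unfold dp_e_44 at h
  rcases brec_true h with h | h
  · exact dp_e_40_s hinv hr hH j u hu h
  · exact dp_e_43_s hinv hr hH j u hu h
theorem dp_e_45_s (hinv : ∀ x, g (inv x) = (g x)⁻¹) (hr : ∀ r ∈ rels, (r.map g).prod = 1) (hH : ∀ r ∈ subs, (r.map g).prod ∈ H)
    (j u : ℕ) (hu : u < M) (h : dp_e_45 j u = true) : Good (fa g) T MG M (cP g H) Lt.e u := by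
  unfold dp_e_45 at h
  rcases brec_true h with h | h
  · exact lS_good (T := T) (x := Lt.e) (by decide) hu [Lt.fi, Lt.b, Lt.ci, Lt.e, Lt.bi, Lt.f, Lt.ci, Lt.e, Lt.b] (hole_at (rf_11 hinv hr) 2 rfl) h
  · exact lS_good (T := T) (x := Lt.e) (by decide) hu [Lt.b, Lt.ci, Lt.f, Lt.c, Lt.bi, Lt.c, Lt.e, Lt.f, Lt.c] (hole_at (rf_12 hinv hr) 0 rfl) h
theorem dp_e_46_s (hinv : ∀ x, g (inv x) = (g x)⁻¹) (hr : ∀ r ∈ rels, (r.map g).prod = 1) (hH : ∀ r ∈ subs, (r.map g).prod ∈ H)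
    (j u : ℕ) (hu : u < M) (h : dp_e_46 j u = true) : Good (fa g) T MG M (cP g H) Lt.e u := by
  unfold dp_e_46 at h
  rcases brec_true h with h | h
  · exact lS_good (T := T) (x := Lt.e) (by decide) hu [Lt.f, Lt.c, Lt.e, Lt.b, Lt.ci, Lt.f, Lt.c, Lt.bi, Lt.c] (hole_at (rf_12 hinv hr) 7 rfl) h
  · exact lF_good (T := T) (x := Lt.e) (by decide) [Lt.b, Lt.e, Lt.bi, Lt.e, Lt.e, Lt.b, Lt.e, Lt.bi, Lt.e] (hole_at (rf_14 hinv hr) 0 rfl) h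
theorem dp_e_47_s (hinv : ∀ x, g (inv x) = (g x)⁻¹) (hr : ∀ r ∈ rels, (r.map g).prod = 1) (hH : ∀ r ∈ subs, (r.map g).prod ∈ H)
    (j u : ℕ) (hu : u < M) (h : dp_e_47 j u = true) : Good (fa g) T MG M (cP g H) Lt.e u := by
  unfold dp_e_47 at h
  rcases brec_true h with h | h
  · exact dp_e_45_s hinv hr hH j u hu h
  · exact dp_e_46_s hinv hr hH j u hu h
theorem dp_e_48_s (hinv : ∀ x, g (inv x) = (g x)⁻¹) (hr : ∀ r ∈ rels, (r.map g).prod = 1) (hH : ∀ r ∈ subs, (r.map g).prod ∈ H)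
    (j u : ℕ) (hu : u < M) (h : dp_e_48 j u = true) : Good (fa g) T MG M (cP g H) Lt.e u := by
  unfold dp_e_48 at h
  rcases brec_true h with h | h
  · exact lH_good (T := T) (x := Lt.e) (by decide) [] [] (by rw [show cP g H 0 = _ from cc_zero]; exact sub_rel hinv (hH _ (by decide))) h
  · exact lS_good (T := T) (x := Lt.e) (by decide) hu [Lt.c, Lt.f, Lt.c, Lt.fi, Lt.ei, Lt.ei, Lt.ci, Lt.f, Lt.ci] (hole_at (rb_10 hinv hr) 4 rfl) h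
theorem dp_e_49_s (hinv : ∀ x, g (inv x) = (g x)⁻¹) (hr : ∀ r ∈ rels, (r.map g).prod = 1) (hH : ∀ r ∈ subs, (r.map g).prod ∈ H)
    (j u : ℕ) (hu : u < M) (h : dp_e_49 j u = true) : Good (fa g) T MG M (cP g H) Lt.e u := by
  unfold dp_e_49 at h
  rcases brec_true h with h | h
  · exact lS_good (T := T) (x := Lt.e) (by decide) hu [Lt.fi, Lt.fi, Lt.ci, Lt.fi, Lt.c, Lt.bi, Lt.e, Lt.b, Lt.e] (hole_at (rf_17 hinv hr) 3 rfl) h
  · exact lS_good (T := T) (x := Lt.e) (by decide) hu [Lt.fi, Lt.ei, Lt.f, Lt.ci, Lt.b, Lt.e, Lt.bi, Lt.ei, Lt.b] (hole_at (rf_15 hinv hr) 6 rfl) h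
theorem dp_e_50_s (hinv : ∀ x, g (inv x) = (g x)⁻¹) (hr : ∀ r ∈ rels, (r.map g).prod = 1) (hH : ∀ r ∈ subs, (r.map g).prod ∈ H)
    (j u : ℕ) (hu : u < M) (h : dp_e_50 j u = true) : Good (fa g) T MG M (cP g H) Lt.e u := by
  unfold dp_e_50 at h
  rcases brec_true h with h | h
  · exact dp_e_48_s hinv hr hH j u hu h
  · exact dp_e_49_s hinv hr hH j u hu h
theorem dp_e_51_s (hinv : ∀ x, g (inv x) = (g x)⁻¹) (hr : ∀ r ∈ rels, (r.map g).prod = 1) (hH : ∀ r ∈ subs, (r.map g).prod ∈ H)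
    (j u : ℕ) (hu : u < M) (h : dp_e_51 j u = true) : Good (fa g) T MG M (cP g H) Lt.e u := by
  unfold dp_e_51 at h
  rcases brec_true h with h | h
  · exact lS_good (T := T) (x := Lt.e) (by decide) hu [Lt.b, Lt.e, Lt.fi, Lt.b, Lt.ci, Lt.e, Lt.bi, Lt.f, Lt.ci] (hole_at (rf_11 hinv hr) 0 rfl) h
  · exact lS_good (T := T) (x := Lt.e) (by decide) hu [Lt.e, Lt.b, Lt.e, Lt.bi, Lt.e, Lt.e, Lt.b, Lt.e, Lt.bi] (hole_at (rf_14 hinv hr) 4 rfl) h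
theorem dp_e_52_s (hinv : ∀ x, g (inv x) = (g x)⁻¹) (hr : ∀ r ∈ rels, (r.map g).prod = 1) (hH : ∀ r ∈ subs, (r.map g).prod ∈ H)
    (j u : ℕ) (hu : u < M) (h : dp_e_52 j u = true) : Good (fa g) T MG M (cP g H) Lt.e u := by
  unfold dp_e_52 at h
  rcases brec_true h with h | h
  · exact lS_good (T := T) (x := Lt.e) (by decide) hu [Lt.b, Lt.e, Lt.bi, Lt.e, Lt.e, Lt.b, Lt.e, Lt.bi, Lt.e] (hole_at (rf_14 hinv hr) 0 rfl) h
  · exact lF_good (T := T) (x := Lt.e) (by decide) [Lt.e, Lt.b, Lt.e, Lt.bi, Lt.e, Lt.e, Lt.b, Lt.e, Lt.bi] (hole_at (rf_14 hinv hr) 4 rfl) h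
theorem dp_e_53_s (hinv : ∀ x, g (inv x) = (g x)⁻¹) (hr : ∀ r ∈ rels, (r.map g).prod = 1) (hH : ∀ r ∈ subs, (r.map g).prod ∈ H)
    (j u : ℕ) (hu : u < M) (h : dp_e_53 j u = true) : Good (fa g) T MG M (cP g H) Lt.e u := by
  unfold dp_e_53 at h
  rcases brec_true h with h | h
  · exact dp_e_51_s hinv hr hH j u hu h
  · exact dp_e_52_s hinv hr hH j u hu h
theorem dp_e_54_s (hinv : ∀ x, g (inv x) = (g x)⁻¹) (hr : ∀ r ∈ rels, (r.map g).prod = 1) (hH : ∀ r ∈ subs, (r.map g).prod ∈ H)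
    (j u : ℕ) (hu : u < M) (h : dp_e_54 j u = true) : Good (fa g) T MG M (cP g H) Lt.e u := by
  unfold dp_e_54 at h
  rcases brec_true h with h | h
  · exact dp_e_50_s hinv hr hH j u hu h
  · exact dp_e_53_s hinv hr hH j u hu h
theorem dp_e_55_s (hinv : ∀ x, g (inv x) = (g x)⁻¹) (hr : ∀ r ∈ rels, (r.map g).prod = 1) (hH : ∀ r ∈ subs, (r.map g).prod ∈ H)
    (j u : ℕ) (hu : u < M) (h : dp_e_55 j u = true) : Good (fa g) T MG M (cP g H) Lt.e u := by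
  unfold dp_e_55 at h
  rcases brec_true h with h | h
  · exact dp_e_47_s hinv hr hH j u hu h
  · exact dp_e_54_s hinv hr hH j u hu h
theorem dp_e_56_s (hinv : ∀ x, g (inv x) = (g x)⁻¹) (hr : ∀ r ∈ rels, (r.map g).prod = 1) (hH : ∀ r ∈ subs, (r.map g).prod ∈ H)
    (j u : ℕ) (hu : u < M) (h : dp_e_56 j u = true) : Good (fa g) T MG M (cP g H) Lt.e u := by
  unfold dp_e_56 at h
  rcases brec_true h with h | h
  · exact dp_e_44_s hinv hr hH j u hu h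
  · exact dp_e_55_s hinv hr hH j u hu h
theorem dp_e_57_s (hinv : ∀ x, g (inv x) = (g x)⁻¹) (hr : ∀ r ∈ rels, (r.map g).prod = 1) (hH : ∀ r ∈ subs, (r.map g).prod ∈ H)
    (j u : ℕ) (hu : u < M) (h : dp_e_57 j u = true) : Good (fa g) T MG M (cP g H) Lt.e u := by
  unfold dp_e_57 at h
  rcases brec_true h with h | h
  · exact dp_e_38_s hinv hr hH j u hu h
  · exact dp_e_56_s hinv hr hH j u hu h
theorem dp_e_58_s (hinv : ∀ x, g (inv x) = (g x)⁻¹) (hr : ∀ r ∈ rels, (r.map g).prod = 1) (hH : ∀ r ∈ subs, (r.map g).prod ∈ H)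
    (j u : ℕ) (hu : u < M) (h : dp_e_58 j u = true) : Good (fa g) T MG M (cP g H) Lt.e u := by
  unfold dp_e_58 at h
  rcases brec_true h with h | h
  · exact dp_e_30_s hinv hr hH j u hu h
  · exact dp_e_57_s hinv hr hH j u hu h
theorem dp_e_59_s (hinv : ∀ x, g (inv x) = (g x)⁻¹) (hr : ∀ r ∈ rels, (r.map g).prod = 1) (hH : ∀ r ∈ subs, (r.map g).prod ∈ H)
    (j u : ℕ) (hu : u < M) (h : dp_e_59 j u = true) : Good (fa g) T MG M (cP g H) Lt.e u := by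
  unfold dp_e_59 at h
  rcases brec_true h with h | h
  · exact dp_e_18_s hinv hr hH j u hu h
  · exact dp_e_58_s hinv hr hH j u hu h
theorem dp_e_60_s (hinv : ∀ x, g (inv x) = (g x)⁻¹) (hr : ∀ r ∈ rels, (r.map g).prod = 1) (hH : ∀ r ∈ subs, (r.map g).prod ∈ H)
    (j u : ℕ) (hu : u < M) (h : dp_e_60 j u = true) : Good (fa g) T MG M (cP g H) Lt.e u := by
  unfold dp_e_60 at h
  rcases brec_true h with h | h
  · exact dp_e_6_s hinv hr hH j u hu h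
  · exact dp_e_59_s hinv hr hH j u hu h
theorem dp_e_61_s (hinv : ∀ x, g (inv x) = (g x)⁻¹) (hr : ∀ r ∈ rels, (r.map g).prod = 1) (hH : ∀ r ∈ subs, (r.map g).prod ∈ H)
    (j u : ℕ) (hu : u < M) (h : dp_e_61 j u = true) : Good (fa g) T MG M (cP g H) Lt.e u := by
  unfold dp_e_61 at h
  rcases brec_true h with h | h
  · exact dp_e_1_s hinv hr hH j u hu h
  · exact dp_e_60_s hinv hr hH j u hu h
theorem dp_e_62_s (hinv : ∀ x, g (inv x) = (g x)⁻¹) (hr : ∀ r ∈ rels, (r.map g).prod = 1) (hH : ∀ r ∈ subs, (r.map g).prod ∈ H)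
    (j u : ℕ) (hu : u < M) (h : dp_e_62 j u = true) : Good (fa g) T MG M (cP g H) Lt.e u := by
  unfold dp_e_62 at h
  rcases brec_true h with h | h
  · rcases brec_true h with h | h
    · exact lDef_good (T := T) (x := Lt.e) (by decide) rfl h
    · exact lPar_good (T := T) (x := Lt.e) (x' := Lt.ei) (by decide) rfl (inv_rel hinv _ _ rfl) h
  · exact dp_e_61_s hinv hr hH j u hu h
theorem snd_e (hinv : ∀ x, g (inv x) = (g x)⁻¹) (hr : ∀ r ∈ rels, (r.map g).prod = 1) (hH : ∀ r ∈ subs, (r.map g).prod ∈ H)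
    (j u : ℕ) (hu : u < M) (h : disp_e j u = true) : Good (fa g) T MG M (cP g H) Lt.e u := by
  unfold disp_e at h
  rcases brec_true h with h | h
  · rcases brec_true h with h | h
    · exact lF1_good (T := T) (x := Lt.e) (by decide) .ei (hole_at (rf_24 hinv hr) 1 rfl) h
    · exact lF3_good (T := T) (x := Lt.e) (by decide) .d .fi .di (hole_at (rf_4 hinv hr) 0 rfl) h
  · exact dp_e_62_s hinv hr hH j u hu h
theorem snc_e (hinv : ∀ x, g (inv x) = (g x)⁻¹) (hr : ∀ r ∈ rels, (r.map g).prod = 1) (hH : ∀ r ∈ subs, (r.map g).prod ∈ H)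
    (j u : ℕ) (hu : u < M) (h : chk_e j u = true) : (T Lt.e u < A ∧ Good (fa g) T MG M (cP g H) Lt.e u) ∨ (A ≤ T Lt.e u ∧ MG u < A) := by
  unfold chk_e at h
  cases hb : Nat.ble A (T_e u) with
  | true => rw [hb] at h; exact Or.inr ⟨le_of_ble hb, le_of_ble h⟩
  | false => rw [hb] at h; exact Or.inl ⟨lt_of_ble_false hb, snd_e hinv hr hH j u hu h⟩
theorem dp_ei_0_s (hinv : ∀ x, g (inv x) = (g x)⁻¹) (hr : ∀ r ∈ rels, (r.map g).prod = 1) (hH : ∀ r ∈ subs, (r.map g).prod ∈ H)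
    (j u : ℕ) (hu : u < M) (h : dp_ei_0 j u = true) : Good (fa g) T MG M (cP g H) Lt.ei u := by
  unfold dp_ei_0 at h
  rcases brec_true h with h | h
  · exact lF_good (T := T) (x := Lt.ei) (by decide) [Lt.fi, Lt.ei, Lt.c, Lt.bi, Lt.fi, Lt.b, Lt.c, Lt.b] (hole_at (rf_7 hinv hr) 2 rfl) h
  · exact lS_good (T := T) (x := Lt.ei) (by decide) hu [Lt.e] (hole_at (rf_24 hinv hr) 0 rfl) h
theorem dp_ei_1_s (hinv : ∀ x, g (inv x) = (g x)⁻¹) (hr : ∀ r ∈ rels, (r.map g).prod = 1) (hH : ∀ r ∈ subs, (r.map g).prod ∈ H)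
    (j u : ℕ) (hu : u < M) (h : dp_ei_1 j u = true) : Good (fa g) T MG M (cP g H) Lt.ei u := by
  unfold dp_ei_1 at h
  rcases brec_true h with h | h
  · exact lF_good (T := T) (x := Lt.ei) (by decide) [Lt.ei, Lt.ei, Lt.ei, Lt.ei] (hole_at (rb_5 hinv hr) 0 rfl) h
  · exact dp_ei_0_s hinv hr hH j u hu h
theorem dp_ei_2_s (hinv : ∀ x, g (inv x) = (g x)⁻¹) (hr : ∀ r ∈ rels, (r.map g).prod = 1) (hH : ∀ r ∈ subs, (r.map g).prod ∈ H)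
    (j u : ℕ) (hu : u < M) (h : dp_ei_2 j u = true) : Good (fa g) T MG M (cP g H) Lt.ei u := by
  unfold dp_ei_2 at h
  rcases brec_true h with h | h
  · exact lS_good (T := T) (x := Lt.ei) (by decide) hu [Lt.c, Lt.bi, Lt.fi, Lt.b, Lt.c, Lt.b, Lt.ei, Lt.fi] (hole_at (rf_7 hinv hr) 4 rfl) h
  · exact lS_good (T := T) (x := Lt.ei) (by decide) hu [Lt.fi, Lt.ei, Lt.c, Lt.bi, Lt.fi, Lt.b, Lt.c, Lt.b] (hole_at (rf_7 hinv hr) 2 rfl) h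
theorem dp_ei_3_s (hinv : ∀ x, g (inv x) = (g x)⁻¹) (hr : ∀ r ∈ rels, (r.map g).prod = 1) (hH : ∀ r ∈ subs, (r.map g).prod ∈ H)
    (j u : ℕ) (hu : u < M) (h : dp_ei_3 j u = true) : Good (fa g) T MG M (cP g H) Lt.ei u := by
  unfold dp_ei_3 at h
  rcases brec_true h with h | h
  · exact lF_good (T := T) (x := Lt.ei) (by decide) [Lt.f, Lt.ci, Lt.b, Lt.e, Lt.bi, Lt.ei, Lt.b, Lt.e, Lt.fi] (hole_at (rf_15 hinv hr) 8 rfl) h
  · exact lF_good (T := T) (x := Lt.ei) (by decide) [Lt.ci, Lt.fi, Lt.c, Lt.f, Lt.ci, Lt.ei, Lt.ci, Lt.f, Lt.f] (hole_at (rb_16 hinv hr) 4 rfl) h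
theorem dp_ei_4_s (hinv : ∀ x, g (inv x) = (g x)⁻¹) (hr : ∀ r ∈ rels, (r.map g).prod = 1) (hH : ∀ r ∈ subs, (r.map g).prod ∈ H)
    (j u : ℕ) (hu : u < M) (h : dp_ei_4 j u = true) : Good (fa g) T MG M (cP g H) Lt.ei u := by
  unfold dp_ei_4 at h
  rcases brec_true h with h | h
  · exact lS_good (T := T) (x := Lt.ei) (by decide) hu [Lt.d, Lt.f, Lt.di] (hole_at (rb_4 hinv hr) 1 rfl) h
  · exact dp_ei_3_s hinv hr hH j u hu h
theorem dp_ei_5_s (hinv : ∀ x, g (inv x) = (g x)⁻¹) (hr : ∀ r ∈ rels, (r.map g).prod = 1) (hH : ∀ r ∈ subs, (r.map g).prod ∈ H)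
    (j u : ℕ) (hu : u < M) (h : dp_ei_5 j u = true) : Good (fa g) T MG M (cP g H) Lt.ei u := by
  unfold dp_ei_5 at h
  rcases brec_true h with h | h
  · exact dp_ei_2_s hinv hr hH j u hu h
  · exact dp_ei_4_s hinv hr hH j u hu h
theorem dp_ei_6_s (hinv : ∀ x, g (inv x) = (g x)⁻¹) (hr : ∀ r ∈ rels, (r.map g).prod = 1) (hH : ∀ r ∈ subs, (r.map g).prod ∈ H)
    (j u : ℕ) (hu : u < M) (h : dp_ei_6 j u = true) : Good (fa g) T MG M (cP g H) Lt.ei u := by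
  unfold dp_ei_6 at h
  rcases brec_true h with h | h
  · exact lF_good (T := T) (x := Lt.ei) (by decide) [Lt.c, Lt.bi, Lt.fi, Lt.b, Lt.c, Lt.b, Lt.ei, Lt.fi] (hole_at (rf_7 hinv hr) 4 rfl) h
  · exact dp_ei_5_s hinv hr hH j u hu h
theorem dp_ei_7_s (hinv : ∀ x, g (inv x) = (g x)⁻¹) (hr : ∀ r ∈ rels, (r.map g).prod = 1) (hH : ∀ r ∈ subs, (r.map g).prod ∈ H)
    (j u : ℕ) (hu : u < M) (h : dp_ei_7 j u = true) : Good (fa g) T MG M (cP g H) Lt.ei u := by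
  unfold dp_ei_7 at h
  rcases brec_true h with h | h
  · exact lF_good (T := T) (x := Lt.ei) (by decide) [Lt.ei, Lt.ci, Lt.f, Lt.ci, Lt.e, Lt.c, Lt.f, Lt.c, Lt.fi] (hole_at (rb_10 hinv hr) 9 rfl) h
  · exact lF_good (T := T) (x := Lt.ei) (by decide) [Lt.ci, Lt.f, Lt.f, Lt.ei, Lt.ci, Lt.fi, Lt.c, Lt.f, Lt.ci] (hole_at (rb_16 hinv hr) 0 rfl) h
theorem dp_ei_8_s (hinv : ∀ x, g (inv x) = (g x)⁻¹) (hr : ∀ r ∈ rels, (r.map g).prod = 1) (hH : ∀ r ∈ subs, (r.map g).prod ∈ H)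
    (j u : ℕ) (hu : u < M) (h : dp_ei_8 j u = true) : Good (fa g) T MG M (cP g H) Lt.ei u := by
  unfold dp_ei_8 at h
  rcases brec_true h with h | h
  · exact lS_good (T := T) (x := Lt.ei) (by decide) hu [Lt.ei, Lt.ei, Lt.ei, Lt.ei] (hole_at (rb_5 hinv hr) 0 rfl) h
  · exact lF_good (T := T) (x := Lt.ei) (by decide) [Lt.ci, Lt.b, Lt.ci, Lt.fi, Lt.c, Lt.bi, Lt.ei, Lt.ci, Lt.fi] (hole_at (rb_12 hinv hr) 4 rfl) h
theorem dp_ei_9_s (hinv : ∀ x, g (inv x) = (g x)⁻¹) (hr : ∀ r ∈ rels, (r.map g).prod = 1) (hH : ∀ r ∈ subs, (r.map g).prod ∈ H)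
    (j u : ℕ) (hu : u < M) (h : dp_ei_9 j u = true) : Good (fa g) T MG M (cP g H) Lt.ei u := by
  unfold dp_ei_9 at h
  rcases brec_true h with h | h
  · exact dp_ei_7_s hinv hr hH j u hu h
  · exact dp_ei_8_s hinv hr hH j u hu h
theorem dp_ei_10_s (hinv : ∀ x, g (inv x) = (g x)⁻¹) (hr : ∀ r ∈ rels, (r.map g).prod = 1) (hH : ∀ r ∈ subs, (r.map g).prod ∈ H)
    (j u : ℕ) (hu : u < M) (h : dp_ei_10 j u = true) : Good (fa g) T MG M (cP g H) Lt.ei u := by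
  unfold dp_ei_10 at h
  rcases brec_true h with h | h
  · exact lF_good (T := T) (x := Lt.ei) (by decide) [Lt.b, Lt.ci, Lt.f, Lt.c, Lt.f, Lt.f, Lt.ei, Lt.ei, Lt.bi] (hole_at (rb_17 hinv hr) 1 rfl) h
  · exact lF_good (T := T) (x := Lt.ei) (by decide) [Lt.c, Lt.fi, Lt.c, Lt.e, Lt.e, Lt.f, Lt.ci, Lt.fi, Lt.ci] (hole_at (rf_10 hinv hr) 7 rfl) h
theorem dp_ei_11_s (hinv : ∀ x, g (inv x) = (g x)⁻¹) (hr : ∀ r ∈ rels, (r.map g).prod = 1) (hH : ∀ r ∈ subs, (r.map g).prod ∈ H)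
    (j u : ℕ) (hu : u < M) (h : dp_ei_11 j u = true) : Good (fa g) T MG M (cP g H) Lt.ei u := by
  unfold dp_ei_11 at h
  rcases brec_true h with h | h
  · exact lF_good (T := T) (x := Lt.ei) (by decide) [Lt.bi, Lt.ci, Lt.fi, Lt.bi, Lt.fi, Lt.e, Lt.ci, Lt.fi, Lt.bi] (hole_at (rb_19 hinv hr) 9 rfl) h
  · exact dp_ei_10_s hinv hr hH j u hu h
theorem dp_ei_12_s (hinv : ∀ x, g (inv x) = (g x)⁻¹) (hr : ∀ r ∈ rels, (r.map g).prod = 1) (hH : ∀ r ∈ subs, (r.map g).prod ∈ H)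
    (j u : ℕ) (hu : u < M) (h : dp_ei_12 j u = true) : Good (fa g) T MG M (cP g H) Lt.ei u := by
  unfold dp_ei_12 at h
  rcases brec_true h with h | h
  · exact lS_good (T := T) (x := Lt.ei) (by decide) hu [Lt.f, Lt.ci, Lt.b, Lt.e, Lt.bi, Lt.ei, Lt.b, Lt.e, Lt.fi] (hole_at (rf_15 hinv hr) 8 rfl) h
  · exact lF_good (T := T) (x := Lt.ei) (by decide) [Lt.bi, Lt.ei, Lt.c, Lt.fi, Lt.b, Lt.ei, Lt.c, Lt.bi, Lt.f] (hole_at (rb_11 hinv hr) 9 rfl) h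
theorem dp_ei_13_s (hinv : ∀ x, g (inv x) = (g x)⁻¹) (hr : ∀ r ∈ rels, (r.map g).prod = 1) (hH : ∀ r ∈ subs, (r.map g).prod ∈ H)
    (j u : ℕ) (hu : u < M) (h : dp_ei_13 j u = true) : Good (fa g) T MG M (cP g H) Lt.ei u := by
  unfold dp_ei_13 at h
  rcases brec_true h with h | h
  · exact lF_good (T := T) (x := Lt.ei) (by decide) [Lt.f, Lt.b, Lt.ei, Lt.b, Lt.ei, Lt.f, Lt.b, Lt.ei, Lt.b] (hole_at (rf_9 hinv hr) 4 rfl) h
  · exact lF_good (T := T) (x := Lt.ei) (by decide) [Lt.c, Lt.bi, Lt.f, Lt.ei, Lt.bi, Lt.ei, Lt.c, Lt.fi, Lt.b] (hole_at (rb_11 hinv hr) 5 rfl) h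
theorem dp_ei_14_s (hinv : ∀ x, g (inv x) = (g x)⁻¹) (hr : ∀ r ∈ rels, (r.map g).prod = 1) (hH : ∀ r ∈ subs, (r.map g).prod ∈ H)
    (j u : ℕ) (hu : u < M) (h : dp_ei_14 j u = true) : Good (fa g) T MG M (cP g H) Lt.ei u := by
  unfold dp_ei_14 at h
  rcases brec_true h with h | h
  · exact dp_ei_12_s hinv hr hH j u hu h
  · exact dp_ei_13_s hinv hr hH j u hu h
theorem dp_ei_15_s (hinv : ∀ x, g (inv x) = (g x)⁻¹) (hr : ∀ r ∈ rels, (r.map g).prod = 1) (hH : ∀ r ∈ subs, (r.map g).prod ∈ H)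
    (j u : ℕ) (hu : u < M) (h : dp_ei_15 j u = true) : Good (fa g) T MG M (cP g H) Lt.ei u := by
  unfold dp_ei_15 at h
  rcases brec_true h with h | h
  · exact dp_ei_11_s hinv hr hH j u hu h
  · exact dp_ei_14_s hinv hr hH j u hu h
theorem dp_ei_16_s (hinv : ∀ x, g (inv x) = (g x)⁻¹) (hr : ∀ r ∈ rels, (r.map g).prod = 1) (hH : ∀ r ∈ subs, (r.map g).prod ∈ H)
    (j u : ℕ) (hu : u < M) (h : dp_ei_16 j u = true) : Good (fa g) T MG M (cP g H) Lt.ei u := by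
  unfold dp_ei_16 at h
  rcases brec_true h with h | h
  · exact dp_ei_9_s hinv hr hH j u hu h
  · exact dp_ei_15_s hinv hr hH j u hu h
theorem dp_ei_17_s (hinv : ∀ x, g (inv x) = (g x)⁻¹) (hr : ∀ r ∈ rels, (r.map g).prod = 1) (hH : ∀ r ∈ subs, (r.map g).prod ∈ H)
    (j u : ℕ) (hu : u < M) (h : dp_ei_17 j u = true) : Good (fa g) T MG M (cP g H) Lt.ei u := by
  unfold dp_ei_17 at h
  rcases brec_true h with h | h
  · exact lF_good (T := T) (x := Lt.ei) (by decide) [Lt.b, Lt.ei, Lt.f, Lt.b, Lt.ei, Lt.b, Lt.ei, Lt.f, Lt.b] (hole_at (rf_9 hinv hr) 2 rfl) h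
  · exact lF_good (T := T) (x := Lt.ei) (by decide) [Lt.fi, Lt.e, Lt.e, Lt.f, Lt.bi, Lt.f, Lt.c, Lt.bi, Lt.ci] (hole_at (rb_18 hinv hr) 2 rfl) h
theorem dp_ei_18_s (hinv : ∀ x, g (inv x) = (g x)⁻¹) (hr : ∀ r ∈ rels, (r.map g).prod = 1) (hH : ∀ r ∈ subs, (r.map g).prod ∈ H)
    (j u : ℕ) (hu : u < M) (h : dp_ei_18 j u = true) : Good (fa g) T MG M (cP g H) Lt.ei u := by
  unfold dp_ei_18 at h
  rcases brec_true h with h | h
  · exact lF_good (T := T) (x := Lt.ei) (by decide) [Lt.ci, Lt.f, Lt.ci, Lt.e, Lt.c, Lt.f, Lt.c, Lt.fi, Lt.ei] (hole_at (rb_10 hinv hr) 0 rfl) h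
  · exact lS_good (T := T) (x := Lt.ei) (by decide) hu [Lt.ci, Lt.f, Lt.ci, Lt.e, Lt.c, Lt.f, Lt.c, Lt.fi, Lt.ei] (hole_at (rb_10 hinv hr) 0 rfl) h
theorem dp_ei_19_s (hinv : ∀ x, g (inv x) = (g x)⁻¹) (hr : ∀ r ∈ rels, (r.map g).prod = 1) (hH : ∀ r ∈ subs, (r.map g).prod ∈ H)
    (j u : ℕ) (hu : u < M) (h : dp_ei_19 j u = true) : Good (fa g) T MG M (cP g H) Lt.ei u := by
  unfold dp_ei_19 at h
  rcases brec_true h with h | h
  · exact lF_good (T := T) (x := Lt.ei) (by decide) [Lt.f, Lt.b, Lt.f, Lt.c, Lt.b, Lt.e, Lt.b, Lt.f, Lt.c] (hole_at (rf_19 hinv hr) 6 rfl) h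
  · exact dp_ei_18_s hinv hr hH j u hu h
theorem dp_ei_20_s (hinv : ∀ x, g (inv x) = (g x)⁻¹) (hr : ∀ r ∈ rels, (r.map g).prod = 1) (hH : ∀ r ∈ subs, (r.map g).prod ∈ H)
    (j u : ℕ) (hu : u < M) (h : dp_ei_20 j u = true) : Good (fa g) T MG M (cP g H) Lt.ei u := by
  unfold dp_ei_20 at h
  rcases brec_true h with h | h
  · exact dp_ei_17_s hinv hr hH j u hu h
  · exact dp_ei_19_s hinv hr hH j u hu h
theorem dp_ei_21_s (hinv : ∀ x, g (inv x) = (g x)⁻¹) (hr : ∀ r ∈ rels, (r.map g).prod = 1) (hH : ∀ r ∈ subs, (r.map g).prod ∈ H)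
    (j u : ℕ) (hu : u < M) (h : dp_ei_21 j u = true) : Good (fa g) T MG M (cP g H) Lt.ei u := by
  unfold dp_ei_21 at h
  rcases brec_true h with h | h
  · exact lF_good (T := T) (x := Lt.ei) (by decide) [Lt.bi, Lt.e, Lt.b, Lt.ei, Lt.bi, Lt.c, Lt.fi, Lt.e, Lt.f] (hole_at (rb_15 hinv hr) 5 rfl) h
  · exact lS_good (T := T) (x := Lt.ei) (by decide) hu [Lt.ci, Lt.f, Lt.f, Lt.ei, Lt.ci, Lt.fi, Lt.c, Lt.f, Lt.ci] (hole_at (rb_16 hinv hr) 0 rfl) h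
theorem dp_ei_22_s (hinv : ∀ x, g (inv x) = (g x)⁻¹) (hr : ∀ r ∈ rels, (r.map g).prod = 1) (hH : ∀ r ∈ subs, (r.map g).prod ∈ H)
    (j u : ℕ) (hu : u < M) (h : dp_ei_22 j u = true) : Good (fa g) T MG M (cP g H) Lt.ei u := by
  unfold dp_ei_22 at h
  rcases brec_true h with h | h
  · exact lS_good (T := T) (x := Lt.ei) (by decide) hu [Lt.ci, Lt.b, Lt.ci, Lt.fi, Lt.c, Lt.bi, Lt.ei, Lt.ci, Lt.fi] (hole_at (rb_12 hinv hr) 4 rfl) h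
  · exact dp_ei_21_s hinv hr hH j u hu h
theorem dp_ei_23_s (hinv : ∀ x, g (inv x) = (g x)⁻¹) (hr : ∀ r ∈ rels, (r.map g).prod = 1) (hH : ∀ r ∈ subs, (r.map g).prod ∈ H)
    (j u : ℕ) (hu : u < M) (h : dp_ei_23 j u = true) : Good (fa g) T MG M (cP g H) Lt.ei u := by
  unfold dp_ei_23 at h
  rcases brec_true h with h | h
  · exact lF_good (T := T) (x := Lt.ei) (by decide) [Lt.ci, Lt.fi, Lt.ei, Lt.ci, Lt.b, Lt.ci, Lt.fi, Lt.c, Lt.bi] (hole_at (rb_12 hinv hr) 1 rfl) h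
  · exact lS_good (T := T) (x := Lt.ei) (by decide) hu [Lt.fi, Lt.e, Lt.e, Lt.f, Lt.bi, Lt.f, Lt.c, Lt.bi, Lt.ci] (hole_at (rb_18 hinv hr) 2 rfl) h
theorem dp_ei_24_s (hinv : ∀ x, g (inv x) = (g x)⁻¹) (hr : ∀ r ∈ rels, (r.map g).prod = 1) (hH : ∀ r ∈ subs, (r.map g).prod ∈ H)
    (j u : ℕ) (hu : u < M) (h : dp_ei_24 j u = true) : Good (fa g) T MG M (cP g H) Lt.ei u := by
  unfold dp_ei_24 at h
  rcases brec_true h with h | h
  · exact lS_good (T := T) (x := Lt.ei) (by decide) hu [Lt.c, Lt.fi, Lt.c, Lt.e, Lt.e, Lt.f, Lt.ci, Lt.fi, Lt.ci] (hole_at (rf_10 hinv hr) 7 rfl) h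
  · exact lF_good (T := T) (x := Lt.ei) (by decide) [Lt.b, Lt.ei, Lt.ei, Lt.bi, Lt.ei, Lt.b, Lt.ei, Lt.ei, Lt.bi] (hole_at (rb_8 hinv hr) 1 rfl) h
theorem dp_ei_25_s (hinv : ∀ x, g (inv x) = (g x)⁻¹) (hr : ∀ r ∈ rels, (r.map g).prod = 1) (hH : ∀ r ∈ subs, (r.map g).prod ∈ H)
    (j u : ℕ) (hu : u < M) (h : dp_ei_25 j u = true) : Good (fa g) T MG M (cP g H) Lt.ei u := by
  unfold dp_ei_25 at h
  rcases brec_true h with h | h
  · exact dp_ei_23_s hinv hr hH j u hu h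
  · exact dp_ei_24_s hinv hr hH j u hu h
theorem dp_ei_26_s (hinv : ∀ x, g (inv x) = (g x)⁻¹) (hr : ∀ r ∈ rels, (r.map g).prod = 1) (hH : ∀ r ∈ subs, (r.map g).prod ∈ H)
    (j u : ℕ) (hu : u < M) (h : dp_ei_26 j u = true) : Good (fa g) T MG M (cP g H) Lt.ei u := by
  unfold dp_ei_26 at h
  rcases brec_true h with h | h
  · exact dp_ei_22_s hinv hr hH j u hu h
  · exact dp_ei_25_s hinv hr hH j u hu h
theorem dp_ei_27_s (hinv : ∀ x, g (inv x) = (g x)⁻¹) (hr : ∀ r ∈ rels, (r.map g).prod = 1) (hH : ∀ r ∈ subs, (r.map g).prod ∈ H)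
    (j u : ℕ) (hu : u < M) (h : dp_ei_27 j u = true) : Good (fa g) T MG M (cP g H) Lt.ei u := by
  unfold dp_ei_27 at h
  rcases brec_true h with h | h
  · exact dp_ei_20_s hinv hr hH j u hu h
  · exact dp_ei_26_s hinv hr hH j u hu h
theorem dp_ei_28_s (hinv : ∀ x, g (inv x) = (g x)⁻¹) (hr : ∀ r ∈ rels, (r.map g).prod = 1) (hH : ∀ r ∈ subs, (r.map g).prod ∈ H)
    (j u : ℕ) (hu : u < M) (h : dp_ei_28 j u = true) : Good (fa g) T MG M (cP g H) Lt.ei u := by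
  unfold dp_ei_28 at h
  rcases brec_true h with h | h
  · exact lF_good (T := T) (x := Lt.ei) (by decide) [Lt.bi, Lt.ei, Lt.b, Lt.ci, Lt.f, Lt.c, Lt.f, Lt.f, Lt.ei] (hole_at (rb_17 hinv hr) 9 rfl) h
  · exact lS_good (T := T) (x := Lt.ei) (by decide) hu [Lt.ei, Lt.ci, Lt.f, Lt.ci, Lt.e, Lt.c, Lt.f, Lt.c, Lt.fi] (hole_at (rb_10 hinv hr) 9 rfl) h
theorem dp_ei_29_s (hinv : ∀ x, g (inv x) = (g x)⁻¹) (hr : ∀ r ∈ rels, (r.map g).prod = 1) (hH : ∀ r ∈ subs, (r.map g).prod ∈ H)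
    (j u : ℕ) (hu : u < M) (h : dp_ei_29 j u = true) : Good (fa g) T MG M (cP g H) Lt.ei u := by
  unfold dp_ei_29 at h
  rcases brec_true h with h | h
  · exact lS_good (T := T) (x := Lt.ei) (by decide) hu [Lt.ei, Lt.b, Lt.ei, Lt.bi, Lt.ei, Lt.ei, Lt.b, Lt.ei, Lt.bi] (hole_at (rb_14 hinv hr) 1 rfl) h
  · exact lF_good (T := T) (x := Lt.ei) (by decide) [Lt.c, Lt.fi, Lt.b, Lt.ei, Lt.c, Lt.bi, Lt.f, Lt.ei, Lt.bi] (hole_at (rb_11 hinv hr) 1 rfl) h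
theorem dp_ei_30_s (hinv : ∀ x, g (inv x) = (g x)⁻¹) (hr : ∀ r ∈ rels, (r.map g).prod = 1) (hH : ∀ r ∈ subs, (r.map g).prod ∈ H)
    (j u : ℕ) (hu : u < M) (h : dp_ei_30 j u = true) : Good (fa g) T MG M (cP g H) Lt.ei u := by
  unfold dp_ei_30 at h
  rcases brec_true h with h | h
  · exact lS_good (T := T) (x := Lt.ei) (by decide) hu [Lt.c, Lt.bi, Lt.f, Lt.ei, Lt.bi, Lt.ei, Lt.c, Lt.fi, Lt.b] (hole_at (rb_11 hinv hr) 5 rfl) h
  · exact dp_ei_29_s hinv hr hH j u hu h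
theorem dp_ei_31_s (hinv : ∀ x, g (inv x) = (g x)⁻¹) (hr : ∀ r ∈ rels, (r.map g).prod = 1) (hH : ∀ r ∈ subs, (r.map g).prod ∈ H)
    (j u : ℕ) (hu : u < M) (h : dp_ei_31 j u = true) : Good (fa g) T MG M (cP g H) Lt.ei u := by
  unfold dp_ei_31 at h
  rcases brec_true h with h | h
  · exact dp_ei_28_s hinv hr hH j u hu h
  · exact dp_ei_30_s hinv hr hH j u hu h
theorem dp_ei_32_s (hinv : ∀ x, g (inv x) = (g x)⁻¹) (hr : ∀ r ∈ rels, (r.map g).prod = 1) (hH : ∀ r ∈ subs, (r.map g).prod ∈ H)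
    (j u : ℕ) (hu : u < M) (h : dp_ei_32 j u = true) : Good (fa g) T MG M (cP g H) Lt.ei u := by
  unfold dp_ei_32 at h
  rcases brec_true h with h | h
  · exact lS_good (T := T) (x := Lt.ei) (by decide) hu [Lt.c, Lt.fi, Lt.b, Lt.ei, Lt.c, Lt.bi, Lt.f, Lt.ei, Lt.bi] (hole_at (rb_11 hinv hr) 1 rfl) h
  · exact lS_good (T := T) (x := Lt.ei) (by decide) hu [Lt.b, Lt.ci, Lt.f, Lt.c, Lt.f, Lt.f, Lt.ei, Lt.ei, Lt.bi] (hole_at (rb_17 hinv hr) 1 rfl) h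
theorem dp_ei_33_s (hinv : ∀ x, g (inv x) = (g x)⁻¹) (hr : ∀ r ∈ rels, (r.map g).prod = 1) (hH : ∀ r ∈ subs, (r.map g).prod ∈ H)
    (j u : ℕ) (hu : u < M) (h : dp_ei_33 j u = true) : Good (fa g) T MG M (cP g H) Lt.ei u := by
  unfold dp_ei_33 at h
  rcases brec_true h with h | h
  · exact lF_good (T := T) (x := Lt.ei) (by decide) [Lt.b, Lt.e, Lt.fi, Lt.ei, Lt.f, Lt.ci, Lt.b, Lt.e, Lt.bi] (hole_at (rf_15 hinv hr) 4 rfl) h
  · exact lF_good (T := T) (x := Lt.ei) (by decide) [Lt.b, Lt.ei, Lt.bi, Lt.ei, Lt.ei, Lt.b, Lt.ei, Lt.bi, Lt.ei] (hole_at (rb_14 hinv hr) 2 rfl) h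
theorem dp_ei_34_s (hinv : ∀ x, g (inv x) = (g x)⁻¹) (hr : ∀ r ∈ rels, (r.map g).prod = 1) (hH : ∀ r ∈ subs, (r.map g).prod ∈ H)
    (j u : ℕ) (hu : u < M) (h : dp_ei_34 j u = true) : Good (fa g) T MG M (cP g H) Lt.ei u := by
  unfold dp_ei_34 at h
  rcases brec_true h with h | h
  · exact lF_good (T := T) (x := Lt.ei) (by decide) [Lt.ei, Lt.f, Lt.e, Lt.c, Lt.b, Lt.ci, Lt.fi, Lt.b, Lt.fi] (hole_at (rf_18 hinv hr) 6 rfl) h
  · exact dp_ei_33_s hinv hr hH j u hu h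
theorem dp_ei_35_s (hinv : ∀ x, g (inv x) = (g x)⁻¹) (hr : ∀ r ∈ rels, (r.map g).prod = 1) (hH : ∀ r ∈ subs, (r.map g).prod ∈ H)
    (j u : ℕ) (hu : u < M) (h : dp_ei_35 j u = true) : Good (fa g) T MG M (cP g H) Lt.ei u := by
  unfold dp_ei_35 at h
  rcases brec_true h with h | h
  · exact dp_ei_32_s hinv hr hH j u hu h
  · exact dp_ei_34_s hinv hr hH j u hu h
theorem dp_ei_36_s (hinv : ∀ x, g (inv x) = (g x)⁻¹) (hr : ∀ r ∈ rels, (r.map g).prod = 1) (hH : ∀ r ∈ subs, (r.map g).prod ∈ H)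
    (j u : ℕ) (hu : u < M) (h : dp_ei_36 j u = true) : Good (fa g) T MG M (cP g H) Lt.ei u := by
  unfold dp_ei_36 at h
  rcases brec_true h with h | h
  · exact dp_ei_31_s hinv hr hH j u hu h
  · exact dp_ei_35_s hinv hr hH j u hu h
theorem dp_ei_37_s (hinv : ∀ x, g (inv x) = (g x)⁻¹) (hr : ∀ r ∈ rels, (r.map g).prod = 1) (hH : ∀ r ∈ subs, (r.map g).prod ∈ H)
    (j u : ℕ) (hu : u < M) (h : dp_ei_37 j u = true) : Good (fa g) T MG M (cP g H) Lt.ei u := by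
  unfold dp_ei_37 at h
  rcases brec_true h with h | h
  · exact lS_good (T := T) (x := Lt.ei) (by decide) hu [Lt.b, Lt.ei, Lt.bi, Lt.ei, Lt.ei, Lt.b, Lt.ei, Lt.bi, Lt.ei] (hole_at (rb_14 hinv hr) 2 rfl) h
  · exact lS_good (T := T) (x := Lt.ei) (by decide) hu [Lt.bi, Lt.ei, Lt.b, Lt.ci, Lt.f, Lt.c, Lt.f, Lt.f, Lt.ei] (hole_at (rb_17 hinv hr) 9 rfl) h
theorem dp_ei_38_s (hinv : ∀ x, g (inv x) = (g x)⁻¹) (hr : ∀ r ∈ rels, (r.map g).prod = 1) (hH : ∀ r ∈ subs, (r.map g).prod ∈ H)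
    (j u : ℕ) (hu : u < M) (h : dp_ei_38 j u = true) : Good (fa g) T MG M (cP g H) Lt.ei u := by
  unfold dp_ei_38 at h
  rcases brec_true h with h | h
  · exact lS_good (T := T) (x := Lt.ei) (by decide) hu [Lt.b, Lt.ei, Lt.ei, Lt.bi, Lt.ei, Lt.b, Lt.ei, Lt.ei, Lt.bi] (hole_at (rb_8 hinv hr) 1 rfl) h
  · exact lS_good (T := T) (x := Lt.ei) (by decide) hu [Lt.ei, Lt.bi, Lt.ei, Lt.b, Lt.ei, Lt.ei, Lt.bi, Lt.ei, Lt.b] (hole_at (rb_8 hinv hr) 3 rfl) h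
theorem dp_ei_39_s (hinv : ∀ x, g (inv x) = (g x)⁻¹) (hr : ∀ r ∈ rels, (r.map g).prod = 1) (hH : ∀ r ∈ subs, (r.map g).prod ∈ H)
    (j u : ℕ) (hu : u < M) (h : dp_ei_39 j u = true) : Good (fa g) T MG M (cP g H) Lt.ei u := by
  unfold dp_ei_39 at h
  rcases brec_true h with h | h
  · exact dp_ei_37_s hinv hr hH j u hu h
  · exact dp_ei_38_s hinv hr hH j u hu h
theorem dp_ei_40_s (hinv : ∀ x, g (inv x) = (g x)⁻¹) (hr : ∀ r ∈ rels, (r.map g).prod = 1) (hH : ∀ r ∈ subs, (r.map g).prod ∈ H)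
    (j u : ℕ) (hu : u < M) (h : dp_ei_40 j u = true) : Good (fa g) T MG M (cP g H) Lt.ei u := by
  unfold dp_ei_40 at h
  rcases brec_true h with h | h
  · exact lS_good (T := T) (x := Lt.ei) (by decide) hu [Lt.f, Lt.e, Lt.c, Lt.b, Lt.ci, Lt.fi, Lt.b, Lt.fi, Lt.ei] (hole_at (rf_18 hinv hr) 7 rfl) h
  · exact lS_good (T := T) (x := Lt.ei) (by decide) hu [Lt.f, Lt.b, Lt.f, Lt.c, Lt.b, Lt.e, Lt.b, Lt.f, Lt.c] (hole_at (rf_19 hinv hr) 6 rfl) h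
theorem dp_ei_41_s (hinv : ∀ x, g (inv x) = (g x)⁻¹) (hr : ∀ r ∈ rels, (r.map g).prod = 1) (hH : ∀ r ∈ subs, (r.map g).prod ∈ H)
    (j u : ℕ) (hu : u < M) (h : dp_ei_41 j u = true) : Good (fa g) T MG M (cP g H) Lt.ei u := by
  unfold dp_ei_41 at h
  rcases brec_true h with h | h
  · exact lS_good (T := T) (x := Lt.ei) (by decide) hu [Lt.ei, Lt.f, Lt.e, Lt.c, Lt.b, Lt.ci, Lt.fi, Lt.b, Lt.fi] (hole_at (rf_18 hinv hr) 6 rfl) h
  · exact lF_good (T := T) (x := Lt.ei) (by decide) [Lt.bi, Lt.ei, Lt.b, Lt.ei, Lt.ei, Lt.bi, Lt.ei, Lt.b, Lt.ei] (hole_at (rb_8 hinv hr) 4 rfl) h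
theorem dp_ei_42_s (hinv : ∀ x, g (inv x) = (g x)⁻¹) (hr : ∀ r ∈ rels, (r.map g).prod = 1) (hH : ∀ r ∈ subs, (r.map g).prod ∈ H)
    (j u : ℕ) (hu : u < M) (h : dp_ei_42 j u = true) : Good (fa g) T MG M (cP g H) Lt.ei u := by
  unfold dp_ei_42 at h
  rcases brec_true h with h | h
  · exact dp_ei_40_s hinv hr hH j u hu h
  · exact dp_ei_41_s hinv hr hH j u hu h
theorem dp_ei_43_s (hinv : ∀ x, g (inv x) = (g x)⁻¹) (hr : ∀ r ∈ rels, (r.map g).prod = 1) (hH : ∀ r ∈ subs, (r.map g).prod ∈ H)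
    (j u : ℕ) (hu : u < M) (h : dp_ei_43 j u = true) : Good (fa g) T MG M (cP g H) Lt.ei u := by
  unfold dp_ei_43 at h
  rcases brec_true h with h | h
  · exact dp_ei_39_s hinv hr hH j u hu h
  · exact dp_ei_42_s hinv hr hH j u hu h
theorem dp_ei_44_s (hinv : ∀ x, g (inv x) = (g x)⁻¹) (hr : ∀ r ∈ rels, (r.map g).prod = 1) (hH : ∀ r ∈ subs, (r.map g).prod ∈ H)
    (j u : ℕ) (hu : u < M) (h : dp_ei_44 j u = true) : Good (fa g) T MG M (cP g H) Lt.ei u := by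
  unfold dp_ei_44 at h
  rcases brec_true h with h | h
  · exact lS_good (T := T) (x := Lt.ei) (by decide) hu [Lt.ci, Lt.fi, Lt.c, Lt.f, Lt.ci, Lt.ei, Lt.ci, Lt.f, Lt.f] (hole_at (rb_16 hinv hr) 4 rfl) h
  · exact lF_good (T := T) (x := Lt.ei) (by decide) [Lt.ei, Lt.bi, Lt.ei, Lt.b, Lt.ci, Lt.f, Lt.c, Lt.f, Lt.f] (hole_at (rb_17 hinv hr) 8 rfl) h
theorem dp_ei_45_s (hinv : ∀ x, g (inv x) = (g x)⁻¹) (hr : ∀ r ∈ rels, (r.map g).prod = 1) (hH : ∀ r ∈ subs, (r.map g).prod ∈ H)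
    (j u : ℕ) (hu : u < M) (h : dp_ei_45 j u = true) : Good (fa g) T MG M (cP g H) Lt.ei u := by
  unfold dp_ei_45 at h
  rcases brec_true h with h | h
  · exact lS_good (T := T) (x := Lt.ei) (by decide) hu [Lt.f, Lt.b, Lt.ei, Lt.b, Lt.ei, Lt.f, Lt.b, Lt.ei, Lt.b] (hole_at (rf_9 hinv hr) 4 rfl) h
  · exact lF_good (T := T) (x := Lt.ei) (by decide) [Lt.ei, Lt.bi, Lt.ei, Lt.b, Lt.ei, Lt.ei, Lt.bi, Lt.ei, Lt.b] (hole_at (rb_8 hinv hr) 3 rfl) h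
theorem dp_ei_46_s (hinv : ∀ x, g (inv x) = (g x)⁻¹) (hr : ∀ r ∈ rels, (r.map g).prod = 1) (hH : ∀ r ∈ subs, (r.map g).prod ∈ H)
    (j u : ℕ) (hu : u < M) (h : dp_ei_46 j u = true) : Good (fa g) T MG M (cP g H) Lt.ei u := by
  unfold dp_ei_46 at h
  rcases brec_true h with h | h
  · exact lS_good (T := T) (x := Lt.ei) (by decide) hu [Lt.ei, Lt.bi, Lt.ei, Lt.b, Lt.ci, Lt.f, Lt.c, Lt.f, Lt.f] (hole_at (rb_17 hinv hr) 8 rfl) h
  · exact lS_good (T := T) (x := Lt.ei) (by decide) hu [Lt.b, Lt.ei, Lt.f, Lt.b, Lt.ei, Lt.b, Lt.ei, Lt.f, Lt.b] (hole_at (rf_9 hinv hr) 2 rfl) h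
theorem dp_ei_47_s (hinv : ∀ x, g (inv x) = (g x)⁻¹) (hr : ∀ r ∈ rels, (r.map g).prod = 1) (hH : ∀ r ∈ subs, (r.map g).prod ∈ H)
    (j u : ℕ) (hu : u < M) (h : dp_ei_47 j u = true) : Good (fa g) T MG M (cP g H) Lt.ei u := by
  unfold dp_ei_47 at h
  rcases brec_true h with h | h
  · exact dp_ei_45_s hinv hr hH j u hu h
  · exact dp_ei_46_s hinv hr hH j u hu h
theorem dp_ei_48_s (hinv : ∀ x, g (inv x) = (g x)⁻¹) (hr : ∀ r ∈ rels, (r.map g).prod = 1) (hH : ∀ r ∈ subs, (r.map g).prod ∈ H)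
    (j u : ℕ) (hu : u < M) (h : dp_ei_48 j u = true) : Good (fa g) T MG M (cP g H) Lt.ei u := by
  unfold dp_ei_48 at h
  rcases brec_true h with h | h
  · exact dp_ei_44_s hinv hr hH j u hu h
  · exact dp_ei_47_s hinv hr hH j u hu h
theorem dp_ei_49_s (hinv : ∀ x, g (inv x) = (g x)⁻¹) (hr : ∀ r ∈ rels, (r.map g).prod = 1) (hH : ∀ r ∈ subs, (r.map g).prod ∈ H)
    (j u : ℕ) (hu : u < M) (h : dp_ei_49 j u = true) : Good (fa g) T MG M (cP g H) Lt.ei u := by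
  unfold dp_ei_49 at h
  rcases brec_true h with h | h
  · exact lS_good (T := T) (x := Lt.ei) (by decide) hu [Lt.bi, Lt.ei, Lt.b, Lt.ei, Lt.ei, Lt.bi, Lt.ei, Lt.b, Lt.ei] (hole_at (rb_8 hinv hr) 4 rfl) h
  · exact lS_good (T := T) (x := Lt.ei) (by decide) hu [Lt.bi, Lt.ei, Lt.ei, Lt.b, Lt.ei, Lt.bi, Lt.ei, Lt.ei, Lt.b] (hole_at (rb_14 hinv hr) 4 rfl) h
theorem dp_ei_50_s (hinv : ∀ x, g (inv x) = (g x)⁻¹) (hr : ∀ r ∈ rels, (r.map g).prod = 1) (hH : ∀ r ∈ subs, (r.map g).prod ∈ H)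
    (j u : ℕ) (hu : u < M) (h : dp_ei_50 j u = true) : Good (fa g) T MG M (cP g H) Lt.ei u := by
  unfold dp_ei_50 at h
  rcases brec_true h with h | h
  · exact lS_good (T := T) (x := Lt.ei) (by decide) hu [Lt.bi, Lt.ei, Lt.c, Lt.fi, Lt.b, Lt.ei, Lt.c, Lt.bi, Lt.f] (hole_at (rb_11 hinv hr) 9 rfl) h
  · exact lS_good (T := T) (x := Lt.ei) (by decide) hu [Lt.b, Lt.e, Lt.fi, Lt.ei, Lt.f, Lt.ci, Lt.b, Lt.e, Lt.bi] (hole_at (rf_15 hinv hr) 4 rfl) h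
theorem dp_ei_51_s (hinv : ∀ x, g (inv x) = (g x)⁻¹) (hr : ∀ r ∈ rels, (r.map g).prod = 1) (hH : ∀ r ∈ subs, (r.map g).prod ∈ H)
    (j u : ℕ) (hu : u < M) (h : dp_ei_51 j u = true) : Good (fa g) T MG M (cP g H) Lt.ei u := by
  unfold dp_ei_51 at h
  rcases brec_true h with h | h
  · exact dp_ei_49_s hinv hr hH j u hu h
  · exact dp_ei_50_s hinv hr hH j u hu h
theorem dp_ei_52_s (hinv : ∀ x, g (inv x) = (g x)⁻¹) (hr : ∀ r ∈ rels, (r.map g).prod = 1) (hH : ∀ r ∈ subs, (r.map g).prod ∈ H)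
    (j u : ℕ) (hu : u < M) (h : dp_ei_52 j u = true) : Good (fa g) T MG M (cP g H) Lt.ei u := by
  unfold dp_ei_52 at h
  rcases brec_true h with h | h
  · exact lS_good (T := T) (x := Lt.ei) (by decide) hu [Lt.bi, Lt.ci, Lt.fi, Lt.bi, Lt.fi, Lt.e, Lt.ci, Lt.fi, Lt.bi] (hole_at (rb_19 hinv hr) 9 rfl) h
  · exact lF_good (T := T) (x := Lt.ei) (by decide) [Lt.ei, Lt.b, Lt.ei, Lt.bi, Lt.ei, Lt.ei, Lt.b, Lt.ei, Lt.bi] (hole_at (rb_14 hinv hr) 1 rfl) h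
theorem dp_ei_53_s (hinv : ∀ x, g (inv x) = (g x)⁻¹) (hr : ∀ r ∈ rels, (r.map g).prod = 1) (hH : ∀ r ∈ subs, (r.map g).prod ∈ H)
    (j u : ℕ) (hu : u < M) (h : dp_ei_53 j u = true) : Good (fa g) T MG M (cP g H) Lt.ei u := by
  unfold dp_ei_53 at h
  rcases brec_true h with h | h
  · exact lF_good (T := T) (x := Lt.ei) (by decide) [Lt.bi, Lt.c, Lt.fi, Lt.e, Lt.f, Lt.ei, Lt.bi, Lt.e, Lt.b] (hole_at (rb_15 hinv hr) 9 rfl) h
  · exact lS_good (T := T) (x := Lt.ei) (by decide) hu [Lt.bi, Lt.e, Lt.b, Lt.ei, Lt.bi, Lt.c, Lt.fi, Lt.e, Lt.f] (hole_at (rb_15 hinv hr) 5 rfl) h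
theorem dp_ei_54_s (hinv : ∀ x, g (inv x) = (g x)⁻¹) (hr : ∀ r ∈ rels, (r.map g).prod = 1) (hH : ∀ r ∈ subs, (r.map g).prod ∈ H)
    (j u : ℕ) (hu : u < M) (h : dp_ei_54 j u = true) : Good (fa g) T MG M (cP g H) Lt.ei u := by
  unfold dp_ei_54 at h
  rcases brec_true h with h | h
  · exact dp_ei_52_s hinv hr hH j u hu h
  · exact dp_ei_53_s hinv hr hH j u hu h
theorem dp_ei_55_s (hinv : ∀ x, g (inv x) = (g x)⁻¹) (hr : ∀ r ∈ rels, (r.map g).prod = 1) (hH : ∀ r ∈ subs, (r.map g).prod ∈ H)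
    (j u : ℕ) (hu : u < M) (h : dp_ei_55 j u = true) : Good (fa g) T MG M (cP g H) Lt.ei u := by
  unfold dp_ei_55 at h
  rcases brec_true h with h | h
  · exact dp_ei_51_s hinv hr hH j u hu h
  · exact dp_ei_54_s hinv hr hH j u hu h
theorem dp_ei_56_s (hinv : ∀ x, g (inv x) = (g x)⁻¹) (hr : ∀ r ∈ rels, (r.map g).prod = 1) (hH : ∀ r ∈ subs, (r.map g).prod ∈ H)
    (j u : ℕ) (hu : u < M) (h : dp_ei_56 j u = true) : Good (fa g) T MG M (cP g H) Lt.ei u := by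
  unfold dp_ei_56 at h
  rcases brec_true h with h | h
  · exact dp_ei_48_s hinv hr hH j u hu h
  · exact dp_ei_55_s hinv hr hH j u hu h
theorem dp_ei_57_s (hinv : ∀ x, g (inv x) = (g x)⁻¹) (hr : ∀ r ∈ rels, (r.map g).prod = 1) (hH : ∀ r ∈ subs, (r.map g).prod ∈ H)
    (j u : ℕ) (hu : u < M) (h : dp_ei_57 j u = true) : Good (fa g) T MG M (cP g H) Lt.ei u := by
  unfold dp_ei_57 at h
  rcases brec_true h with h | h
  · exact dp_ei_43_s hinv hr hH j u hu h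
  · exact dp_ei_56_s hinv hr hH j u hu h
theorem dp_ei_58_s (hinv : ∀ x, g (inv x) = (g x)⁻¹) (hr : ∀ r ∈ rels, (r.map g).prod = 1) (hH : ∀ r ∈ subs, (r.map g).prod ∈ H)
    (j u : ℕ) (hu : u < M) (h : dp_ei_58 j u = true) : Good (fa g) T MG M (cP g H) Lt.ei u := by
  unfold dp_ei_58 at h
  rcases brec_true h with h | h
  · exact dp_ei_36_s hinv hr hH j u hu h
  · exact dp_ei_57_s hinv hr hH j u hu h
theorem dp_ei_59_s (hinv : ∀ x, g (inv x) = (g x)⁻¹) (hr : ∀ r ∈ rels, (r.map g).prod = 1) (hH : ∀ r ∈ subs, (r.map g).prod ∈ H)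
    (j u : ℕ) (hu : u < M) (h : dp_ei_59 j u = true) : Good (fa g) T MG M (cP g H) Lt.ei u := by
  unfold dp_ei_59 at h
  rcases brec_true h with h | h
  · exact dp_ei_27_s hinv hr hH j u hu h
  · exact dp_ei_58_s hinv hr hH j u hu h
theorem dp_ei_60_s (hinv : ∀ x, g (inv x) = (g x)⁻¹) (hr : ∀ r ∈ rels, (r.map g).prod = 1) (hH : ∀ r ∈ subs, (r.map g).prod ∈ H)
    (j u : ℕ) (hu : u < M) (h : dp_ei_60 j u = true) : Good (fa g) T MG M (cP g H) Lt.ei u := by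
  unfold dp_ei_60 at h
  rcases brec_true h with h | h
  · exact dp_ei_16_s hinv hr hH j u hu h
  · exact dp_ei_59_s hinv hr hH j u hu h
theorem dp_ei_61_s (hinv : ∀ x, g (inv x) = (g x)⁻¹) (hr : ∀ r ∈ rels, (r.map g).prod = 1) (hH : ∀ r ∈ subs, (r.map g).prod ∈ H)
    (j u : ℕ) (hu : u < M) (h : dp_ei_61 j u = true) : Good (fa g) T MG M (cP g H) Lt.ei u := by
  unfold dp_ei_61 at h
  rcases brec_true h with h | h
  · exact dp_ei_6_s hinv hr hH j u hu h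
  · exact dp_ei_60_s hinv hr hH j u hu h
theorem dp_ei_62_s (hinv : ∀ x, g (inv x) = (g x)⁻¹) (hr : ∀ r ∈ rels, (r.map g).prod = 1) (hH : ∀ r ∈ subs, (r.map g).prod ∈ H)
    (j u : ℕ) (hu : u < M) (h : dp_ei_62 j u = true) : Good (fa g) T MG M (cP g H) Lt.ei u := by
  unfold dp_ei_62 at h
  rcases brec_true h with h | h
  · exact dp_ei_1_s hinv hr hH j u hu h
  · exact dp_ei_61_s hinv hr hH j u hu h
theorem dp_ei_63_s (hinv : ∀ x, g (inv x) = (g x)⁻¹) (hr : ∀ r ∈ rels, (r.map g).prod = 1) (hH : ∀ r ∈ subs, (r.map g).prod ∈ H)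
    (j u : ℕ) (hu : u < M) (h : dp_ei_63 j u = true) : Good (fa g) T MG M (cP g H) Lt.ei u := by
  unfold dp_ei_63 at h
  rcases brec_true h with h | h
  · rcases brec_true h with h | h
    · exact lPar_good (T := T) (x := Lt.ei) (x' := Lt.e) (by decide) rfl (inv_rel hinv _ _ rfl) h
    · exact lDef_good (T := T) (x := Lt.ei) (by decide) rfl h
  · exact dp_ei_62_s hinv hr hH j u hu h
theorem snd_ei (hinv : ∀ x, g (inv x) = (g x)⁻¹) (hr : ∀ r ∈ rels, (r.map g).prod = 1) (hH : ∀ r ∈ subs, (r.map g).prod ∈ H)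
    (j u : ℕ) (hu : u < M) (h : disp_ei j u = true) : Good (fa g) T MG M (cP g H) Lt.ei u := by
  unfold disp_ei at h
  rcases brec_true h with h | h
  · rcases brec_true h with h | h
    · exact lF1_good (T := T) (x := Lt.ei) (by decide) .e (hole_at (rf_24 hinv hr) 0 rfl) h
    · exact lF3_good (T := T) (x := Lt.ei) (by decide) .d .f .di (hole_at (rb_4 hinv hr) 1 rfl) h
  · exact dp_ei_63_s hinv hr hH j u hu h
theorem snc_ei (hinv : ∀ x, g (inv x) = (g x)⁻¹) (hr : ∀ r ∈ rels, (r.map g).prod = 1) (hH : ∀ r ∈ subs, (r.map g).prod ∈ H)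
    (j u : ℕ) (hu : u < M) (h : chk_ei j u = true) : (T Lt.ei u < A ∧ Good (fa g) T MG M (cP g H) Lt.ei u) ∨ (A ≤ T Lt.ei u ∧ MG u < A) := by
  unfold chk_ei at h
  cases hb : Nat.ble A (T_ei u) with
  | true => rw [hb] at h; exact Or.inr ⟨le_of_ble hb, le_of_ble h⟩
  | false => rw [hb] at h; exact Or.inl ⟨lt_of_ble_false hb, snd_ei hinv hr hH j u hu h⟩
theorem dp_c_0_s (hinv : ∀ x, g (inv x) = (g x)⁻¹) (hr : ∀ r ∈ rels, (r.map g).prod = 1) (hH : ∀ r ∈ subs, (r.map g).prod ∈ H)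
    (j u : ℕ) (hu : u < M) (h : dp_c_0 j u = true) : Good (fa g) T MG M (cP g H) Lt.c u := by
  unfold dp_c_0 at h
  rcases brec_true h with h | h
  · exact lS_good (T := T) (x := Lt.c) (by decide) hu [Lt.b, Lt.ei, Lt.fi, Lt.ei, Lt.c, Lt.bi, Lt.fi, Lt.b] (hole_at (rf_7 hinv hr) 0 rfl) h
  · exact lS_good (T := T) (x := Lt.c) (by decide) hu [Lt.bi, Lt.fi, Lt.b, Lt.c, Lt.b, Lt.ei, Lt.fi, Lt.ei] (hole_at (rf_7 hinv hr) 5 rfl) h
theorem dp_c_1_s (hinv : ∀ x, g (inv x) = (g x)⁻¹) (hr : ∀ r ∈ rels, (r.map g).prod = 1) (hH : ∀ r ∈ subs, (r.map g).prod ∈ H)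
    (j u : ℕ) (hu : u < M) (h : dp_c_1 j u = true) : Good (fa g) T MG M (cP g H) Lt.c u := by
  unfold dp_c_1 at h
  rcases brec_true h with h | h
  · exact lF_good (T := T) (x := Lt.c) (by decide) [Lt.bi, Lt.fi, Lt.b, Lt.c, Lt.b, Lt.ei, Lt.fi, Lt.ei] (hole_at (rf_7 hinv hr) 5 rfl) h
  · exact dp_c_0_s hinv hr hH j u hu h
theorem dp_c_2_s (hinv : ∀ x, g (inv x) = (g x)⁻¹) (hr : ∀ r ∈ rels, (r.map g).prod = 1) (hH : ∀ r ∈ subs, (r.map g).prod ∈ H)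
    (j u : ℕ) (hu : u < M) (h : dp_c_2 j u = true) : Good (fa g) T MG M (cP g H) Lt.c u := by
  unfold dp_c_2 at h
  rcases brec_true h with h | h
  · exact lF_good (T := T) (x := Lt.c) (by decide) [Lt.b, Lt.ei, Lt.fi, Lt.ei, Lt.c, Lt.bi, Lt.fi, Lt.b] (hole_at (rf_7 hinv hr) 0 rfl) h
  · exact dp_c_1_s hinv hr hH j u hu h
theorem dp_c_3_s (hinv : ∀ x, g (inv x) = (g x)⁻¹) (hr : ∀ r ∈ rels, (r.map g).prod = 1) (hH : ∀ r ∈ subs, (r.map g).prod ∈ H)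
    (j u : ℕ) (hu : u < M) (h : dp_c_3 j u = true) : Good (fa g) T MG M (cP g H) Lt.c u := by
  unfold dp_c_3 at h
  rcases brec_true h with h | h
  · exact lF_good (T := T) (x := Lt.c) (by decide) [Lt.e, Lt.c, Lt.fi, Lt.ci, Lt.f, Lt.c, Lt.e, Lt.fi, Lt.fi] (hole_at (rf_16 hinv hr) 0 rfl) h
  · exact lF_good (T := T) (x := Lt.c) (by decide) [Lt.fi, Lt.e, Lt.f, Lt.ei, Lt.bi, Lt.e, Lt.b, Lt.ei, Lt.bi] (hole_at (rb_15 hinv hr) 1 rfl) h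
theorem dp_c_4_s (hinv : ∀ x, g (inv x) = (g x)⁻¹) (hr : ∀ r ∈ rels, (r.map g).prod = 1) (hH : ∀ r ∈ subs, (r.map g).prod ∈ H)
    (j u : ℕ) (hu : u < M) (h : dp_c_4 j u = true) : Good (fa g) T MG M (cP g H) Lt.c u := by
  unfold dp_c_4 at h
  rcases brec_true h with h | h
  · exact lS_good (T := T) (x := Lt.c) (by decide) hu [Lt.di, Lt.bi, Lt.d] (hole_at (rb_3 hinv hr) 3 rfl) h
  · exact dp_c_3_s hinv hr hH j u hu h
theorem dp_c_5_s (hinv : ∀ x, g (inv x) = (g x)⁻¹) (hr : ∀ r ∈ rels, (r.map g).prod = 1) (hH : ∀ r ∈ subs, (r.map g).prod ∈ H)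
    (j u : ℕ) (hu : u < M) (h : dp_c_5 j u = true) : Good (fa g) T MG M (cP g H) Lt.c u := by
  unfold dp_c_5 at h
  rcases brec_true h with h | h
  · exact lF_good (T := T) (x := Lt.c) (by decide) [Lt.b, Lt.ci, Lt.fi, Lt.b, Lt.fi, Lt.ei, Lt.ei, Lt.f, Lt.e] (hole_at (rf_18 hinv hr) 0 rfl) h
  · exact lF_good (T := T) (x := Lt.c) (by decide) [Lt.e, Lt.b, Lt.ci, Lt.f, Lt.c, Lt.bi, Lt.c, Lt.e, Lt.f] (hole_at (rf_12 hinv hr) 9 rfl) h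
theorem dp_c_6_s (hinv : ∀ x, g (inv x) = (g x)⁻¹) (hr : ∀ r ∈ rels, (r.map g).prod = 1) (hH : ∀ r ∈ subs, (r.map g).prod ∈ H)
    (j u : ℕ) (hu : u < M) (h : dp_c_6 j u = true) : Good (fa g) T MG M (cP g H) Lt.c u := by
  unfold dp_c_6 at h
  rcases brec_true h with h | h
  · exact lF_good (T := T) (x := Lt.c) (by decide) [Lt.bi, Lt.f, Lt.ei, Lt.bi, Lt.ei, Lt.c, Lt.fi, Lt.b, Lt.ei] (hole_at (rb_11 hinv hr) 6 rfl) h
  · exact lF_good (T := T) (x := Lt.c) (by decide) [Lt.bi, Lt.c, Lt.e, Lt.f, Lt.c, Lt.e, Lt.b, Lt.ci, Lt.f] (hole_at (rf_12 hinv hr) 4 rfl) h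
theorem dp_c_7_s (hinv : ∀ x, g (inv x) = (g x)⁻¹) (hr : ∀ r ∈ rels, (r.map g).prod = 1) (hH : ∀ r ∈ subs, (r.map g).prod ∈ H)
    (j u : ℕ) (hu : u < M) (h : dp_c_7 j u = true) : Good (fa g) T MG M (cP g H) Lt.c u := by
  unfold dp_c_7 at h
  rcases brec_true h with h | h
  · exact lF_good (T := T) (x := Lt.c) (by decide) [Lt.f, Lt.ci, Lt.ei, Lt.ci, Lt.f, Lt.f, Lt.ei, Lt.ci, Lt.fi] (hole_at (rb_16 hinv hr) 7 rfl) h
  · exact lF_good (T := T) (x := Lt.c) (by decide) [Lt.e, Lt.f, Lt.c, Lt.e, Lt.b, Lt.ci, Lt.f, Lt.c, Lt.bi] (hole_at (rf_12 hinv hr) 6 rfl) h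
theorem dp_c_8_s (hinv : ∀ x, g (inv x) = (g x)⁻¹) (hr : ∀ r ∈ rels, (r.map g).prod = 1) (hH : ∀ r ∈ subs, (r.map g).prod ∈ H)
    (j u : ℕ) (hu : u < M) (h : dp_c_8 j u = true) : Good (fa g) T MG M (cP g H) Lt.c u := by
  unfold dp_c_8 at h
  rcases brec_true h with h | h
  · exact dp_c_6_s hinv hr hH j u hu h
  · exact dp_c_7_s hinv hr hH j u hu h
theorem dp_c_9_s (hinv : ∀ x, g (inv x) = (g x)⁻¹) (hr : ∀ r ∈ rels, (r.map g).prod = 1) (hH : ∀ r ∈ subs, (r.map g).prod ∈ H)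
    (j u : ℕ) (hu : u < M) (h : dp_c_9 j u = true) : Good (fa g) T MG M (cP g H) Lt.c u := by
  unfold dp_c_9 at h
  rcases brec_true h with h | h
  · exact dp_c_5_s hinv hr hH j u hu h
  · exact dp_c_8_s hinv hr hH j u hu h
theorem dp_c_10_s (hinv : ∀ x, g (inv x) = (g x)⁻¹) (hr : ∀ r ∈ rels, (r.map g).prod = 1) (hH : ∀ r ∈ subs, (r.map g).prod ∈ H)
    (j u : ℕ) (hu : u < M) (h : dp_c_10 j u = true) : Good (fa g) T MG M (cP g H) Lt.c u := by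
  unfold dp_c_10 at h
  rcases brec_true h with h | h
  · exact dp_c_4_s hinv hr hH j u hu h
  · exact dp_c_9_s hinv hr hH j u hu h
theorem dp_c_11_s (hinv : ∀ x, g (inv x) = (g x)⁻¹) (hr : ∀ r ∈ rels, (r.map g).prod = 1) (hH : ∀ r ∈ subs, (r.map g).prod ∈ H)
    (j u : ℕ) (hu : u < M) (h : dp_c_11 j u = true) : Good (fa g) T MG M (cP g H) Lt.c u := by
  unfold dp_c_11 at h
  rcases brec_true h with h | h
  · exact lF_good (T := T) (x := Lt.c) (by decide) [Lt.fi, Lt.c, Lt.e, Lt.e, Lt.f, Lt.ci, Lt.fi, Lt.ci, Lt.ei] (hole_at (rf_10 hinv hr) 8 rfl) h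
  · exact lF_good (T := T) (x := Lt.c) (by decide) [Lt.f, Lt.f, Lt.ci, Lt.f, Lt.c, Lt.f, Lt.f, Lt.ci, Lt.f] (hole_at (rf_13 hinv hr) 1 rfl) h
theorem dp_c_12_s (hinv : ∀ x, g (inv x) = (g x)⁻¹) (hr : ∀ r ∈ rels, (r.map g).prod = 1) (hH : ∀ r ∈ subs, (r.map g).prod ∈ H)
    (j u : ℕ) (hu : u < M) (h : dp_c_12 j u = true) : Good (fa g) T MG M (cP g H) Lt.c u := by
  unfold dp_c_12 at h
  rcases brec_true h with h | h
  · exact lF_good (T := T) (x := Lt.c) (by decide) [Lt.f, Lt.c, Lt.fi, Lt.ei, Lt.ei, Lt.ci, Lt.f, Lt.ci, Lt.e] (hole_at (rb_10 hinv hr) 5 rfl) h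
  · exact lF_good (T := T) (x := Lt.c) (by decide) [Lt.b, Lt.e, Lt.b, Lt.f, Lt.c, Lt.ei, Lt.f, Lt.b, Lt.f] (hole_at (rf_19 hinv hr) 0 rfl) h
theorem dp_c_13_s (hinv : ∀ x, g (inv x) = (g x)⁻¹) (hr : ∀ r ∈ rels, (r.map g).prod = 1) (hH : ∀ r ∈ subs, (r.map g).prod ∈ H)
    (j u : ℕ) (hu : u < M) (h : dp_c_13 j u = true) : Good (fa g) T MG M (cP g H) Lt.c u := by
  unfold dp_c_13 at h
  rcases brec_true h with h | h
  · exact dp_c_11_s hinv hr hH j u hu h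
  · exact dp_c_12_s hinv hr hH j u hu h
theorem dp_c_14_s (hinv : ∀ x, g (inv x) = (g x)⁻¹) (hr : ∀ r ∈ rels, (r.map g).prod = 1) (hH : ∀ r ∈ subs, (r.map g).prod ∈ H)
    (j u : ℕ) (hu : u < M) (h : dp_c_14 j u = true) : Good (fa g) T MG M (cP g H) Lt.c u := by
  unfold dp_c_14 at h
  rcases brec_true h with h | h
  · exact lF_good (T := T) (x := Lt.c) (by decide) [Lt.bi, Lt.ci, Lt.ei, Lt.fi, Lt.e, Lt.e, Lt.f, Lt.bi, Lt.f] (hole_at (rb_18 hinv hr) 9 rfl) h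
  · exact lF_good (T := T) (x := Lt.c) (by decide) [Lt.f, Lt.f, Lt.ei, Lt.ei, Lt.bi, Lt.ei, Lt.b, Lt.ci, Lt.f] (hole_at (rb_17 hinv hr) 5 rfl) h
theorem dp_c_15_s (hinv : ∀ x, g (inv x) = (g x)⁻¹) (hr : ∀ r ∈ rels, (r.map g).prod = 1) (hH : ∀ r ∈ subs, (r.map g).prod ∈ H)
    (j u : ℕ) (hu : u < M) (h : dp_c_15 j u = true) : Good (fa g) T MG M (cP g H) Lt.c u := by
  unfold dp_c_15 at h
  rcases brec_true h with h | h
  · exact lF_good (T := T) (x := Lt.c) (by decide) [Lt.e, Lt.e, Lt.f, Lt.ci, Lt.fi, Lt.ci, Lt.ei, Lt.c, Lt.fi] (hole_at (rf_10 hinv hr) 0 rfl) h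
  · exact dp_c_14_s hinv hr hH j u hu h
theorem dp_c_16_s (hinv : ∀ x, g (inv x) = (g x)⁻¹) (hr : ∀ r ∈ rels, (r.map g).prod = 1) (hH : ∀ r ∈ subs, (r.map g).prod ∈ H)
    (j u : ℕ) (hu : u < M) (h : dp_c_16 j u = true) : Good (fa g) T MG M (cP g H) Lt.c u := by
  unfold dp_c_16 at h
  rcases brec_true h with h | h
  · exact lF_good (T := T) (x := Lt.c) (by decide) [Lt.ei, Lt.f, Lt.b, Lt.f, Lt.c, Lt.b, Lt.e, Lt.b, Lt.f] (hole_at (rf_19 hinv hr) 5 rfl) h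
  · exact lS_good (T := T) (x := Lt.c) (by decide) hu [Lt.e, Lt.b, Lt.ci, Lt.f, Lt.c, Lt.bi, Lt.c, Lt.e, Lt.f] (hole_at (rf_12 hinv hr) 9 rfl) h
theorem dp_c_17_s (hinv : ∀ x, g (inv x) = (g x)⁻¹) (hr : ∀ r ∈ rels, (r.map g).prod = 1) (hH : ∀ r ∈ subs, (r.map g).prod ∈ H)
    (j u : ℕ) (hu : u < M) (h : dp_c_17 j u = true) : Good (fa g) T MG M (cP g H) Lt.c u := by
  unfold dp_c_17 at h
  rcases brec_true h with h | h
  · exact lS_good (T := T) (x := Lt.c) (by decide) hu [Lt.fi, Lt.ei, Lt.ei, Lt.ci, Lt.f, Lt.ci, Lt.e, Lt.c, Lt.f] (hole_at (rb_10 hinv hr) 7 rfl) h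
  · exact dp_c_16_s hinv hr hH j u hu h
theorem dp_c_18_s (hinv : ∀ x, g (inv x) = (g x)⁻¹) (hr : ∀ r ∈ rels, (r.map g).prod = 1) (hH : ∀ r ∈ subs, (r.map g).prod ∈ H)
    (j u : ℕ) (hu : u < M) (h : dp_c_18 j u = true) : Good (fa g) T MG M (cP g H) Lt.c u := by
  unfold dp_c_18 at h
  rcases brec_true h with h | h
  · exact dp_c_15_s hinv hr hH j u hu h
  · exact dp_c_17_s hinv hr hH j u hu h
theorem dp_c_19_s (hinv : ∀ x, g (inv x) = (g x)⁻¹) (hr : ∀ r ∈ rels, (r.map g).prod = 1) (hH : ∀ r ∈ subs, (r.map g).prod ∈ H)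
    (j u : ℕ) (hu : u < M) (h : dp_c_19 j u = true) : Good (fa g) T MG M (cP g H) Lt.c u := by
  unfold dp_c_19 at h
  rcases brec_true h with h | h
  · exact dp_c_13_s hinv hr hH j u hu h
  · exact dp_c_18_s hinv hr hH j u hu h
theorem dp_c_20_s (hinv : ∀ x, g (inv x) = (g x)⁻¹) (hr : ∀ r ∈ rels, (r.map g).prod = 1) (hH : ∀ r ∈ subs, (r.map g).prod ∈ H)
    (j u : ℕ) (hu : u < M) (h : dp_c_20 j u = true) : Good (fa g) T MG M (cP g H) Lt.c u := by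
  unfold dp_c_20 at h
  rcases brec_true h with h | h
  · exact lS_good (T := T) (x := Lt.c) (by decide) hu [Lt.bi, Lt.ci, Lt.ei, Lt.fi, Lt.e, Lt.e, Lt.f, Lt.bi, Lt.f] (hole_at (rb_18 hinv hr) 9 rfl) h
  · exact lS_good (T := T) (x := Lt.c) (by decide) hu [Lt.e, Lt.f, Lt.c, Lt.e, Lt.b, Lt.ci, Lt.f, Lt.c, Lt.bi] (hole_at (rf_12 hinv hr) 6 rfl) h
theorem dp_c_21_s (hinv : ∀ x, g (inv x) = (g x)⁻¹) (hr : ∀ r ∈ rels, (r.map g).prod = 1) (hH : ∀ r ∈ subs, (r.map g).prod ∈ H)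
    (j u : ℕ) (hu : u < M) (h : dp_c_21 j u = true) : Good (fa g) T MG M (cP g H) Lt.c u := by
  unfold dp_c_21 at h
  rcases brec_true h with h | h
  · exact lS_good (T := T) (x := Lt.c) (by decide) hu [Lt.bi, Lt.f, Lt.ei, Lt.bi, Lt.ei, Lt.c, Lt.fi, Lt.b, Lt.ei] (hole_at (rb_11 hinv hr) 6 rfl) h
  · exact lS_good (T := T) (x := Lt.c) (by decide) hu [Lt.f, Lt.ci, Lt.ei, Lt.ci, Lt.f, Lt.f, Lt.ei, Lt.ci, Lt.fi] (hole_at (rb_16 hinv hr) 7 rfl) h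
theorem dp_c_22_s (hinv : ∀ x, g (inv x) = (g x)⁻¹) (hr : ∀ r ∈ rels, (r.map g).prod = 1) (hH : ∀ r ∈ subs, (r.map g).prod ∈ H)
    (j u : ℕ) (hu : u < M) (h : dp_c_22 j u = true) : Good (fa g) T MG M (cP g H) Lt.c u := by
  unfold dp_c_22 at h
  rcases brec_true h with h | h
  · exact dp_c_20_s hinv hr hH j u hu h
  · exact dp_c_21_s hinv hr hH j u hu h
theorem dp_c_23_s (hinv : ∀ x, g (inv x) = (g x)⁻¹) (hr : ∀ r ∈ rels, (r.map g).prod = 1) (hH : ∀ r ∈ subs, (r.map g).prod ∈ H)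
    (j u : ℕ) (hu : u < M) (h : dp_c_23 j u = true) : Good (fa g) T MG M (cP g H) Lt.c u := by
  unfold dp_c_23 at h
  rcases brec_true h with h | h
  · exact lS_good (T := T) (x := Lt.c) (by decide) hu [Lt.f, Lt.f, Lt.ci, Lt.f, Lt.c, Lt.f, Lt.f, Lt.ci, Lt.f] (hole_at (rf_13 hinv hr) 1 rfl) h
  · exact lS_good (T := T) (x := Lt.c) (by decide) hu [Lt.fi, Lt.c, Lt.e, Lt.e, Lt.f, Lt.ci, Lt.fi, Lt.ci, Lt.ei] (hole_at (rf_10 hinv hr) 8 rfl) h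
theorem dp_c_24_s (hinv : ∀ x, g (inv x) = (g x)⁻¹) (hr : ∀ r ∈ rels, (r.map g).prod = 1) (hH : ∀ r ∈ subs, (r.map g).prod ∈ H)
    (j u : ℕ) (hu : u < M) (h : dp_c_24 j u = true) : Good (fa g) T MG M (cP g H) Lt.c u := by
  unfold dp_c_24 at h
  rcases brec_true h with h | h
  · exact lS_good (T := T) (x := Lt.c) (by decide) hu [Lt.b, Lt.e, Lt.b, Lt.f, Lt.c, Lt.ei, Lt.f, Lt.b, Lt.f] (hole_at (rf_19 hinv hr) 0 rfl) h
  · exact lF_good (T := T) (x := Lt.c) (by decide) [Lt.bi, Lt.ei, Lt.ci, Lt.fi, Lt.ei, Lt.ci, Lt.b, Lt.ci, Lt.fi] (hole_at (rb_12 hinv hr) 9 rfl) h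
theorem dp_c_25_s (hinv : ∀ x, g (inv x) = (g x)⁻¹) (hr : ∀ r ∈ rels, (r.map g).prod = 1) (hH : ∀ r ∈ subs, (r.map g).prod ∈ H)
    (j u : ℕ) (hu : u < M) (h : dp_c_25 j u = true) : Good (fa g) T MG M (cP g H) Lt.c u := by
  unfold dp_c_25 at h
  rcases brec_true h with h | h
  · exact lF_good (T := T) (x := Lt.c) (by decide) [Lt.fi, Lt.fi, Lt.ci, Lt.fi, Lt.c, Lt.fi, Lt.fi, Lt.ci, Lt.fi] (hole_at (rb_13 hinv hr) 2 rfl) h
  · exact dp_c_24_s hinv hr hH j u hu h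
theorem dp_c_26_s (hinv : ∀ x, g (inv x) = (g x)⁻¹) (hr : ∀ r ∈ rels, (r.map g).prod = 1) (hH : ∀ r ∈ subs, (r.map g).prod ∈ H)
    (j u : ℕ) (hu : u < M) (h : dp_c_26 j u = true) : Good (fa g) T MG M (cP g H) Lt.c u := by
  unfold dp_c_26 at h
  rcases brec_true h with h | h
  · exact dp_c_23_s hinv hr hH j u hu h
  · exact dp_c_25_s hinv hr hH j u hu h
theorem dp_c_27_s (hinv : ∀ x, g (inv x) = (g x)⁻¹) (hr : ∀ r ∈ rels, (r.map g).prod = 1) (hH : ∀ r ∈ subs, (r.map g).prod ∈ H)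
    (j u : ℕ) (hu : u < M) (h : dp_c_27 j u = true) : Good (fa g) T MG M (cP g H) Lt.c u := by
  unfold dp_c_27 at h
  rcases brec_true h with h | h
  · exact dp_c_22_s hinv hr hH j u hu h
  · exact dp_c_26_s hinv hr hH j u hu h
theorem dp_c_28_s (hinv : ∀ x, g (inv x) = (g x)⁻¹) (hr : ∀ r ∈ rels, (r.map g).prod = 1) (hH : ∀ r ∈ subs, (r.map g).prod ∈ H)
    (j u : ℕ) (hu : u < M) (h : dp_c_28 j u = true) : Good (fa g) T MG M (cP g H) Lt.c u := by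
  unfold dp_c_28 at h
  rcases brec_true h with h | h
  · exact lF_good (T := T) (x := Lt.c) (by decide) [Lt.fi, Lt.b, Lt.ei, Lt.c, Lt.bi, Lt.f, Lt.ei, Lt.bi, Lt.ei] (hole_at (rb_11 hinv hr) 2 rfl) h
  · exact lS_good (T := T) (x := Lt.c) (by decide) hu [Lt.f, Lt.f, Lt.ei, Lt.ei, Lt.bi, Lt.ei, Lt.b, Lt.ci, Lt.f] (hole_at (rb_17 hinv hr) 5 rfl) h
theorem dp_c_29_s (hinv : ∀ x, g (inv x) = (g x)⁻¹) (hr : ∀ r ∈ rels, (r.map g).prod = 1) (hH : ∀ r ∈ subs, (r.map g).prod ∈ H)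
    (j u : ℕ) (hu : u < M) (h : dp_c_29 j u = true) : Good (fa g) T MG M (cP g H) Lt.c u := by
  unfold dp_c_29 at h
  rcases brec_true h with h | h
  · exact lS_good (T := T) (x := Lt.c) (by decide) hu [Lt.fi, Lt.b, Lt.ei, Lt.c, Lt.bi, Lt.f, Lt.ei, Lt.bi, Lt.ei] (hole_at (rb_11 hinv hr) 2 rfl) h
  · exact dp_c_28_s hinv hr hH j u hu h
theorem dp_c_30_s (hinv : ∀ x, g (inv x) = (g x)⁻¹) (hr : ∀ r ∈ rels, (r.map g).prod = 1) (hH : ∀ r ∈ subs, (r.map g).prod ∈ H)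
    (j u : ℕ) (hu : u < M) (h : dp_c_30 j u = true) : Good (fa g) T MG M (cP g H) Lt.c u := by
  unfold dp_c_30 at h
  rcases brec_true h with h | h
  · exact lS_good (T := T) (x := Lt.c) (by decide) hu [Lt.fi, Lt.e, Lt.f, Lt.ei, Lt.bi, Lt.e, Lt.b, Lt.ei, Lt.bi] (hole_at (rb_15 hinv hr) 1 rfl) h
  · exact lS_good (T := T) (x := Lt.c) (by decide) hu [Lt.bi, Lt.e, Lt.b, Lt.e, Lt.e, Lt.fi, Lt.fi, Lt.ci, Lt.fi] (hole_at (rf_17 hinv hr) 8 rfl) h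
theorem dp_c_31_s (hinv : ∀ x, g (inv x) = (g x)⁻¹) (hr : ∀ r ∈ rels, (r.map g).prod = 1) (hH : ∀ r ∈ subs, (r.map g).prod ∈ H)
    (j u : ℕ) (hu : u < M) (h : dp_c_31 j u = true) : Good (fa g) T MG M (cP g H) Lt.c u := by
  unfold dp_c_31 at h
  rcases brec_true h with h | h
  · exact lS_good (T := T) (x := Lt.c) (by decide) hu [Lt.bi, Lt.c, Lt.e, Lt.f, Lt.c, Lt.e, Lt.b, Lt.ci, Lt.f] (hole_at (rf_12 hinv hr) 4 rfl) h
  · exact lS_good (T := T) (x := Lt.c) (by decide) hu [Lt.fi, Lt.fi, Lt.ci, Lt.fi, Lt.c, Lt.fi, Lt.fi, Lt.ci, Lt.fi] (hole_at (rb_13 hinv hr) 2 rfl) h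
theorem dp_c_32_s (hinv : ∀ x, g (inv x) = (g x)⁻¹) (hr : ∀ r ∈ rels, (r.map g).prod = 1) (hH : ∀ r ∈ subs, (r.map g).prod ∈ H)
    (j u : ℕ) (hu : u < M) (h : dp_c_32 j u = true) : Good (fa g) T MG M (cP g H) Lt.c u := by
  unfold dp_c_32 at h
  rcases brec_true h with h | h
  · exact dp_c_30_s hinv hr hH j u hu h
  · exact dp_c_31_s hinv hr hH j u hu h
theorem dp_c_33_s (hinv : ∀ x, g (inv x) = (g x)⁻¹) (hr : ∀ r ∈ rels, (r.map g).prod = 1) (hH : ∀ r ∈ subs, (r.map g).prod ∈ H)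
    (j u : ℕ) (hu : u < M) (h : dp_c_33 j u = true) : Good (fa g) T MG M (cP g H) Lt.c u := by
  unfold dp_c_33 at h
  rcases brec_true h with h | h
  · exact dp_c_29_s hinv hr hH j u hu h
  · exact dp_c_32_s hinv hr hH j u hu h
theorem dp_c_34_s (hinv : ∀ x, g (inv x) = (g x)⁻¹) (hr : ∀ r ∈ rels, (r.map g).prod = 1) (hH : ∀ r ∈ subs, (r.map g).prod ∈ H)
    (j u : ℕ) (hu : u < M) (h : dp_c_34 j u = true) : Good (fa g) T MG M (cP g H) Lt.c u := by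
  unfold dp_c_34 at h
  rcases brec_true h with h | h
  · exact lS_good (T := T) (x := Lt.c) (by decide) hu [Lt.e, Lt.e, Lt.f, Lt.ci, Lt.fi, Lt.ci, Lt.ei, Lt.c, Lt.fi] (hole_at (rf_10 hinv hr) 0 rfl) h
  · exact lS_good (T := T) (x := Lt.c) (by decide) hu [Lt.bi, Lt.ei, Lt.ci, Lt.fi, Lt.ei, Lt.ci, Lt.b, Lt.ci, Lt.fi] (hole_at (rb_12 hinv hr) 9 rfl) h
theorem dp_c_35_s (hinv : ∀ x, g (inv x) = (g x)⁻¹) (hr : ∀ r ∈ rels, (r.map g).prod = 1) (hH : ∀ r ∈ subs, (r.map g).prod ∈ H)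
    (j u : ℕ) (hu : u < M) (h : dp_c_35 j u = true) : Good (fa g) T MG M (cP g H) Lt.c u := by
  unfold dp_c_35 at h
  rcases brec_true h with h | h
  · exact lF_good (T := T) (x := Lt.c) (by decide) [Lt.e, Lt.fi, Lt.fi, Lt.c, Lt.e, Lt.c, Lt.fi, Lt.ci, Lt.f] (hole_at (rf_16 hinv hr) 6 rfl) h
  · exact lS_good (T := T) (x := Lt.c) (by decide) hu [Lt.b, Lt.ci, Lt.fi, Lt.b, Lt.fi, Lt.ei, Lt.ei, Lt.f, Lt.e] (hole_at (rf_18 hinv hr) 0 rfl) h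
theorem dp_c_36_s (hinv : ∀ x, g (inv x) = (g x)⁻¹) (hr : ∀ r ∈ rels, (r.map g).prod = 1) (hH : ∀ r ∈ subs, (r.map g).prod ∈ H)
    (j u : ℕ) (hu : u < M) (h : dp_c_36 j u = true) : Good (fa g) T MG M (cP g H) Lt.c u := by
  unfold dp_c_36 at h
  rcases brec_true h with h | h
  · exact dp_c_34_s hinv hr hH j u hu h
  · exact dp_c_35_s hinv hr hH j u hu h
theorem dp_c_37_s (hinv : ∀ x, g (inv x) = (g x)⁻¹) (hr : ∀ r ∈ rels, (r.map g).prod = 1) (hH : ∀ r ∈ subs, (r.map g).prod ∈ H)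
    (j u : ℕ) (hu : u < M) (h : dp_c_37 j u = true) : Good (fa g) T MG M (cP g H) Lt.c u := by
  unfold dp_c_37 at h
  rcases brec_true h with h | h
  · exact lH_good (T := T) (x := Lt.c) (by decide) [] [] (by rw [show cP g H 0 = _ from cc_zero]; exact sub_rel hinv (hH _ (by decide))) h
  · exact lS_good (T := T) (x := Lt.c) (by decide) hu [Lt.e, Lt.fi, Lt.fi, Lt.c, Lt.e, Lt.c, Lt.fi, Lt.ci, Lt.f] (hole_at (rf_16 hinv hr) 6 rfl) h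
theorem dp_c_38_s (hinv : ∀ x, g (inv x) = (g x)⁻¹) (hr : ∀ r ∈ rels, (r.map g).prod = 1) (hH : ∀ r ∈ subs, (r.map g).prod ∈ H)
    (j u : ℕ) (hu : u < M) (h : dp_c_38 j u = true) : Good (fa g) T MG M (cP g H) Lt.c u := by
  unfold dp_c_38 at h
  rcases brec_true h with h | h
  · exact lS_good (T := T) (x := Lt.c) (by decide) hu [Lt.ei, Lt.f, Lt.b, Lt.f, Lt.c, Lt.b, Lt.e, Lt.b, Lt.f] (hole_at (rf_19 hinv hr) 5 rfl) h
  · exact lF_good (T := T) (x := Lt.c) (by decide) [Lt.bi, Lt.e, Lt.b, Lt.e, Lt.e, Lt.fi, Lt.fi, Lt.ci, Lt.fi] (hole_at (rf_17 hinv hr) 8 rfl) h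
theorem dp_c_39_s (hinv : ∀ x, g (inv x) = (g x)⁻¹) (hr : ∀ r ∈ rels, (r.map g).prod = 1) (hH : ∀ r ∈ subs, (r.map g).prod ∈ H)
    (j u : ℕ) (hu : u < M) (h : dp_c_39 j u = true) : Good (fa g) T MG M (cP g H) Lt.c u := by
  unfold dp_c_39 at h
  rcases brec_true h with h | h
  · exact dp_c_37_s hinv hr hH j u hu h
  · exact dp_c_38_s hinv hr hH j u hu h
theorem dp_c_40_s (hinv : ∀ x, g (inv x) = (g x)⁻¹) (hr : ∀ r ∈ rels, (r.map g).prod = 1) (hH : ∀ r ∈ subs, (r.map g).prod ∈ H)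
    (j u : ℕ) (hu : u < M) (h : dp_c_40 j u = true) : Good (fa g) T MG M (cP g H) Lt.c u := by
  unfold dp_c_40 at h
  rcases brec_true h with h | h
  · exact lS_good (T := T) (x := Lt.c) (by decide) hu [Lt.e, Lt.c, Lt.fi, Lt.ci, Lt.f, Lt.c, Lt.e, Lt.fi, Lt.fi] (hole_at (rf_16 hinv hr) 0 rfl) h
  · exact lF_good (T := T) (x := Lt.c) (by decide) [Lt.fi, Lt.ci, Lt.f, Lt.c, Lt.e, Lt.fi, Lt.fi, Lt.c, Lt.e] (hole_at (rf_16 hinv hr) 2 rfl) h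
theorem dp_c_41_s (hinv : ∀ x, g (inv x) = (g x)⁻¹) (hr : ∀ r ∈ rels, (r.map g).prod = 1) (hH : ∀ r ∈ subs, (r.map g).prod ∈ H)
    (j u : ℕ) (hu : u < M) (h : dp_c_41 j u = true) : Good (fa g) T MG M (cP g H) Lt.c u := by
  unfold dp_c_41 at h
  rcases brec_true h with h | h
  · exact lF_good (T := T) (x := Lt.c) (by decide) [Lt.fi, Lt.ei, Lt.ei, Lt.ci, Lt.f, Lt.ci, Lt.e, Lt.c, Lt.f] (hole_at (rb_10 hinv hr) 7 rfl) h
  · exact lF_good (T := T) (x := Lt.c) (by decide) [Lt.di, Lt.f, Lt.b, Lt.ei, Lt.bi, Lt.f, Lt.e, Lt.f, Lt.e, Lt.bi, Lt.fi, Lt.d] (hole_at (rb_20 hinv hr) 12 rfl) h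
theorem dp_c_42_s (hinv : ∀ x, g (inv x) = (g x)⁻¹) (hr : ∀ r ∈ rels, (r.map g).prod = 1) (hH : ∀ r ∈ subs, (r.map g).prod ∈ H)
    (j u : ℕ) (hu : u < M) (h : dp_c_42 j u = true) : Good (fa g) T MG M (cP g H) Lt.c u := by
  unfold dp_c_42 at h
  rcases brec_true h with h | h
  · exact lS_good (T := T) (x := Lt.c) (by decide) hu [Lt.fi, Lt.ci, Lt.f, Lt.c, Lt.e, Lt.fi, Lt.fi, Lt.c, Lt.e] (hole_at (rf_16 hinv hr) 2 rfl) h
  · exact dp_c_41_s hinv hr hH j u hu h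
theorem dp_c_43_s (hinv : ∀ x, g (inv x) = (g x)⁻¹) (hr : ∀ r ∈ rels, (r.map g).prod = 1) (hH : ∀ r ∈ subs, (r.map g).prod ∈ H)
    (j u : ℕ) (hu : u < M) (h : dp_c_43 j u = true) : Good (fa g) T MG M (cP g H) Lt.c u := by
  unfold dp_c_43 at h
  rcases brec_true h with h | h
  · exact dp_c_40_s hinv hr hH j u hu h
  · exact dp_c_42_s hinv hr hH j u hu h
theorem dp_c_44_s (hinv : ∀ x, g (inv x) = (g x)⁻¹) (hr : ∀ r ∈ rels, (r.map g).prod = 1) (hH : ∀ r ∈ subs, (r.map g).prod ∈ H)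
    (j u : ℕ) (hu : u < M) (h : dp_c_44 j u = true) : Good (fa g) T MG M (cP g H) Lt.c u := by
  unfold dp_c_44 at h
  rcases brec_true h with h | h
  · exact dp_c_39_s hinv hr hH j u hu h
  · exact dp_c_43_s hinv hr hH j u hu h
theorem dp_c_45_s (hinv : ∀ x, g (inv x) = (g x)⁻¹) (hr : ∀ r ∈ rels, (r.map g).prod = 1) (hH : ∀ r ∈ subs, (r.map g).prod ∈ H)
    (j u : ℕ) (hu : u < M) (h : dp_c_45 j u = true) : Good (fa g) T MG M (cP g H) Lt.c u := by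
  unfold dp_c_45 at h
  rcases brec_true h with h | h
  · exact dp_c_36_s hinv hr hH j u hu h
  · exact dp_c_44_s hinv hr hH j u hu h
theorem dp_c_46_s (hinv : ∀ x, g (inv x) = (g x)⁻¹) (hr : ∀ r ∈ rels, (r.map g).prod = 1) (hH : ∀ r ∈ subs, (r.map g).prod ∈ H)
    (j u : ℕ) (hu : u < M) (h : dp_c_46 j u = true) : Good (fa g) T MG M (cP g H) Lt.c u := by
  unfold dp_c_46 at h
  rcases brec_true h with h | h
  · exact dp_c_33_s hinv hr hH j u hu h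
  · exact dp_c_45_s hinv hr hH j u hu h
theorem dp_c_47_s (hinv : ∀ x, g (inv x) = (g x)⁻¹) (hr : ∀ r ∈ rels, (r.map g).prod = 1) (hH : ∀ r ∈ subs, (r.map g).prod ∈ H)
    (j u : ℕ) (hu : u < M) (h : dp_c_47 j u = true) : Good (fa g) T MG M (cP g H) Lt.c u := by
  unfold dp_c_47 at h
  rcases brec_true h with h | h
  · exact dp_c_27_s hinv hr hH j u hu h
  · exact dp_c_46_s hinv hr hH j u hu h
theorem dp_c_48_s (hinv : ∀ x, g (inv x) = (g x)⁻¹) (hr : ∀ r ∈ rels, (r.map g).prod = 1) (hH : ∀ r ∈ subs, (r.map g).prod ∈ H)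
    (j u : ℕ) (hu : u < M) (h : dp_c_48 j u = true) : Good (fa g) T MG M (cP g H) Lt.c u := by
  unfold dp_c_48 at h
  rcases brec_true h with h | h
  · exact dp_c_19_s hinv hr hH j u hu h
  · exact dp_c_47_s hinv hr hH j u hu h
theorem dp_c_49_s (hinv : ∀ x, g (inv x) = (g x)⁻¹) (hr : ∀ r ∈ rels, (r.map g).prod = 1) (hH : ∀ r ∈ subs, (r.map g).prod ∈ H)
    (j u : ℕ) (hu : u < M) (h : dp_c_49 j u = true) : Good (fa g) T MG M (cP g H) Lt.c u := by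
  unfold dp_c_49 at h
  rcases brec_true h with h | h
  · exact dp_c_10_s hinv hr hH j u hu h
  · exact dp_c_48_s hinv hr hH j u hu h
theorem dp_c_50_s (hinv : ∀ x, g (inv x) = (g x)⁻¹) (hr : ∀ r ∈ rels, (r.map g).prod = 1) (hH : ∀ r ∈ subs, (r.map g).prod ∈ H)
    (j u : ℕ) (hu : u < M) (h : dp_c_50 j u = true) : Good (fa g) T MG M (cP g H) Lt.c u := by
  unfold dp_c_50 at h
  rcases brec_true h with h | h
  · exact dp_c_2_s hinv hr hH j u hu h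
  · exact dp_c_49_s hinv hr hH j u hu h
theorem dp_c_51_s (hinv : ∀ x, g (inv x) = (g x)⁻¹) (hr : ∀ r ∈ rels, (r.map g).prod = 1) (hH : ∀ r ∈ subs, (r.map g).prod ∈ H)
    (j u : ℕ) (hu : u < M) (h : dp_c_51 j u = true) : Good (fa g) T MG M (cP g H) Lt.c u := by
  unfold dp_c_51 at h
  rcases brec_true h with h | h
  · rcases brec_true h with h | h
    · exact lDef_good (T := T) (x := Lt.c) (by decide) rfl h
    · exact lS_good (T := T) (x := Lt.c) (by decide) hu [Lt.ci] (hole_at (rf_26 hinv hr) 1 rfl) h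
  · exact dp_c_50_s hinv hr hH j u hu h
theorem snd_c (hinv : ∀ x, g (inv x) = (g x)⁻¹) (hr : ∀ r ∈ rels, (r.map g).prod = 1) (hH : ∀ r ∈ subs, (r.map g).prod ∈ H)
    (j u : ℕ) (hu : u < M) (h : disp_c j u = true) : Good (fa g) T MG M (cP g H) Lt.c u := by
  unfold disp_c at h
  rcases brec_true h with h | h
  · rcases brec_true h with h | h
    · exact lF1_good (T := T) (x := Lt.c) (by decide) .ci (hole_at (rf_26 hinv hr) 1 rfl) h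
    · exact lF_good (T := T) (x := Lt.c) (by decide) [Lt.c, Lt.c] (hole_at (rf_1 hinv hr) 0 rfl) h
  · rcases brec_true h with h | h
    · rcases brec_true h with h | h
      · exact lF3_good (T := T) (x := Lt.c) (by decide) .di .bi .d (hole_at (rb_3 hinv hr) 3 rfl) h
      · exact lPar_good (T := T) (x := Lt.c) (x' := Lt.ci) (by decide) rfl (inv_rel hinv _ _ rfl) h
    · exact dp_c_51_s hinv hr hH j u hu h
theorem snc_c (hinv : ∀ x, g (inv x) = (g x)⁻¹) (hr : ∀ r ∈ rels, (r.map g).prod = 1) (hH : ∀ r ∈ subs, (r.map g).prod ∈ H)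
    (j u : ℕ) (hu : u < M) (h : chk_c j u = true) : (T Lt.c u < A ∧ Good (fa g) T MG M (cP g H) Lt.c u) ∨ (A ≤ T Lt.c u ∧ MG u < A) := by
  unfold chk_c at h
  cases hb : Nat.ble A (T_c u) with
  | true => rw [hb] at h; exact Or.inr ⟨le_of_ble hb, le_of_ble h⟩
  | false => rw [hb] at h; exact Or.inl ⟨lt_of_ble_false hb, snd_c hinv hr hH j u hu h⟩
theorem dp_ci_0_s (hinv : ∀ x, g (inv x) = (g x)⁻¹) (hr : ∀ r ∈ rels, (r.map g).prod = 1) (hH : ∀ r ∈ subs, (r.map g).prod ∈ H)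
    (j u : ℕ) (hu : u < M) (h : dp_ci_0 j u = true) : Good (fa g) T MG M (cP g H) Lt.ci u := by
  unfold dp_ci_0 at h
  rcases brec_true h with h | h
  · exact lF_good (T := T) (x := Lt.ci) (by decide) [Lt.bi, Lt.f, Lt.b, Lt.ci, Lt.e, Lt.f, Lt.e, Lt.bi] (hole_at (rb_7 hinv hr) 1 rfl) h
  · exact lS_good (T := T) (x := Lt.ci) (by decide) hu [Lt.e, Lt.f, Lt.e, Lt.bi, Lt.ci, Lt.bi, Lt.f, Lt.b] (hole_at (rb_7 hinv hr) 5 rfl) h
theorem dp_ci_1_s (hinv : ∀ x, g (inv x) = (g x)⁻¹) (hr : ∀ r ∈ rels, (r.map g).prod = 1) (hH : ∀ r ∈ subs, (r.map g).prod ∈ H)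
    (j u : ℕ) (hu : u < M) (h : dp_ci_1 j u = true) : Good (fa g) T MG M (cP g H) Lt.ci u := by
  unfold dp_ci_1 at h
  rcases brec_true h with h | h
  · exact lF_good (T := T) (x := Lt.ci) (by decide) [Lt.e, Lt.f, Lt.e, Lt.bi, Lt.ci, Lt.bi, Lt.f, Lt.b] (hole_at (rb_7 hinv hr) 5 rfl) h
  · exact dp_ci_0_s hinv hr hH j u hu h
theorem dp_ci_2_s (hinv : ∀ x, g (inv x) = (g x)⁻¹) (hr : ∀ r ∈ rels, (r.map g).prod = 1) (hH : ∀ r ∈ subs, (r.map g).prod ∈ H)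
    (j u : ℕ) (hu : u < M) (h : dp_ci_2 j u = true) : Good (fa g) T MG M (cP g H) Lt.ci u := by
  unfold dp_ci_2 at h
  rcases brec_true h with h | h
  · exact lS_good (T := T) (x := Lt.ci) (by decide) hu [Lt.di, Lt.b, Lt.d] (hole_at (rf_3 hinv hr) 2 rfl) h
  · exact lS_good (T := T) (x := Lt.ci) (by decide) hu [Lt.bi, Lt.f, Lt.b, Lt.ci, Lt.e, Lt.f, Lt.e, Lt.bi] (hole_at (rb_7 hinv hr) 1 rfl) h
theorem dp_ci_3_s (hinv : ∀ x, g (inv x) = (g x)⁻¹) (hr : ∀ r ∈ rels, (r.map g).prod = 1) (hH : ∀ r ∈ subs, (r.map g).prod ∈ H)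
    (j u : ℕ) (hu : u < M) (h : dp_ci_3 j u = true) : Good (fa g) T MG M (cP g H) Lt.ci u := by
  unfold dp_ci_3 at h
  rcases brec_true h with h | h
  · exact lF_good (T := T) (x := Lt.ci) (by decide) [Lt.ei, Lt.fi, Lt.e, Lt.e, Lt.f, Lt.bi, Lt.f, Lt.c, Lt.bi] (hole_at (rb_18 hinv hr) 1 rfl) h
  · exact lF_good (T := T) (x := Lt.ci) (by decide) [Lt.b, Lt.e, Lt.bi, Lt.ei, Lt.b, Lt.e, Lt.fi, Lt.ei, Lt.f] (hole_at (rf_15 hinv hr) 0 rfl) h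
theorem dp_ci_4_s (hinv : ∀ x, g (inv x) = (g x)⁻¹) (hr : ∀ r ∈ rels, (r.map g).prod = 1) (hH : ∀ r ∈ subs, (r.map g).prod ∈ H)
    (j u : ℕ) (hu : u < M) (h : dp_ci_4 j u = true) : Good (fa g) T MG M (cP g H) Lt.ci u := by
  unfold dp_ci_4 at h
  rcases brec_true h with h | h
  · exact lF_good (T := T) (x := Lt.ci) (by decide) [Lt.f, Lt.f, Lt.ei, Lt.ci, Lt.fi, Lt.c, Lt.f, Lt.ci, Lt.ei] (hole_at (rb_16 hinv hr) 1 rfl) h
  · exact lF_good (T := T) (x := Lt.ci) (by decide) [Lt.b, Lt.ci, Lt.fi, Lt.c, Lt.bi, Lt.ei, Lt.ci, Lt.fi, Lt.ei] (hole_at (rb_12 hinv hr) 5 rfl) h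
theorem dp_ci_5_s (hinv : ∀ x, g (inv x) = (g x)⁻¹) (hr : ∀ r ∈ rels, (r.map g).prod = 1) (hH : ∀ r ∈ subs, (r.map g).prod ∈ H)
    (j u : ℕ) (hu : u < M) (h : dp_ci_5 j u = true) : Good (fa g) T MG M (cP g H) Lt.ci u := by
  unfold dp_ci_5 at h
  rcases brec_true h with h | h
  · exact lF_good (T := T) (x := Lt.ci) (by decide) [Lt.fi, Lt.ei, Lt.ci, Lt.b, Lt.ci, Lt.fi, Lt.c, Lt.bi, Lt.ei] (hole_at (rb_12 hinv hr) 2 rfl) h
  · exact lS_good (T := T) (x := Lt.ci) (by decide) hu [Lt.b, Lt.e, Lt.bi, Lt.ei, Lt.b, Lt.e, Lt.fi, Lt.ei, Lt.f] (hole_at (rf_15 hinv hr) 0 rfl) h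
theorem dp_ci_6_s (hinv : ∀ x, g (inv x) = (g x)⁻¹) (hr : ∀ r ∈ rels, (r.map g).prod = 1) (hH : ∀ r ∈ subs, (r.map g).prod ∈ H)
    (j u : ℕ) (hu : u < M) (h : dp_ci_6 j u = true) : Good (fa g) T MG M (cP g H) Lt.ci u := by
  unfold dp_ci_6 at h
  rcases brec_true h with h | h
  · exact dp_ci_4_s hinv hr hH j u hu h
  · exact dp_ci_5_s hinv hr hH j u hu h
theorem dp_ci_7_s (hinv : ∀ x, g (inv x) = (g x)⁻¹) (hr : ∀ r ∈ rels, (r.map g).prod = 1) (hH : ∀ r ∈ subs, (r.map g).prod ∈ H)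
    (j u : ℕ) (hu : u < M) (h : dp_ci_7 j u = true) : Good (fa g) T MG M (cP g H) Lt.ci u := by
  unfold dp_ci_7 at h
  rcases brec_true h with h | h
  · exact dp_ci_3_s hinv hr hH j u hu h
  · exact dp_ci_6_s hinv hr hH j u hu h
theorem dp_ci_8_s (hinv : ∀ x, g (inv x) = (g x)⁻¹) (hr : ∀ r ∈ rels, (r.map g).prod = 1) (hH : ∀ r ∈ subs, (r.map g).prod ∈ H)
    (j u : ℕ) (hu : u < M) (h : dp_ci_8 j u = true) : Good (fa g) T MG M (cP g H) Lt.ci u := by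
  unfold dp_ci_8 at h
  rcases brec_true h with h | h
  · exact dp_ci_2_s hinv hr hH j u hu h
  · exact dp_ci_7_s hinv hr hH j u hu h
theorem dp_ci_9_s (hinv : ∀ x, g (inv x) = (g x)⁻¹) (hr : ∀ r ∈ rels, (r.map g).prod = 1) (hH : ∀ r ∈ subs, (r.map g).prod ∈ H)
    (j u : ℕ) (hu : u < M) (h : dp_ci_9 j u = true) : Good (fa g) T MG M (cP g H) Lt.ci u := by
  unfold dp_ci_9 at h
  rcases brec_true h with h | h
  · exact lF_good (T := T) (x := Lt.ci) (by decide) [Lt.e, Lt.c, Lt.f, Lt.c, Lt.fi, Lt.ei, Lt.ei, Lt.ci, Lt.f] (hole_at (rb_10 hinv hr) 3 rfl) h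
  · exact lF_good (T := T) (x := Lt.ci) (by decide) [Lt.ei, Lt.c, Lt.fi, Lt.c, Lt.e, Lt.e, Lt.f, Lt.ci, Lt.fi] (hole_at (rf_10 hinv hr) 6 rfl) h
theorem dp_ci_10_s (hinv : ∀ x, g (inv x) = (g x)⁻¹) (hr : ∀ r ∈ rels, (r.map g).prod = 1) (hH : ∀ r ∈ subs, (r.map g).prod ∈ H)
    (j u : ℕ) (hu : u < M) (h : dp_ci_10 j u = true) : Good (fa g) T MG M (cP g H) Lt.ci u := by
  unfold dp_ci_10 at h
  rcases brec_true h with h | h
  · exact lF_good (T := T) (x := Lt.ci) (by decide) [Lt.fi, Lt.bi, Lt.fi, Lt.e, Lt.ci, Lt.fi, Lt.bi, Lt.ei, Lt.bi] (hole_at (rb_19 hinv hr) 1 rfl) h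
  · exact lF_good (T := T) (x := Lt.ci) (by decide) [Lt.fi, Lt.b, Lt.fi, Lt.ei, Lt.ei, Lt.f, Lt.e, Lt.c, Lt.b] (hole_at (rf_18 hinv hr) 2 rfl) h
theorem dp_ci_11_s (hinv : ∀ x, g (inv x) = (g x)⁻¹) (hr : ∀ r ∈ rels, (r.map g).prod = 1) (hH : ∀ r ∈ subs, (r.map g).prod ∈ H)
    (j u : ℕ) (hu : u < M) (h : dp_ci_11 j u = true) : Good (fa g) T MG M (cP g H) Lt.ci u := by
  unfold dp_ci_11 at h
  rcases brec_true h with h | h
  · exact dp_ci_9_s hinv hr hH j u hu h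
  · exact dp_ci_10_s hinv hr hH j u hu h
theorem dp_ci_12_s (hinv : ∀ x, g (inv x) = (g x)⁻¹) (hr : ∀ r ∈ rels, (r.map g).prod = 1) (hH : ∀ r ∈ subs, (r.map g).prod ∈ H)
    (j u : ℕ) (hu : u < M) (h : dp_ci_12 j u = true) : Good (fa g) T MG M (cP g H) Lt.ci u := by
  unfold dp_ci_12 at h
  rcases brec_true h with h | h
  · exact lF_good (T := T) (x := Lt.ci) (by decide) [Lt.e, Lt.bi, Lt.f, Lt.ci, Lt.e, Lt.b, Lt.e, Lt.fi, Lt.b] (hole_at (rf_11 hinv hr) 5 rfl) h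
  · exact lF_good (T := T) (x := Lt.ci) (by decide) [Lt.fi, Lt.c, Lt.fi, Lt.fi, Lt.ci, Lt.fi, Lt.c, Lt.fi, Lt.fi] (hole_at (rb_13 hinv hr) 0 rfl) h
theorem dp_ci_13_s (hinv : ∀ x, g (inv x) = (g x)⁻¹) (hr : ∀ r ∈ rels, (r.map g).prod = 1) (hH : ∀ r ∈ subs, (r.map g).prod ∈ H)
    (j u : ℕ) (hu : u < M) (h : dp_ci_13 j u = true) : Good (fa g) T MG M (cP g H) Lt.ci u := by
  unfold dp_ci_13 at h
  rcases brec_true h with h | h
  · exact lF_good (T := T) (x := Lt.ci) (by decide) [Lt.f, Lt.ci, Lt.e, Lt.c, Lt.f, Lt.c, Lt.fi, Lt.ei, Lt.ei] (hole_at (rb_10 hinv hr) 1 rfl) h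
  · exact dp_ci_12_s hinv hr hH j u hu h
theorem dp_ci_14_s (hinv : ∀ x, g (inv x) = (g x)⁻¹) (hr : ∀ r ∈ rels, (r.map g).prod = 1) (hH : ∀ r ∈ subs, (r.map g).prod ∈ H)
    (j u : ℕ) (hu : u < M) (h : dp_ci_14 j u = true) : Good (fa g) T MG M (cP g H) Lt.ci u := by
  unfold dp_ci_14 at h
  rcases brec_true h with h | h
  · exact lF_good (T := T) (x := Lt.ci) (by decide) [Lt.e, Lt.b, Lt.e, Lt.fi, Lt.b, Lt.ci, Lt.e, Lt.bi, Lt.f] (hole_at (rf_11 hinv hr) 9 rfl) h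
  · exact lS_good (T := T) (x := Lt.ci) (by decide) hu [Lt.ei, Lt.fi, Lt.e, Lt.e, Lt.f, Lt.bi, Lt.f, Lt.c, Lt.bi] (hole_at (rb_18 hinv hr) 1 rfl) h
theorem dp_ci_15_s (hinv : ∀ x, g (inv x) = (g x)⁻¹) (hr : ∀ r ∈ rels, (r.map g).prod = 1) (hH : ∀ r ∈ subs, (r.map g).prod ∈ H)
    (j u : ℕ) (hu : u < M) (h : dp_ci_15 j u = true) : Good (fa g) T MG M (cP g H) Lt.ci u := by
  unfold dp_ci_15 at h
  rcases brec_true h with h | h
  · exact lS_good (T := T) (x := Lt.ci) (by decide) hu [Lt.fi, Lt.bi, Lt.ei, Lt.bi, Lt.ci, Lt.fi, Lt.bi, Lt.fi, Lt.e] (hole_at (rb_19 hinv hr) 6 rfl) h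
  · exact dp_ci_14_s hinv hr hH j u hu h
theorem dp_ci_16_s (hinv : ∀ x, g (inv x) = (g x)⁻¹) (hr : ∀ r ∈ rels, (r.map g).prod = 1) (hH : ∀ r ∈ subs, (r.map g).prod ∈ H)
    (j u : ℕ) (hu : u < M) (h : dp_ci_16 j u = true) : Good (fa g) T MG M (cP g H) Lt.ci u := by
  unfold dp_ci_16 at h
  rcases brec_true h with h | h
  · exact dp_ci_13_s hinv hr hH j u hu h
  · exact dp_ci_15_s hinv hr hH j u hu h
theorem dp_ci_17_s (hinv : ∀ x, g (inv x) = (g x)⁻¹) (hr : ∀ r ∈ rels, (r.map g).prod = 1) (hH : ∀ r ∈ subs, (r.map g).prod ∈ H)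
    (j u : ℕ) (hu : u < M) (h : dp_ci_17 j u = true) : Good (fa g) T MG M (cP g H) Lt.ci u := by
  unfold dp_ci_17 at h
  rcases brec_true h with h | h
  · exact dp_ci_11_s hinv hr hH j u hu h
  · exact dp_ci_16_s hinv hr hH j u hu h
theorem dp_ci_18_s (hinv : ∀ x, g (inv x) = (g x)⁻¹) (hr : ∀ r ∈ rels, (r.map g).prod = 1) (hH : ∀ r ∈ subs, (r.map g).prod ∈ H)
    (j u : ℕ) (hu : u < M) (h : dp_ci_18 j u = true) : Good (fa g) T MG M (cP g H) Lt.ci u := by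
  unfold dp_ci_18 at h
  rcases brec_true h with h | h
  · exact lF_good (T := T) (x := Lt.ci) (by decide) [Lt.fi, Lt.bi, Lt.ei, Lt.bi, Lt.ci, Lt.fi, Lt.bi, Lt.fi, Lt.e] (hole_at (rb_19 hinv hr) 6 rfl) h
  · exact lS_good (T := T) (x := Lt.ci) (by decide) hu [Lt.f, Lt.f, Lt.ei, Lt.ci, Lt.fi, Lt.c, Lt.f, Lt.ci, Lt.ei] (hole_at (rb_16 hinv hr) 1 rfl) h
theorem dp_ci_19_s (hinv : ∀ x, g (inv x) = (g x)⁻¹) (hr : ∀ r ∈ rels, (r.map g).prod = 1) (hH : ∀ r ∈ subs, (r.map g).prod ∈ H)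
    (j u : ℕ) (hu : u < M) (h : dp_ci_19 j u = true) : Good (fa g) T MG M (cP g H) Lt.ci u := by
  unfold dp_ci_19 at h
  rcases brec_true h with h | h
  · exact lS_good (T := T) (x := Lt.ci) (by decide) hu [Lt.fi, Lt.ci, Lt.ei, Lt.c, Lt.fi, Lt.c, Lt.e, Lt.e, Lt.f] (hole_at (rf_10 hinv hr) 4 rfl) h
  · exact lS_good (T := T) (x := Lt.ci) (by decide) hu [Lt.e, Lt.c, Lt.f, Lt.c, Lt.fi, Lt.ei, Lt.ei, Lt.ci, Lt.f] (hole_at (rb_10 hinv hr) 3 rfl) h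
theorem dp_ci_20_s (hinv : ∀ x, g (inv x) = (g x)⁻¹) (hr : ∀ r ∈ rels, (r.map g).prod = 1) (hH : ∀ r ∈ subs, (r.map g).prod ∈ H)
    (j u : ℕ) (hu : u < M) (h : dp_ci_20 j u = true) : Good (fa g) T MG M (cP g H) Lt.ci u := by
  unfold dp_ci_20 at h
  rcases brec_true h with h | h
  · exact lS_good (T := T) (x := Lt.ci) (by decide) hu [Lt.f, Lt.c, Lt.f, Lt.f, Lt.ei, Lt.ei, Lt.bi, Lt.ei, Lt.b] (hole_at (rb_17 hinv hr) 3 rfl) h
  · exact dp_ci_19_s hinv hr hH j u hu h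
theorem dp_ci_21_s (hinv : ∀ x, g (inv x) = (g x)⁻¹) (hr : ∀ r ∈ rels, (r.map g).prod = 1) (hH : ∀ r ∈ subs, (r.map g).prod ∈ H)
    (j u : ℕ) (hu : u < M) (h : dp_ci_21 j u = true) : Good (fa g) T MG M (cP g H) Lt.ci u := by
  unfold dp_ci_21 at h
  rcases brec_true h with h | h
  · exact dp_ci_18_s hinv hr hH j u hu h
  · exact dp_ci_20_s hinv hr hH j u hu h
theorem dp_ci_22_s (hinv : ∀ x, g (inv x) = (g x)⁻¹) (hr : ∀ r ∈ rels, (r.map g).prod = 1) (hH : ∀ r ∈ subs, (r.map g).prod ∈ H)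
    (j u : ℕ) (hu : u < M) (h : dp_ci_22 j u = true) : Good (fa g) T MG M (cP g H) Lt.ci u := by
  unfold dp_ci_22 at h
  rcases brec_true h with h | h
  · exact lF_good (T := T) (x := Lt.ci) (by decide) [Lt.fi, Lt.c, Lt.bi, Lt.ei, Lt.ci, Lt.fi, Lt.ei, Lt.ci, Lt.b] (hole_at (rb_12 hinv hr) 7 rfl) h
  · exact lF_good (T := T) (x := Lt.ci) (by decide) [Lt.ei, Lt.ci, Lt.f, Lt.f, Lt.ei, Lt.ci, Lt.fi, Lt.c, Lt.f] (hole_at (rb_16 hinv hr) 9 rfl) h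
theorem dp_ci_23_s (hinv : ∀ x, g (inv x) = (g x)⁻¹) (hr : ∀ r ∈ rels, (r.map g).prod = 1) (hH : ∀ r ∈ subs, (r.map g).prod ∈ H)
    (j u : ℕ) (hu : u < M) (h : dp_ci_23 j u = true) : Good (fa g) T MG M (cP g H) Lt.ci u := by
  unfold dp_ci_23 at h
  rcases brec_true h with h | h
  · exact lF_good (T := T) (x := Lt.ci) (by decide) [Lt.fi, Lt.c, Lt.bi, Lt.e, Lt.b, Lt.e, Lt.e, Lt.fi, Lt.fi] (hole_at (rf_17 hinv hr) 6 rfl) h
  · exact lF_good (T := T) (x := Lt.ci) (by decide) [Lt.fi, Lt.c, Lt.f, Lt.ci, Lt.ei, Lt.ci, Lt.f, Lt.f, Lt.ei] (hole_at (rb_16 hinv hr) 5 rfl) h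
theorem dp_ci_24_s (hinv : ∀ x, g (inv x) = (g x)⁻¹) (hr : ∀ r ∈ rels, (r.map g).prod = 1) (hH : ∀ r ∈ subs, (r.map g).prod ∈ H)
    (j u : ℕ) (hu : u < M) (h : dp_ci_24 j u = true) : Good (fa g) T MG M (cP g H) Lt.ci u := by
  unfold dp_ci_24 at h
  rcases brec_true h with h | h
  · exact lS_good (T := T) (x := Lt.ci) (by decide) hu [Lt.f, Lt.c, Lt.e, Lt.fi, Lt.fi, Lt.c, Lt.e, Lt.c, Lt.fi] (hole_at (rf_16 hinv hr) 4 rfl) h
  · exact dp_ci_23_s hinv hr hH j u hu h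
theorem dp_ci_25_s (hinv : ∀ x, g (inv x) = (g x)⁻¹) (hr : ∀ r ∈ rels, (r.map g).prod = 1) (hH : ∀ r ∈ subs, (r.map g).prod ∈ H)
    (j u : ℕ) (hu : u < M) (h : dp_ci_25 j u = true) : Good (fa g) T MG M (cP g H) Lt.ci u := by
  unfold dp_ci_25 at h
  rcases brec_true h with h | h
  · exact dp_ci_22_s hinv hr hH j u hu h
  · exact dp_ci_24_s hinv hr hH j u hu h
theorem dp_ci_26_s (hinv : ∀ x, g (inv x) = (g x)⁻¹) (hr : ∀ r ∈ rels, (r.map g).prod = 1) (hH : ∀ r ∈ subs, (r.map g).prod ∈ H)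
    (j u : ℕ) (hu : u < M) (h : dp_ci_26 j u = true) : Good (fa g) T MG M (cP g H) Lt.ci u := by
  unfold dp_ci_26 at h
  rcases brec_true h with h | h
  · exact dp_ci_21_s hinv hr hH j u hu h
  · exact dp_ci_25_s hinv hr hH j u hu h
theorem dp_ci_27_s (hinv : ∀ x, g (inv x) = (g x)⁻¹) (hr : ∀ r ∈ rels, (r.map g).prod = 1) (hH : ∀ r ∈ subs, (r.map g).prod ∈ H)
    (j u : ℕ) (hu : u < M) (h : dp_ci_27 j u = true) : Good (fa g) T MG M (cP g H) Lt.ci u := by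
  unfold dp_ci_27 at h
  rcases brec_true h with h | h
  · exact lS_good (T := T) (x := Lt.ci) (by decide) hu [Lt.f, Lt.c, Lt.f, Lt.f, Lt.ci, Lt.f, Lt.c, Lt.f, Lt.f] (hole_at (rf_13 hinv hr) 4 rfl) h
  · exact lF_good (T := T) (x := Lt.ci) (by decide) [Lt.fi, Lt.ci, Lt.ei, Lt.c, Lt.fi, Lt.c, Lt.e, Lt.e, Lt.f] (hole_at (rf_10 hinv hr) 4 rfl) h
theorem dp_ci_28_s (hinv : ∀ x, g (inv x) = (g x)⁻¹) (hr : ∀ r ∈ rels, (r.map g).prod = 1) (hH : ∀ r ∈ subs, (r.map g).prod ∈ H)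
    (j u : ℕ) (hu : u < M) (h : dp_ci_28 j u = true) : Good (fa g) T MG M (cP g H) Lt.ci u := by
  unfold dp_ci_28 at h
  rcases brec_true h with h | h
  · exact lF_good (T := T) (x := Lt.ci) (by decide) [Lt.f, Lt.c, Lt.e, Lt.fi, Lt.fi, Lt.c, Lt.e, Lt.c, Lt.fi] (hole_at (rf_16 hinv hr) 4 rfl) h
  · exact dp_ci_27_s hinv hr hH j u hu h
theorem dp_ci_29_s (hinv : ∀ x, g (inv x) = (g x)⁻¹) (hr : ∀ r ∈ rels, (r.map g).prod = 1) (hH : ∀ r ∈ subs, (r.map g).prod ∈ H)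
    (j u : ℕ) (hu : u < M) (h : dp_ci_29 j u = true) : Good (fa g) T MG M (cP g H) Lt.ci u := by
  unfold dp_ci_29 at h
  rcases brec_true h with h | h
  · exact lS_good (T := T) (x := Lt.ci) (by decide) hu [Lt.fi, Lt.ei, Lt.ci, Lt.b, Lt.ci, Lt.fi, Lt.c, Lt.bi, Lt.ei] (hole_at (rb_12 hinv hr) 2 rfl) h
  · exact lF_good (T := T) (x := Lt.ci) (by decide) [Lt.f, Lt.c, Lt.f, Lt.f, Lt.ci, Lt.f, Lt.c, Lt.f, Lt.f] (hole_at (rf_13 hinv hr) 4 rfl) h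
theorem dp_ci_30_s (hinv : ∀ x, g (inv x) = (g x)⁻¹) (hr : ∀ r ∈ rels, (r.map g).prod = 1) (hH : ∀ r ∈ subs, (r.map g).prod ∈ H)
    (j u : ℕ) (hu : u < M) (h : dp_ci_30 j u = true) : Good (fa g) T MG M (cP g H) Lt.ci u := by
  unfold dp_ci_30 at h
  rcases brec_true h with h | h
  · exact lS_good (T := T) (x := Lt.ci) (by decide) hu [Lt.ci, Lt.ci] (hole_at (rb_1 hinv hr) 0 rfl) h
  · exact lS_good (T := T) (x := Lt.ci) (by decide) hu [Lt.e, Lt.bi, Lt.f, Lt.ci, Lt.e, Lt.b, Lt.e, Lt.fi, Lt.b] (hole_at (rf_11 hinv hr) 5 rfl) h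
theorem dp_ci_31_s (hinv : ∀ x, g (inv x) = (g x)⁻¹) (hr : ∀ r ∈ rels, (r.map g).prod = 1) (hH : ∀ r ∈ subs, (r.map g).prod ∈ H)
    (j u : ℕ) (hu : u < M) (h : dp_ci_31 j u = true) : Good (fa g) T MG M (cP g H) Lt.ci u := by
  unfold dp_ci_31 at h
  rcases brec_true h with h | h
  · exact dp_ci_29_s hinv hr hH j u hu h
  · exact dp_ci_30_s hinv hr hH j u hu h
theorem dp_ci_32_s (hinv : ∀ x, g (inv x) = (g x)⁻¹) (hr : ∀ r ∈ rels, (r.map g).prod = 1) (hH : ∀ r ∈ subs, (r.map g).prod ∈ H)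
    (j u : ℕ) (hu : u < M) (h : dp_ci_32 j u = true) : Good (fa g) T MG M (cP g H) Lt.ci u := by
  unfold dp_ci_32 at h
  rcases brec_true h with h | h
  · exact dp_ci_28_s hinv hr hH j u hu h
  · exact dp_ci_31_s hinv hr hH j u hu h
theorem dp_ci_33_s (hinv : ∀ x, g (inv x) = (g x)⁻¹) (hr : ∀ r ∈ rels, (r.map g).prod = 1) (hH : ∀ r ∈ subs, (r.map g).prod ∈ H)
    (j u : ℕ) (hu : u < M) (h : dp_ci_33 j u = true) : Good (fa g) T MG M (cP g H) Lt.ci u := by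
  unfold dp_ci_33 at h
  rcases brec_true h with h | h
  · exact lS_good (T := T) (x := Lt.ci) (by decide) hu [Lt.e, Lt.b, Lt.e, Lt.fi, Lt.b, Lt.ci, Lt.e, Lt.bi, Lt.f] (hole_at (rf_11 hinv hr) 9 rfl) h
  · exact lS_good (T := T) (x := Lt.ci) (by decide) hu [Lt.fi, Lt.c, Lt.fi, Lt.fi, Lt.ci, Lt.fi, Lt.c, Lt.fi, Lt.fi] (hole_at (rb_13 hinv hr) 0 rfl) h
theorem dp_ci_34_s (hinv : ∀ x, g (inv x) = (g x)⁻¹) (hr : ∀ r ∈ rels, (r.map g).prod = 1) (hH : ∀ r ∈ subs, (r.map g).prod ∈ H)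
    (j u : ℕ) (hu : u < M) (h : dp_ci_34 j u = true) : Good (fa g) T MG M (cP g H) Lt.ci u := by
  unfold dp_ci_34 at h
  rcases brec_true h with h | h
  · exact lS_good (T := T) (x := Lt.ci) (by decide) hu [Lt.fi, Lt.c, Lt.bi, Lt.e, Lt.b, Lt.e, Lt.e, Lt.fi, Lt.fi] (hole_at (rf_17 hinv hr) 6 rfl) h
  · exact lS_good (T := T) (x := Lt.ci) (by decide) hu [Lt.fi, Lt.bi, Lt.fi, Lt.e, Lt.ci, Lt.fi, Lt.bi, Lt.ei, Lt.bi] (hole_at (rb_19 hinv hr) 1 rfl) h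
theorem dp_ci_35_s (hinv : ∀ x, g (inv x) = (g x)⁻¹) (hr : ∀ r ∈ rels, (r.map g).prod = 1) (hH : ∀ r ∈ subs, (r.map g).prod ∈ H)
    (j u : ℕ) (hu : u < M) (h : dp_ci_35 j u = true) : Good (fa g) T MG M (cP g H) Lt.ci u := by
  unfold dp_ci_35 at h
  rcases brec_true h with h | h
  · exact dp_ci_33_s hinv hr hH j u hu h
  · exact dp_ci_34_s hinv hr hH j u hu h
theorem dp_ci_36_s (hinv : ∀ x, g (inv x) = (g x)⁻¹) (hr : ∀ r ∈ rels, (r.map g).prod = 1) (hH : ∀ r ∈ subs, (r.map g).prod ∈ H)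
    (j u : ℕ) (hu : u < M) (h : dp_ci_36 j u = true) : Good (fa g) T MG M (cP g H) Lt.ci u := by
  unfold dp_ci_36 at h
  rcases brec_true h with h | h
  · exact lF_good (T := T) (x := Lt.ci) (by decide) [Lt.f, Lt.c, Lt.f, Lt.f, Lt.ei, Lt.ei, Lt.bi, Lt.ei, Lt.b] (hole_at (rb_17 hinv hr) 3 rfl) h
  · exact lS_good (T := T) (x := Lt.ci) (by decide) hu [Lt.ei, Lt.c, Lt.fi, Lt.c, Lt.e, Lt.e, Lt.f, Lt.ci, Lt.fi] (hole_at (rf_10 hinv hr) 6 rfl) h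
theorem dp_ci_37_s (hinv : ∀ x, g (inv x) = (g x)⁻¹) (hr : ∀ r ∈ rels, (r.map g).prod = 1) (hH : ∀ r ∈ subs, (r.map g).prod ∈ H)
    (j u : ℕ) (hu : u < M) (h : dp_ci_37 j u = true) : Good (fa g) T MG M (cP g H) Lt.ci u := by
  unfold dp_ci_37 at h
  rcases brec_true h with h | h
  · exact lS_good (T := T) (x := Lt.ci) (by decide) hu [Lt.b, Lt.ci, Lt.fi, Lt.c, Lt.bi, Lt.ei, Lt.ci, Lt.fi, Lt.ei] (hole_at (rb_12 hinv hr) 5 rfl) h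
  · exact lS_good (T := T) (x := Lt.ci) (by decide) hu [Lt.fi, Lt.c, Lt.f, Lt.ci, Lt.ei, Lt.ci, Lt.f, Lt.f, Lt.ei] (hole_at (rb_16 hinv hr) 5 rfl) h
theorem dp_ci_38_s (hinv : ∀ x, g (inv x) = (g x)⁻¹) (hr : ∀ r ∈ rels, (r.map g).prod = 1) (hH : ∀ r ∈ subs, (r.map g).prod ∈ H)
    (j u : ℕ) (hu : u < M) (h : dp_ci_38 j u = true) : Good (fa g) T MG M (cP g H) Lt.ci u := by
  unfold dp_ci_38 at h
  rcases brec_true h with h | h
  · exact lS_good (T := T) (x := Lt.ci) (by decide) hu [Lt.f, Lt.ci, Lt.e, Lt.c, Lt.f, Lt.c, Lt.fi, Lt.ei, Lt.ei] (hole_at (rb_10 hinv hr) 1 rfl) h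
  · exact lS_good (T := T) (x := Lt.ci) (by decide) hu [Lt.f, Lt.c, Lt.bi, Lt.c, Lt.e, Lt.f, Lt.c, Lt.e, Lt.b] (hole_at (rf_12 hinv hr) 2 rfl) h
theorem dp_ci_39_s (hinv : ∀ x, g (inv x) = (g x)⁻¹) (hr : ∀ r ∈ rels, (r.map g).prod = 1) (hH : ∀ r ∈ subs, (r.map g).prod ∈ H)
    (j u : ℕ) (hu : u < M) (h : dp_ci_39 j u = true) : Good (fa g) T MG M (cP g H) Lt.ci u := by
  unfold dp_ci_39 at h
  rcases brec_true h with h | h
  · exact dp_ci_37_s hinv hr hH j u hu h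
  · exact dp_ci_38_s hinv hr hH j u hu h
theorem dp_ci_40_s (hinv : ∀ x, g (inv x) = (g x)⁻¹) (hr : ∀ r ∈ rels, (r.map g).prod = 1) (hH : ∀ r ∈ subs, (r.map g).prod ∈ H)
    (j u : ℕ) (hu : u < M) (h : dp_ci_40 j u = true) : Good (fa g) T MG M (cP g H) Lt.ci u := by
  unfold dp_ci_40 at h
  rcases brec_true h with h | h
  · exact dp_ci_36_s hinv hr hH j u hu h
  · exact dp_ci_39_s hinv hr hH j u hu h
theorem dp_ci_41_s (hinv : ∀ x, g (inv x) = (g x)⁻¹) (hr : ∀ r ∈ rels, (r.map g).prod = 1) (hH : ∀ r ∈ subs, (r.map g).prod ∈ H)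
    (j u : ℕ) (hu : u < M) (h : dp_ci_41 j u = true) : Good (fa g) T MG M (cP g H) Lt.ci u := by
  unfold dp_ci_41 at h
  rcases brec_true h with h | h
  · exact dp_ci_35_s hinv hr hH j u hu h
  · exact dp_ci_40_s hinv hr hH j u hu h
theorem dp_ci_42_s (hinv : ∀ x, g (inv x) = (g x)⁻¹) (hr : ∀ r ∈ rels, (r.map g).prod = 1) (hH : ∀ r ∈ subs, (r.map g).prod ∈ H)
    (j u : ℕ) (hu : u < M) (h : dp_ci_42 j u = true) : Good (fa g) T MG M (cP g H) Lt.ci u := by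
  unfold dp_ci_42 at h
  rcases brec_true h with h | h
  · exact dp_ci_32_s hinv hr hH j u hu h
  · exact dp_ci_41_s hinv hr hH j u hu h
theorem dp_ci_43_s (hinv : ∀ x, g (inv x) = (g x)⁻¹) (hr : ∀ r ∈ rels, (r.map g).prod = 1) (hH : ∀ r ∈ subs, (r.map g).prod ∈ H)
    (j u : ℕ) (hu : u < M) (h : dp_ci_43 j u = true) : Good (fa g) T MG M (cP g H) Lt.ci u := by
  unfold dp_ci_43 at h
  rcases brec_true h with h | h
  · exact dp_ci_26_s hinv hr hH j u hu h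
  · exact dp_ci_42_s hinv hr hH j u hu h
theorem dp_ci_44_s (hinv : ∀ x, g (inv x) = (g x)⁻¹) (hr : ∀ r ∈ rels, (r.map g).prod = 1) (hH : ∀ r ∈ subs, (r.map g).prod ∈ H)
    (j u : ℕ) (hu : u < M) (h : dp_ci_44 j u = true) : Good (fa g) T MG M (cP g H) Lt.ci u := by
  unfold dp_ci_44 at h
  rcases brec_true h with h | h
  · exact dp_ci_17_s hinv hr hH j u hu h
  · exact dp_ci_43_s hinv hr hH j u hu h
theorem dp_ci_45_s (hinv : ∀ x, g (inv x) = (g x)⁻¹) (hr : ∀ r ∈ rels, (r.map g).prod = 1) (hH : ∀ r ∈ subs, (r.map g).prod ∈ H)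
    (j u : ℕ) (hu : u < M) (h : dp_ci_45 j u = true) : Good (fa g) T MG M (cP g H) Lt.ci u := by
  unfold dp_ci_45 at h
  rcases brec_true h with h | h
  · exact dp_ci_8_s hinv hr hH j u hu h
  · exact dp_ci_44_s hinv hr hH j u hu h
theorem dp_ci_46_s (hinv : ∀ x, g (inv x) = (g x)⁻¹) (hr : ∀ r ∈ rels, (r.map g).prod = 1) (hH : ∀ r ∈ subs, (r.map g).prod ∈ H)
    (j u : ℕ) (hu : u < M) (h : dp_ci_46 j u = true) : Good (fa g) T MG M (cP g H) Lt.ci u := by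
  unfold dp_ci_46 at h
  rcases brec_true h with h | h
  · exact dp_ci_1_s hinv hr hH j u hu h
  · exact dp_ci_45_s hinv hr hH j u hu h
theorem dp_ci_47_s (hinv : ∀ x, g (inv x) = (g x)⁻¹) (hr : ∀ r ∈ rels, (r.map g).prod = 1) (hH : ∀ r ∈ subs, (r.map g).prod ∈ H)
    (j u : ℕ) (hu : u < M) (h : dp_ci_47 j u = true) : Good (fa g) T MG M (cP g H) Lt.ci u := by
  unfold dp_ci_47 at h
  rcases brec_true h with h | h
  · rcases brec_true h with h | h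
    · exact lF_good (T := T) (x := Lt.ci) (by decide) [Lt.ci, Lt.ci] (hole_at (rb_1 hinv hr) 0 rfl) h
    · exact lS_good (T := T) (x := Lt.ci) (by decide) hu [Lt.c] (hole_at (rf_26 hinv hr) 0 rfl) h
  · exact dp_ci_46_s hinv hr hH j u hu h
theorem dp_ci_48_s (hinv : ∀ x, g (inv x) = (g x)⁻¹) (hr : ∀ r ∈ rels, (r.map g).prod = 1) (hH : ∀ r ∈ subs, (r.map g).prod ∈ H)
    (j u : ℕ) (hu : u < M) (h : dp_ci_48 j u = true) : Good (fa g) T MG M (cP g H) Lt.ci u := by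
  unfold dp_ci_48 at h
  rcases brec_true h with h | h
  · rcases brec_true h with h | h
    · exact lDef_good (T := T) (x := Lt.ci) (by decide) rfl h
    · exact lPar_good (T := T) (x := Lt.ci) (x' := Lt.c) (by decide) rfl (inv_rel hinv _ _ rfl) h
  · exact dp_ci_47_s hinv hr hH j u hu h
theorem snd_ci (hinv : ∀ x, g (inv x) = (g x)⁻¹) (hr : ∀ r ∈ rels, (r.map g).prod = 1) (hH : ∀ r ∈ subs, (r.map g).prod ∈ H)
    (j u : ℕ) (hu : u < M) (h : disp_ci j u = true) : Good (fa g) T MG M (cP g H) Lt.ci u := by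
  unfold disp_ci at h
  rcases brec_true h with h | h
  · rcases brec_true h with h | h
    · exact lF1_good (T := T) (x := Lt.ci) (by decide) .c (hole_at (rf_26 hinv hr) 0 rfl) h
    · exact lF3_good (T := T) (x := Lt.ci) (by decide) .di .b .d (hole_at (rf_3 hinv hr) 2 rfl) h
  · exact dp_ci_48_s hinv hr hH j u hu h
theorem snc_ci (hinv : ∀ x, g (inv x) = (g x)⁻¹) (hr : ∀ r ∈ rels, (r.map g).prod = 1) (hH : ∀ r ∈ subs, (r.map g).prod ∈ H)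
    (j u : ℕ) (hu : u < M) (h : chk_ci j u = true) : (T Lt.ci u < A ∧ Good (fa g) T MG M (cP g H) Lt.ci u) ∨ (A ≤ T Lt.ci u ∧ MG u < A) := by
  unfold chk_ci at h
  cases hb : Nat.ble A (T_ci u) with
  | true => rw [hb] at h; exact Or.inr ⟨le_of_ble hb, le_of_ble h⟩
  | false => rw [hb] at h; exact Or.inl ⟨lt_of_ble_false hb, snd_ci hinv hr hH j u hu h⟩
theorem dp_f_0_s (hinv : ∀ x, g (inv x) = (g x)⁻¹) (hr : ∀ r ∈ rels, (r.map g).prod = 1) (hH : ∀ r ∈ subs, (r.map g).prod ∈ H)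
    (j u : ℕ) (hu : u < M) (h : dp_f_0 j u = true) : Good (fa g) T MG M (cP g H) Lt.f u := by
  unfold dp_f_0 at h
  rcases brec_true h with h | h
  · exact lS_good (T := T) (x := Lt.f) (by decide) hu [Lt.fi] (hole_at (rf_28 hinv hr) 1 rfl) h
  · exact lF_good (T := T) (x := Lt.f) (by decide) [Lt.b, Lt.ci, Lt.e, Lt.f, Lt.e, Lt.bi, Lt.ci, Lt.bi] (hole_at (rb_7 hinv hr) 3 rfl) h
theorem dp_f_1_s (hinv : ∀ x, g (inv x) = (g x)⁻¹) (hr : ∀ r ∈ rels, (r.map g).prod = 1) (hH : ∀ r ∈ subs, (r.map g).prod ∈ H)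
    (j u : ℕ) (hu : u < M) (h : dp_f_1 j u = true) : Good (fa g) T MG M (cP g H) Lt.f u := by
  unfold dp_f_1 at h
  rcases brec_true h with h | h
  · exact lF_good (T := T) (x := Lt.f) (by decide) [Lt.f, Lt.f, Lt.f, Lt.f] (hole_at (rf_6 hinv hr) 0 rfl) h
  · exact dp_f_0_s hinv hr hH j u hu h
theorem dp_f_2_s (hinv : ∀ x, g (inv x) = (g x)⁻¹) (hr : ∀ r ∈ rels, (r.map g).prod = 1) (hH : ∀ r ∈ subs, (r.map g).prod ∈ H)
    (j u : ℕ) (hu : u < M) (h : dp_f_2 j u = true) : Good (fa g) T MG M (cP g H) Lt.f u := by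
  unfold dp_f_2 at h
  rcases brec_true h with h | h
  · exact lF_good (T := T) (x := Lt.f) (by decide) [Lt.ci, Lt.b, Lt.e, Lt.bi, Lt.ei, Lt.b, Lt.e, Lt.fi, Lt.ei] (hole_at (rf_15 hinv hr) 9 rfl) h
  · exact lS_good (T := T) (x := Lt.f) (by decide) hu [Lt.di, Lt.ei, Lt.d] (hole_at (rb_4 hinv hr) 3 rfl) h
theorem dp_f_3_s (hinv : ∀ x, g (inv x) = (g x)⁻¹) (hr : ∀ r ∈ rels, (r.map g).prod = 1) (hH : ∀ r ∈ subs, (r.map g).prod ∈ H)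
    (j u : ℕ) (hu : u < M) (h : dp_f_3 j u = true) : Good (fa g) T MG M (cP g H) Lt.f u := by
  unfold dp_f_3 at h
  rcases brec_true h with h | h
  · exact lS_good (T := T) (x := Lt.f) (by decide) hu [Lt.b, Lt.ci, Lt.e, Lt.f, Lt.e, Lt.bi, Lt.ci, Lt.bi] (hole_at (rb_7 hinv hr) 3 rfl) h
  · exact lF_good (T := T) (x := Lt.f) (by decide) [Lt.ei, Lt.bi, Lt.e, Lt.b, Lt.ei, Lt.bi, Lt.c, Lt.fi, Lt.e] (hole_at (rb_15 hinv hr) 4 rfl) h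
theorem dp_f_4_s (hinv : ∀ x, g (inv x) = (g x)⁻¹) (hr : ∀ r ∈ rels, (r.map g).prod = 1) (hH : ∀ r ∈ subs, (r.map g).prod ∈ H)
    (j u : ℕ) (hu : u < M) (h : dp_f_4 j u = true) : Good (fa g) T MG M (cP g H) Lt.f u := by
  unfold dp_f_4 at h
  rcases brec_true h with h | h
  · exact lS_good (T := T) (x := Lt.f) (by decide) hu [Lt.e, Lt.bi, Lt.ci, Lt.bi, Lt.f, Lt.b, Lt.ci, Lt.e] (hole_at (rb_7 hinv hr) 7 rfl) h
  · exact dp_f_3_s hinv hr hH j u hu h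
theorem dp_f_5_s (hinv : ∀ x, g (inv x) = (g x)⁻¹) (hr : ∀ r ∈ rels, (r.map g).prod = 1) (hH : ∀ r ∈ subs, (r.map g).prod ∈ H)
    (j u : ℕ) (hu : u < M) (h : dp_f_5 j u = true) : Good (fa g) T MG M (cP g H) Lt.f u := by
  unfold dp_f_5 at h
  rcases brec_true h with h | h
  · exact dp_f_2_s hinv hr hH j u hu h
  · exact dp_f_4_s hinv hr hH j u hu h
theorem dp_f_6_s (hinv : ∀ x, g (inv x) = (g x)⁻¹) (hr : ∀ r ∈ rels, (r.map g).prod = 1) (hH : ∀ r ∈ subs, (r.map g).prod ∈ H)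
    (j u : ℕ) (hu : u < M) (h : dp_f_6 j u = true) : Good (fa g) T MG M (cP g H) Lt.f u := by
  unfold dp_f_6 at h
  rcases brec_true h with h | h
  · exact lF_good (T := T) (x := Lt.f) (by decide) [Lt.e, Lt.bi, Lt.ci, Lt.bi, Lt.f, Lt.b, Lt.ci, Lt.e] (hole_at (rb_7 hinv hr) 7 rfl) h
  · exact dp_f_5_s hinv hr hH j u hu h
theorem dp_f_7_s (hinv : ∀ x, g (inv x) = (g x)⁻¹) (hr : ∀ r ∈ rels, (r.map g).prod = 1) (hH : ∀ r ∈ subs, (r.map g).prod ∈ H)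
    (j u : ℕ) (hu : u < M) (h : dp_f_7 j u = true) : Good (fa g) T MG M (cP g H) Lt.f u := by
  unfold dp_f_7 at h
  rcases brec_true h with h | h
  · exact lF_good (T := T) (x := Lt.f) (by decide) [Lt.c, Lt.b, Lt.e, Lt.b, Lt.f, Lt.c, Lt.ei, Lt.f, Lt.b] (hole_at (rf_19 hinv hr) 9 rfl) h
  · exact lF_good (T := T) (x := Lt.f) (by decide) [Lt.c, Lt.f, Lt.f, Lt.ei, Lt.ei, Lt.bi, Lt.ei, Lt.b, Lt.ci] (hole_at (rb_17 hinv hr) 4 rfl) h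
theorem dp_f_8_s (hinv : ∀ x, g (inv x) = (g x)⁻¹) (hr : ∀ r ∈ rels, (r.map g).prod = 1) (hH : ∀ r ∈ subs, (r.map g).prod ∈ H)
    (j u : ℕ) (hu : u < M) (h : dp_f_8 j u = true) : Good (fa g) T MG M (cP g H) Lt.f u := by
  unfold dp_f_8 at h
  rcases brec_true h with h | h
  · exact lS_good (T := T) (x := Lt.f) (by decide) hu [Lt.f, Lt.f, Lt.f, Lt.f] (hole_at (rf_6 hinv hr) 0 rfl) h
  · exact lF_good (T := T) (x := Lt.f) (by decide) [Lt.ei, Lt.ci, Lt.fi, Lt.c, Lt.f, Lt.ci, Lt.ei, Lt.ci, Lt.f] (hole_at (rb_16 hinv hr) 3 rfl) h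
theorem dp_f_9_s (hinv : ∀ x, g (inv x) = (g x)⁻¹) (hr : ∀ r ∈ rels, (r.map g).prod = 1) (hH : ∀ r ∈ subs, (r.map g).prod ∈ H)
    (j u : ℕ) (hu : u < M) (h : dp_f_9 j u = true) : Good (fa g) T MG M (cP g H) Lt.f u := by
  unfold dp_f_9 at h
  rcases brec_true h with h | h
  · exact lF_good (T := T) (x := Lt.f) (by decide) [Lt.ei, Lt.bi, Lt.ei, Lt.c, Lt.fi, Lt.b, Lt.ei, Lt.c, Lt.bi] (hole_at (rb_11 hinv hr) 8 rfl) h
  · exact dp_f_8_s hinv hr hH j u hu h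
theorem dp_f_10_s (hinv : ∀ x, g (inv x) = (g x)⁻¹) (hr : ∀ r ∈ rels, (r.map g).prod = 1) (hH : ∀ r ∈ subs, (r.map g).prod ∈ H)
    (j u : ℕ) (hu : u < M) (h : dp_f_10 j u = true) : Good (fa g) T MG M (cP g H) Lt.f u := by
  unfold dp_f_10 at h
  rcases brec_true h with h | h
  · exact dp_f_7_s hinv hr hH j u hu h
  · exact dp_f_9_s hinv hr hH j u hu h
theorem dp_f_11_s (hinv : ∀ x, g (inv x) = (g x)⁻¹) (hr : ∀ r ∈ rels, (r.map g).prod = 1) (hH : ∀ r ∈ subs, (r.map g).prod ∈ H)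
    (j u : ℕ) (hu : u < M) (h : dp_f_11 j u = true) : Good (fa g) T MG M (cP g H) Lt.f u := by
  unfold dp_f_11 at h
  rcases brec_true h with h | h
  · exact lF_good (T := T) (x := Lt.f) (by decide) [Lt.b, Lt.f, Lt.c, Lt.b, Lt.e, Lt.b, Lt.f, Lt.c, Lt.ei] (hole_at (rf_19 hinv hr) 7 rfl) h
  · exact lS_good (T := T) (x := Lt.f) (by decide) hu [Lt.ci, Lt.b, Lt.e, Lt.bi, Lt.ei, Lt.b, Lt.e, Lt.fi, Lt.ei] (hole_at (rf_15 hinv hr) 9 rfl) h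
theorem dp_f_12_s (hinv : ∀ x, g (inv x) = (g x)⁻¹) (hr : ∀ r ∈ rels, (r.map g).prod = 1) (hH : ∀ r ∈ subs, (r.map g).prod ∈ H)
    (j u : ℕ) (hu : u < M) (h : dp_f_12 j u = true) : Good (fa g) T MG M (cP g H) Lt.f u := by
  unfold dp_f_12 at h
  rcases brec_true h with h | h
  · exact lS_good (T := T) (x := Lt.f) (by decide) hu [Lt.ei, Lt.bi, Lt.e, Lt.b, Lt.ei, Lt.bi, Lt.c, Lt.fi, Lt.e] (hole_at (rb_15 hinv hr) 4 rfl) h
  · exact lS_good (T := T) (x := Lt.f) (by decide) hu [Lt.ei, Lt.ci, Lt.fi, Lt.c, Lt.f, Lt.ci, Lt.ei, Lt.ci, Lt.f] (hole_at (rb_16 hinv hr) 3 rfl) h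
theorem dp_f_13_s (hinv : ∀ x, g (inv x) = (g x)⁻¹) (hr : ∀ r ∈ rels, (r.map g).prod = 1) (hH : ∀ r ∈ subs, (r.map g).prod ∈ H)
    (j u : ℕ) (hu : u < M) (h : dp_f_13 j u = true) : Good (fa g) T MG M (cP g H) Lt.f u := by
  unfold dp_f_13 at h
  rcases brec_true h with h | h
  · exact dp_f_11_s hinv hr hH j u hu h
  · exact dp_f_12_s hinv hr hH j u hu h
theorem dp_f_14_s (hinv : ∀ x, g (inv x) = (g x)⁻¹) (hr : ∀ r ∈ rels, (r.map g).prod = 1) (hH : ∀ r ∈ subs, (r.map g).prod ∈ H)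
    (j u : ℕ) (hu : u < M) (h : dp_f_14 j u = true) : Good (fa g) T MG M (cP g H) Lt.f u := by
  unfold dp_f_14 at h
  rcases brec_true h with h | h
  · exact lF_good (T := T) (x := Lt.f) (by decide) [Lt.c, Lt.e, Lt.b, Lt.ci, Lt.f, Lt.c, Lt.bi, Lt.c, Lt.e] (hole_at (rf_12 hinv hr) 8 rfl) h
  · exact lF_good (T := T) (x := Lt.f) (by decide) [Lt.b, Lt.ei, Lt.b, Lt.ei, Lt.f, Lt.b, Lt.ei, Lt.b, Lt.ei] (hole_at (rf_9 hinv hr) 0 rfl) h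
theorem dp_f_15_s (hinv : ∀ x, g (inv x) = (g x)⁻¹) (hr : ∀ r ∈ rels, (r.map g).prod = 1) (hH : ∀ r ∈ subs, (r.map g).prod ∈ H)
    (j u : ℕ) (hu : u < M) (h : dp_f_15 j u = true) : Good (fa g) T MG M (cP g H) Lt.f u := by
  unfold dp_f_15 at h
  rcases brec_true h with h | h
  · exact lF_good (T := T) (x := Lt.f) (by decide) [Lt.e, Lt.c, Lt.b, Lt.ci, Lt.fi, Lt.b, Lt.fi, Lt.ei, Lt.ei] (hole_at (rf_18 hinv hr) 8 rfl) h
  · exact lF_good (T := T) (x := Lt.f) (by decide) [Lt.ci, Lt.e, Lt.c, Lt.f, Lt.c, Lt.fi, Lt.ei, Lt.ei, Lt.ci] (hole_at (rb_10 hinv hr) 2 rfl) h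
theorem dp_f_16_s (hinv : ∀ x, g (inv x) = (g x)⁻¹) (hr : ∀ r ∈ rels, (r.map g).prod = 1) (hH : ∀ r ∈ subs, (r.map g).prod ∈ H)
    (j u : ℕ) (hu : u < M) (h : dp_f_16 j u = true) : Good (fa g) T MG M (cP g H) Lt.f u := by
  unfold dp_f_16 at h
  rcases brec_true h with h | h
  · exact dp_f_14_s hinv hr hH j u hu h
  · exact dp_f_15_s hinv hr hH j u hu h
theorem dp_f_17_s (hinv : ∀ x, g (inv x) = (g x)⁻¹) (hr : ∀ r ∈ rels, (r.map g).prod = 1) (hH : ∀ r ∈ subs, (r.map g).prod ∈ H)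
    (j u : ℕ) (hu : u < M) (h : dp_f_17 j u = true) : Good (fa g) T MG M (cP g H) Lt.f u := by
  unfold dp_f_17 at h
  rcases brec_true h with h | h
  · exact dp_f_13_s hinv hr hH j u hu h
  · exact dp_f_16_s hinv hr hH j u hu h
theorem dp_f_18_s (hinv : ∀ x, g (inv x) = (g x)⁻¹) (hr : ∀ r ∈ rels, (r.map g).prod = 1) (hH : ∀ r ∈ subs, (r.map g).prod ∈ H)
    (j u : ℕ) (hu : u < M) (h : dp_f_18 j u = true) : Good (fa g) T MG M (cP g H) Lt.f u := by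
  unfold dp_f_18 at h
  rcases brec_true h with h | h
  · exact dp_f_10_s hinv hr hH j u hu h
  · exact dp_f_17_s hinv hr hH j u hu h
theorem dp_f_19_s (hinv : ∀ x, g (inv x) = (g x)⁻¹) (hr : ∀ r ∈ rels, (r.map g).prod = 1) (hH : ∀ r ∈ subs, (r.map g).prod ∈ H)
    (j u : ℕ) (hu : u < M) (h : dp_f_19 j u = true) : Good (fa g) T MG M (cP g H) Lt.f u := by
  unfold dp_f_19 at h
  rcases brec_true h with h | h
  · exact lF_good (T := T) (x := Lt.f) (by decide) [Lt.c, Lt.e, Lt.fi, Lt.fi, Lt.c, Lt.e, Lt.c, Lt.fi, Lt.ci] (hole_at (rf_16 hinv hr) 5 rfl) h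
  · exact lF_good (T := T) (x := Lt.f) (by decide) [Lt.ci, Lt.ei, Lt.ci, Lt.f, Lt.f, Lt.ei, Lt.ci, Lt.fi, Lt.c] (hole_at (rb_16 hinv hr) 8 rfl) h
theorem dp_f_20_s (hinv : ∀ x, g (inv x) = (g x)⁻¹) (hr : ∀ r ∈ rels, (r.map g).prod = 1) (hH : ∀ r ∈ subs, (r.map g).prod ∈ H)
    (j u : ℕ) (hu : u < M) (h : dp_f_20 j u = true) : Good (fa g) T MG M (cP g H) Lt.f u := by
  unfold dp_f_20 at h
  rcases brec_true h with h | h
  · exact lF_good (T := T) (x := Lt.f) (by decide) [Lt.c, Lt.bi, Lt.c, Lt.e, Lt.f, Lt.c, Lt.e, Lt.b, Lt.ci] (hole_at (rf_12 hinv hr) 3 rfl) h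
  · exact lS_good (T := T) (x := Lt.f) (by decide) hu [Lt.ei, Lt.ei, Lt.bi, Lt.ei, Lt.b, Lt.ci, Lt.f, Lt.c, Lt.f] (hole_at (rb_17 hinv hr) 7 rfl) h
theorem dp_f_21_s (hinv : ∀ x, g (inv x) = (g x)⁻¹) (hr : ∀ r ∈ rels, (r.map g).prod = 1) (hH : ∀ r ∈ subs, (r.map g).prod ∈ H)
    (j u : ℕ) (hu : u < M) (h : dp_f_21 j u = true) : Good (fa g) T MG M (cP g H) Lt.f u := by
  unfold dp_f_21 at h
  rcases brec_true h with h | h
  · exact lF_good (T := T) (x := Lt.f) (by decide) [Lt.bi, Lt.f, Lt.c, Lt.bi, Lt.ci, Lt.ei, Lt.fi, Lt.e, Lt.e] (hole_at (rb_18 hinv hr) 6 rfl) h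
  · exact dp_f_20_s hinv hr hH j u hu h
theorem dp_f_22_s (hinv : ∀ x, g (inv x) = (g x)⁻¹) (hr : ∀ r ∈ rels, (r.map g).prod = 1) (hH : ∀ r ∈ subs, (r.map g).prod ∈ H)
    (j u : ℕ) (hu : u < M) (h : dp_f_22 j u = true) : Good (fa g) T MG M (cP g H) Lt.f u := by
  unfold dp_f_22 at h
  rcases brec_true h with h | h
  · exact dp_f_19_s hinv hr hH j u hu h
  · exact dp_f_21_s hinv hr hH j u hu h
theorem dp_f_23_s (hinv : ∀ x, g (inv x) = (g x)⁻¹) (hr : ∀ r ∈ rels, (r.map g).prod = 1) (hH : ∀ r ∈ subs, (r.map g).prod ∈ H)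
    (j u : ℕ) (hu : u < M) (h : dp_f_23 j u = true) : Good (fa g) T MG M (cP g H) Lt.f u := by
  unfold dp_f_23 at h
  rcases brec_true h with h | h
  · exact lS_good (T := T) (x := Lt.f) (by decide) hu [Lt.c, Lt.b, Lt.e, Lt.b, Lt.f, Lt.c, Lt.ei, Lt.f, Lt.b] (hole_at (rf_19 hinv hr) 9 rfl) h
  · exact lS_good (T := T) (x := Lt.f) (by decide) hu [Lt.c, Lt.e, Lt.b, Lt.ci, Lt.f, Lt.c, Lt.bi, Lt.c, Lt.e] (hole_at (rf_12 hinv hr) 8 rfl) h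
theorem dp_f_24_s (hinv : ∀ x, g (inv x) = (g x)⁻¹) (hr : ∀ r ∈ rels, (r.map g).prod = 1) (hH : ∀ r ∈ subs, (r.map g).prod ∈ H)
    (j u : ℕ) (hu : u < M) (h : dp_f_24 j u = true) : Good (fa g) T MG M (cP g H) Lt.f u := by
  unfold dp_f_24 at h
  rcases brec_true h with h | h
  · exact lF_good (T := T) (x := Lt.f) (by decide) [Lt.ci, Lt.e, Lt.b, Lt.e, Lt.fi, Lt.b, Lt.ci, Lt.e, Lt.bi] (hole_at (rf_11 hinv hr) 8 rfl) h
  · exact dp_f_23_s hinv hr hH j u hu h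
theorem dp_f_25_s (hinv : ∀ x, g (inv x) = (g x)⁻¹) (hr : ∀ r ∈ rels, (r.map g).prod = 1) (hH : ∀ r ∈ subs, (r.map g).prod ∈ H)
    (j u : ℕ) (hu : u < M) (h : dp_f_25 j u = true) : Good (fa g) T MG M (cP g H) Lt.f u := by
  unfold dp_f_25 at h
  rcases brec_true h with h | h
  · exact lS_good (T := T) (x := Lt.f) (by decide) hu [Lt.ei, Lt.bi, Lt.ei, Lt.c, Lt.fi, Lt.b, Lt.ei, Lt.c, Lt.bi] (hole_at (rb_11 hinv hr) 8 rfl) h
  · exact lF_good (T := T) (x := Lt.f) (by decide) [Lt.c, Lt.ei, Lt.f, Lt.b, Lt.f, Lt.c, Lt.b, Lt.e, Lt.b] (hole_at (rf_19 hinv hr) 4 rfl) h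
theorem dp_f_26_s (hinv : ∀ x, g (inv x) = (g x)⁻¹) (hr : ∀ r ∈ rels, (r.map g).prod = 1) (hH : ∀ r ∈ subs, (r.map g).prod ∈ H)
    (j u : ℕ) (hu : u < M) (h : dp_f_26 j u = true) : Good (fa g) T MG M (cP g H) Lt.f u := by
  unfold dp_f_26 at h
  rcases brec_true h with h | h
  · exact lS_good (T := T) (x := Lt.f) (by decide) hu [Lt.b, Lt.f, Lt.c, Lt.b, Lt.e, Lt.b, Lt.f, Lt.c, Lt.ei] (hole_at (rf_19 hinv hr) 7 rfl) h
  · exact lF_good (T := T) (x := Lt.f) (by decide) [Lt.c, Lt.fi, Lt.ei, Lt.ei, Lt.ci, Lt.f, Lt.ci, Lt.e, Lt.c] (hole_at (rb_10 hinv hr) 6 rfl) h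
theorem dp_f_27_s (hinv : ∀ x, g (inv x) = (g x)⁻¹) (hr : ∀ r ∈ rels, (r.map g).prod = 1) (hH : ∀ r ∈ subs, (r.map g).prod ∈ H)
    (j u : ℕ) (hu : u < M) (h : dp_f_27 j u = true) : Good (fa g) T MG M (cP g H) Lt.f u := by
  unfold dp_f_27 at h
  rcases brec_true h with h | h
  · exact dp_f_25_s hinv hr hH j u hu h
  · exact dp_f_26_s hinv hr hH j u hu h
theorem dp_f_28_s (hinv : ∀ x, g (inv x) = (g x)⁻¹) (hr : ∀ r ∈ rels, (r.map g).prod = 1) (hH : ∀ r ∈ subs, (r.map g).prod ∈ H)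
    (j u : ℕ) (hu : u < M) (h : dp_f_28 j u = true) : Good (fa g) T MG M (cP g H) Lt.f u := by
  unfold dp_f_28 at h
  rcases brec_true h with h | h
  · exact dp_f_24_s hinv hr hH j u hu h
  · exact dp_f_27_s hinv hr hH j u hu h
theorem dp_f_29_s (hinv : ∀ x, g (inv x) = (g x)⁻¹) (hr : ∀ r ∈ rels, (r.map g).prod = 1) (hH : ∀ r ∈ subs, (r.map g).prod ∈ H)
    (j u : ℕ) (hu : u < M) (h : dp_f_29 j u = true) : Good (fa g) T MG M (cP g H) Lt.f u := by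
  unfold dp_f_29 at h
  rcases brec_true h with h | h
  · exact dp_f_22_s hinv hr hH j u hu h
  · exact dp_f_28_s hinv hr hH j u hu h
theorem dp_f_30_s (hinv : ∀ x, g (inv x) = (g x)⁻¹) (hr : ∀ r ∈ rels, (r.map g).prod = 1) (hH : ∀ r ∈ subs, (r.map g).prod ∈ H)
    (j u : ℕ) (hu : u < M) (h : dp_f_30 j u = true) : Good (fa g) T MG M (cP g H) Lt.f u := by
  unfold dp_f_30 at h
  rcases brec_true h with h | h
  · exact lF_good (T := T) (x := Lt.f) (by decide) [Lt.ci, Lt.fi, Lt.ci, Lt.ei, Lt.c, Lt.fi, Lt.c, Lt.e, Lt.e] (hole_at (rf_10 hinv hr) 3 rfl) h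
  · exact lS_good (T := T) (x := Lt.f) (by decide) hu [Lt.ci, Lt.e, Lt.c, Lt.f, Lt.c, Lt.fi, Lt.ei, Lt.ei, Lt.ci] (hole_at (rb_10 hinv hr) 2 rfl) h
theorem dp_f_31_s (hinv : ∀ x, g (inv x) = (g x)⁻¹) (hr : ∀ r ∈ rels, (r.map g).prod = 1) (hH : ∀ r ∈ subs, (r.map g).prod ∈ H)
    (j u : ℕ) (hu : u < M) (h : dp_f_31 j u = true) : Good (fa g) T MG M (cP g H) Lt.f u := by
  unfold dp_f_31 at h
  rcases brec_true h with h | h
  · exact lS_good (T := T) (x := Lt.f) (by decide) hu [Lt.ci, Lt.fi, Lt.ci, Lt.ei, Lt.c, Lt.fi, Lt.c, Lt.e, Lt.e] (hole_at (rf_10 hinv hr) 3 rfl) h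
  · exact lF_good (T := T) (x := Lt.f) (by decide) [Lt.ei, Lt.ei, Lt.bi, Lt.ei, Lt.b, Lt.ci, Lt.f, Lt.c, Lt.f] (hole_at (rb_17 hinv hr) 7 rfl) h
theorem dp_f_32_s (hinv : ∀ x, g (inv x) = (g x)⁻¹) (hr : ∀ r ∈ rels, (r.map g).prod = 1) (hH : ∀ r ∈ subs, (r.map g).prod ∈ H)
    (j u : ℕ) (hu : u < M) (h : dp_f_32 j u = true) : Good (fa g) T MG M (cP g H) Lt.f u := by
  unfold dp_f_32 at h
  rcases brec_true h with h | h
  · exact dp_f_30_s hinv hr hH j u hu h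
  · exact dp_f_31_s hinv hr hH j u hu h
theorem dp_f_33_s (hinv : ∀ x, g (inv x) = (g x)⁻¹) (hr : ∀ r ∈ rels, (r.map g).prod = 1) (hH : ∀ r ∈ subs, (r.map g).prod ∈ H)
    (j u : ℕ) (hu : u < M) (h : dp_f_33 j u = true) : Good (fa g) T MG M (cP g H) Lt.f u := by
  unfold dp_f_33 at h
  rcases brec_true h with h | h
  · exact lS_good (T := T) (x := Lt.f) (by decide) hu [Lt.b, Lt.ei, Lt.b, Lt.ei, Lt.f, Lt.b, Lt.ei, Lt.b, Lt.ei] (hole_at (rf_9 hinv hr) 0 rfl) h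
  · exact lS_good (T := T) (x := Lt.f) (by decide) hu [Lt.e, Lt.c, Lt.b, Lt.ci, Lt.fi, Lt.b, Lt.fi, Lt.ei, Lt.ei] (hole_at (rf_18 hinv hr) 8 rfl) h
theorem dp_f_34_s (hinv : ∀ x, g (inv x) = (g x)⁻¹) (hr : ∀ r ∈ rels, (r.map g).prod = 1) (hH : ∀ r ∈ subs, (r.map g).prod ∈ H)
    (j u : ℕ) (hu : u < M) (h : dp_f_34 j u = true) : Good (fa g) T MG M (cP g H) Lt.f u := by
  unfold dp_f_34 at h
  rcases brec_true h with h | h
  · exact lF_good (T := T) (x := Lt.f) (by decide) [Lt.c, Lt.f, Lt.f, Lt.ci, Lt.f, Lt.c, Lt.f, Lt.f, Lt.ci] (hole_at (rf_13 hinv hr) 0 rfl) h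
  · exact lS_good (T := T) (x := Lt.f) (by decide) hu [Lt.bi, Lt.f, Lt.c, Lt.bi, Lt.ci, Lt.ei, Lt.fi, Lt.e, Lt.e] (hole_at (rb_18 hinv hr) 6 rfl) h
theorem dp_f_35_s (hinv : ∀ x, g (inv x) = (g x)⁻¹) (hr : ∀ r ∈ rels, (r.map g).prod = 1) (hH : ∀ r ∈ subs, (r.map g).prod ∈ H)
    (j u : ℕ) (hu : u < M) (h : dp_f_35 j u = true) : Good (fa g) T MG M (cP g H) Lt.f u := by
  unfold dp_f_35 at h
  rcases brec_true h with h | h
  · exact lF_good (T := T) (x := Lt.f) (by decide) [Lt.f, Lt.ei, Lt.ei, Lt.bi, Lt.ei, Lt.b, Lt.ci, Lt.f, Lt.c] (hole_at (rb_17 hinv hr) 6 rfl) h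
  · exact dp_f_34_s hinv hr hH j u hu h
theorem dp_f_36_s (hinv : ∀ x, g (inv x) = (g x)⁻¹) (hr : ∀ r ∈ rels, (r.map g).prod = 1) (hH : ∀ r ∈ subs, (r.map g).prod ∈ H)
    (j u : ℕ) (hu : u < M) (h : dp_f_36 j u = true) : Good (fa g) T MG M (cP g H) Lt.f u := by
  unfold dp_f_36 at h
  rcases brec_true h with h | h
  · exact dp_f_33_s hinv hr hH j u hu h
  · exact dp_f_35_s hinv hr hH j u hu h
theorem dp_f_37_s (hinv : ∀ x, g (inv x) = (g x)⁻¹) (hr : ∀ r ∈ rels, (r.map g).prod = 1) (hH : ∀ r ∈ subs, (r.map g).prod ∈ H)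
    (j u : ℕ) (hu : u < M) (h : dp_f_37 j u = true) : Good (fa g) T MG M (cP g H) Lt.f u := by
  unfold dp_f_37 at h
  rcases brec_true h with h | h
  · exact dp_f_32_s hinv hr hH j u hu h
  · exact dp_f_36_s hinv hr hH j u hu h
theorem dp_f_38_s (hinv : ∀ x, g (inv x) = (g x)⁻¹) (hr : ∀ r ∈ rels, (r.map g).prod = 1) (hH : ∀ r ∈ subs, (r.map g).prod ∈ H)
    (j u : ℕ) (hu : u < M) (h : dp_f_38 j u = true) : Good (fa g) T MG M (cP g H) Lt.f u := by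
  unfold dp_f_38 at h
  rcases brec_true h with h | h
  · exact lF_good (T := T) (x := Lt.f) (by decide) [Lt.f, Lt.ei, Lt.ci, Lt.fi, Lt.c, Lt.f, Lt.ci, Lt.ei, Lt.ci] (hole_at (rb_16 hinv hr) 2 rfl) h
  · exact lS_good (T := T) (x := Lt.f) (by decide) hu [Lt.ci, Lt.f, Lt.c, Lt.f, Lt.f, Lt.ci, Lt.f, Lt.c, Lt.f] (hole_at (rf_13 hinv hr) 3 rfl) h
theorem dp_f_39_s (hinv : ∀ x, g (inv x) = (g x)⁻¹) (hr : ∀ r ∈ rels, (r.map g).prod = 1) (hH : ∀ r ∈ subs, (r.map g).prod ∈ H)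
    (j u : ℕ) (hu : u < M) (h : dp_f_39 j u = true) : Good (fa g) T MG M (cP g H) Lt.f u := by
  unfold dp_f_39 at h
  rcases brec_true h with h | h
  · exact lS_good (T := T) (x := Lt.f) (by decide) hu [Lt.c, Lt.fi, Lt.ei, Lt.ei, Lt.ci, Lt.f, Lt.ci, Lt.e, Lt.c] (hole_at (rb_10 hinv hr) 6 rfl) h
  · exact dp_f_38_s hinv hr hH j u hu h
theorem dp_f_40_s (hinv : ∀ x, g (inv x) = (g x)⁻¹) (hr : ∀ r ∈ rels, (r.map g).prod = 1) (hH : ∀ r ∈ subs, (r.map g).prod ∈ H)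
    (j u : ℕ) (hu : u < M) (h : dp_f_40 j u = true) : Good (fa g) T MG M (cP g H) Lt.f u := by
  unfold dp_f_40 at h
  rcases brec_true h with h | h
  · exact lS_good (T := T) (x := Lt.f) (by decide) hu [Lt.f, Lt.ei, Lt.ci, Lt.fi, Lt.c, Lt.f, Lt.ci, Lt.ei, Lt.ci] (hole_at (rb_16 hinv hr) 2 rfl) h
  · exact lF_good (T := T) (x := Lt.f) (by decide) [Lt.f, Lt.ci, Lt.f, Lt.c, Lt.f, Lt.f, Lt.ci, Lt.f, Lt.c] (hole_at (rf_13 hinv hr) 2 rfl) h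
theorem dp_f_41_s (hinv : ∀ x, g (inv x) = (g x)⁻¹) (hr : ∀ r ∈ rels, (r.map g).prod = 1) (hH : ∀ r ∈ subs, (r.map g).prod ∈ H)
    (j u : ℕ) (hu : u < M) (h : dp_f_41 j u = true) : Good (fa g) T MG M (cP g H) Lt.f u := by
  unfold dp_f_41 at h
  rcases brec_true h with h | h
  · exact lS_good (T := T) (x := Lt.f) (by decide) hu [Lt.c, Lt.e, Lt.fi, Lt.fi, Lt.c, Lt.e, Lt.c, Lt.fi, Lt.ci] (hole_at (rf_16 hinv hr) 5 rfl) h
  · exact lF_good (T := T) (x := Lt.f) (by decide) [Lt.c, Lt.bi, Lt.ci, Lt.ei, Lt.fi, Lt.e, Lt.e, Lt.f, Lt.bi] (hole_at (rb_18 hinv hr) 8 rfl) h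
theorem dp_f_42_s (hinv : ∀ x, g (inv x) = (g x)⁻¹) (hr : ∀ r ∈ rels, (r.map g).prod = 1) (hH : ∀ r ∈ subs, (r.map g).prod ∈ H)
    (j u : ℕ) (hu : u < M) (h : dp_f_42 j u = true) : Good (fa g) T MG M (cP g H) Lt.f u := by
  unfold dp_f_42 at h
  rcases brec_true h with h | h
  · exact dp_f_40_s hinv hr hH j u hu h
  · exact dp_f_41_s hinv hr hH j u hu h
theorem dp_f_43_s (hinv : ∀ x, g (inv x) = (g x)⁻¹) (hr : ∀ r ∈ rels, (r.map g).prod = 1) (hH : ∀ r ∈ subs, (r.map g).prod ∈ H)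
    (j u : ℕ) (hu : u < M) (h : dp_f_43 j u = true) : Good (fa g) T MG M (cP g H) Lt.f u := by
  unfold dp_f_43 at h
  rcases brec_true h with h | h
  · exact dp_f_39_s hinv hr hH j u hu h
  · exact dp_f_42_s hinv hr hH j u hu h
theorem dp_f_44_s (hinv : ∀ x, g (inv x) = (g x)⁻¹) (hr : ∀ r ∈ rels, (r.map g).prod = 1) (hH : ∀ r ∈ subs, (r.map g).prod ∈ H)
    (j u : ℕ) (hu : u < M) (h : dp_f_44 j u = true) : Good (fa g) T MG M (cP g H) Lt.f u := by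
  unfold dp_f_44 at h
  rcases brec_true h with h | h
  · exact lS_good (T := T) (x := Lt.f) (by decide) hu [Lt.c, Lt.ei, Lt.f, Lt.b, Lt.f, Lt.c, Lt.b, Lt.e, Lt.b] (hole_at (rf_19 hinv hr) 4 rfl) h
  · exact lF_good (T := T) (x := Lt.f) (by decide) [Lt.ci, Lt.f, Lt.c, Lt.f, Lt.f, Lt.ci, Lt.f, Lt.c, Lt.f] (hole_at (rf_13 hinv hr) 3 rfl) h
theorem dp_f_45_s (hinv : ∀ x, g (inv x) = (g x)⁻¹) (hr : ∀ r ∈ rels, (r.map g).prod = 1) (hH : ∀ r ∈ subs, (r.map g).prod ∈ H)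
    (j u : ℕ) (hu : u < M) (h : dp_f_45 j u = true) : Good (fa g) T MG M (cP g H) Lt.f u := by
  unfold dp_f_45 at h
  rcases brec_true h with h | h
  · exact lH_good (T := T) (x := Lt.f) (by decide) [] [] (by rw [show cP g H 0 = _ from cc_zero]; exact sub_rel hinv (hH _ (by decide))) h
  · exact lS_good (T := T) (x := Lt.f) (by decide) hu [Lt.ci, Lt.ei, Lt.ci, Lt.f, Lt.f, Lt.ei, Lt.ci, Lt.fi, Lt.c] (hole_at (rb_16 hinv hr) 8 rfl) h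
theorem dp_f_46_s (hinv : ∀ x, g (inv x) = (g x)⁻¹) (hr : ∀ r ∈ rels, (r.map g).prod = 1) (hH : ∀ r ∈ subs, (r.map g).prod ∈ H)
    (j u : ℕ) (hu : u < M) (h : dp_f_46 j u = true) : Good (fa g) T MG M (cP g H) Lt.f u := by
  unfold dp_f_46 at h
  rcases brec_true h with h | h
  · exact lS_good (T := T) (x := Lt.f) (by decide) hu [Lt.c, Lt.bi, Lt.c, Lt.e, Lt.f, Lt.c, Lt.e, Lt.b, Lt.ci] (hole_at (rf_12 hinv hr) 3 rfl) h
  · exact dp_f_45_s hinv hr hH j u hu h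
theorem dp_f_47_s (hinv : ∀ x, g (inv x) = (g x)⁻¹) (hr : ∀ r ∈ rels, (r.map g).prod = 1) (hH : ∀ r ∈ subs, (r.map g).prod ∈ H)
    (j u : ℕ) (hu : u < M) (h : dp_f_47 j u = true) : Good (fa g) T MG M (cP g H) Lt.f u := by
  unfold dp_f_47 at h
  rcases brec_true h with h | h
  · exact dp_f_44_s hinv hr hH j u hu h
  · exact dp_f_46_s hinv hr hH j u hu h
theorem dp_f_48_s (hinv : ∀ x, g (inv x) = (g x)⁻¹) (hr : ∀ r ∈ rels, (r.map g).prod = 1) (hH : ∀ r ∈ subs, (r.map g).prod ∈ H)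
    (j u : ℕ) (hu : u < M) (h : dp_f_48 j u = true) : Good (fa g) T MG M (cP g H) Lt.f u := by
  unfold dp_f_48 at h
  rcases brec_true h with h | h
  · exact lS_good (T := T) (x := Lt.f) (by decide) hu [Lt.f, Lt.ei, Lt.ei, Lt.bi, Lt.ei, Lt.b, Lt.ci, Lt.f, Lt.c] (hole_at (rb_17 hinv hr) 6 rfl) h
  · exact lS_good (T := T) (x := Lt.f) (by decide) hu [Lt.c, Lt.f, Lt.f, Lt.ei, Lt.ei, Lt.bi, Lt.ei, Lt.b, Lt.ci] (hole_at (rb_17 hinv hr) 4 rfl) h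
theorem dp_f_49_s (hinv : ∀ x, g (inv x) = (g x)⁻¹) (hr : ∀ r ∈ rels, (r.map g).prod = 1) (hH : ∀ r ∈ subs, (r.map g).prod ∈ H)
    (j u : ℕ) (hu : u < M) (h : dp_f_49 j u = true) : Good (fa g) T MG M (cP g H) Lt.f u := by
  unfold dp_f_49 at h
  rcases brec_true h with h | h
  · exact lS_good (T := T) (x := Lt.f) (by decide) hu [Lt.e, Lt.f, Lt.e, Lt.bi, Lt.fi, Lt.d, Lt.c, Lt.di, Lt.f, Lt.b, Lt.ei, Lt.bi] (hole_at (rb_20 hinv hr) 5 rfl) h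
  · exact lS_good (T := T) (x := Lt.f) (by decide) hu [Lt.b, Lt.ei, Lt.bi, Lt.f, Lt.e, Lt.f, Lt.e, Lt.bi, Lt.fi, Lt.d, Lt.c, Lt.di] (hole_at (rb_20 hinv hr) 1 rfl) h
theorem dp_f_50_s (hinv : ∀ x, g (inv x) = (g x)⁻¹) (hr : ∀ r ∈ rels, (r.map g).prod = 1) (hH : ∀ r ∈ subs, (r.map g).prod ∈ H)
    (j u : ℕ) (hu : u < M) (h : dp_f_50 j u = true) : Good (fa g) T MG M (cP g H) Lt.f u := by
  unfold dp_f_50 at h
  rcases brec_true h with h | h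
  · exact dp_f_48_s hinv hr hH j u hu h
  · exact dp_f_49_s hinv hr hH j u hu h
theorem dp_f_51_s (hinv : ∀ x, g (inv x) = (g x)⁻¹) (hr : ∀ r ∈ rels, (r.map g).prod = 1) (hH : ∀ r ∈ subs, (r.map g).prod ∈ H)
    (j u : ℕ) (hu : u < M) (h : dp_f_51 j u = true) : Good (fa g) T MG M (cP g H) Lt.f u := by
  unfold dp_f_51 at h
  rcases brec_true h with h | h
  · exact lS_good (T := T) (x := Lt.f) (by decide) hu [Lt.c, Lt.bi, Lt.ci, Lt.ei, Lt.fi, Lt.e, Lt.e, Lt.f, Lt.bi] (hole_at (rb_18 hinv hr) 8 rfl) h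
  · exact lF_good (T := T) (x := Lt.f) (by decide) [Lt.e, Lt.f, Lt.e, Lt.bi, Lt.fi, Lt.d, Lt.c, Lt.di, Lt.f, Lt.b, Lt.ei, Lt.bi] (hole_at (rb_20 hinv hr) 5 rfl) h
theorem dp_f_52_s (hinv : ∀ x, g (inv x) = (g x)⁻¹) (hr : ∀ r ∈ rels, (r.map g).prod = 1) (hH : ∀ r ∈ subs, (r.map g).prod ∈ H)
    (j u : ℕ) (hu : u < M) (h : dp_f_52 j u = true) : Good (fa g) T MG M (cP g H) Lt.f u := by
  unfold dp_f_52 at h
  rcases brec_true h with h | h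
  · exact lF_good (T := T) (x := Lt.f) (by decide) [Lt.b, Lt.d, Lt.bi, Lt.fi, Lt.d, Lt.ei, Lt.bi, Lt.di, Lt.f, Lt.f, Lt.bi, Lt.d, Lt.b, Lt.fi, Lt.fi, Lt.d, Lt.b, Lt.e, Lt.di] (hole_at (rf_21 hinv hr) 18 rfl) h
  · exact lS_good (T := T) (x := Lt.f) (by decide) hu [Lt.ci, Lt.e, Lt.b, Lt.e, Lt.fi, Lt.b, Lt.ci, Lt.e, Lt.bi] (hole_at (rf_11 hinv hr) 8 rfl) h
theorem dp_f_53_s (hinv : ∀ x, g (inv x) = (g x)⁻¹) (hr : ∀ r ∈ rels, (r.map g).prod = 1) (hH : ∀ r ∈ subs, (r.map g).prod ∈ H)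
    (j u : ℕ) (hu : u < M) (h : dp_f_53 j u = true) : Good (fa g) T MG M (cP g H) Lt.f u := by
  unfold dp_f_53 at h
  rcases brec_true h with h | h
  · exact dp_f_51_s hinv hr hH j u hu h
  · exact dp_f_52_s hinv hr hH j u hu h
theorem dp_f_54_s (hinv : ∀ x, g (inv x) = (g x)⁻¹) (hr : ∀ r ∈ rels, (r.map g).prod = 1) (hH : ∀ r ∈ subs, (r.map g).prod ∈ H)
    (j u : ℕ) (hu : u < M) (h : dp_f_54 j u = true) : Good (fa g) T MG M (cP g H) Lt.f u := by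
  unfold dp_f_54 at h
  rcases brec_true h with h | h
  · exact dp_f_50_s hinv hr hH j u hu h
  · exact dp_f_53_s hinv hr hH j u hu h
theorem dp_f_55_s (hinv : ∀ x, g (inv x) = (g x)⁻¹) (hr : ∀ r ∈ rels, (r.map g).prod = 1) (hH : ∀ r ∈ subs, (r.map g).prod ∈ H)
    (j u : ℕ) (hu : u < M) (h : dp_f_55 j u = true) : Good (fa g) T MG M (cP g H) Lt.f u := by
  unfold dp_f_55 at h
  rcases brec_true h with h | h
  · exact dp_f_47_s hinv hr hH j u hu h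
  · exact dp_f_54_s hinv hr hH j u hu h
theorem dp_f_56_s (hinv : ∀ x, g (inv x) = (g x)⁻¹) (hr : ∀ r ∈ rels, (r.map g).prod = 1) (hH : ∀ r ∈ subs, (r.map g).prod ∈ H)
    (j u : ℕ) (hu : u < M) (h : dp_f_56 j u = true) : Good (fa g) T MG M (cP g H) Lt.f u := by
  unfold dp_f_56 at h
  rcases brec_true h with h | h
  · exact dp_f_43_s hinv hr hH j u hu h
  · exact dp_f_55_s hinv hr hH j u hu h
theorem dp_f_57_s (hinv : ∀ x, g (inv x) = (g x)⁻¹) (hr : ∀ r ∈ rels, (r.map g).prod = 1) (hH : ∀ r ∈ subs, (r.map g).prod ∈ H)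
    (j u : ℕ) (hu : u < M) (h : dp_f_57 j u = true) : Good (fa g) T MG M (cP g H) Lt.f u := by
  unfold dp_f_57 at h
  rcases brec_true h with h | h
  · exact dp_f_37_s hinv hr hH j u hu h
  · exact dp_f_56_s hinv hr hH j u hu h
theorem dp_f_58_s (hinv : ∀ x, g (inv x) = (g x)⁻¹) (hr : ∀ r ∈ rels, (r.map g).prod = 1) (hH : ∀ r ∈ subs, (r.map g).prod ∈ H)
    (j u : ℕ) (hu : u < M) (h : dp_f_58 j u = true) : Good (fa g) T MG M (cP g H) Lt.f u := by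
  unfold dp_f_58 at h
  rcases brec_true h with h | h
  · exact dp_f_29_s hinv hr hH j u hu h
  · exact dp_f_57_s hinv hr hH j u hu h
theorem dp_f_59_s (hinv : ∀ x, g (inv x) = (g x)⁻¹) (hr : ∀ r ∈ rels, (r.map g).prod = 1) (hH : ∀ r ∈ subs, (r.map g).prod ∈ H)
    (j u : ℕ) (hu : u < M) (h : dp_f_59 j u = true) : Good (fa g) T MG M (cP g H) Lt.f u := by
  unfold dp_f_59 at h
  rcases brec_true h with h | h
  · exact dp_f_18_s hinv hr hH j u hu h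
  · exact dp_f_58_s hinv hr hH j u hu h
theorem dp_f_60_s (hinv : ∀ x, g (inv x) = (g x)⁻¹) (hr : ∀ r ∈ rels, (r.map g).prod = 1) (hH : ∀ r ∈ subs, (r.map g).prod ∈ H)
    (j u : ℕ) (hu : u < M) (h : dp_f_60 j u = true) : Good (fa g) T MG M (cP g H) Lt.f u := by
  unfold dp_f_60 at h
  rcases brec_true h with h | h
  · exact dp_f_6_s hinv hr hH j u hu h
  · exact dp_f_59_s hinv hr hH j u hu h
theorem dp_f_61_s (hinv : ∀ x, g (inv x) = (g x)⁻¹) (hr : ∀ r ∈ rels, (r.map g).prod = 1) (hH : ∀ r ∈ subs, (r.map g).prod ∈ H)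
    (j u : ℕ) (hu : u < M) (h : dp_f_61 j u = true) : Good (fa g) T MG M (cP g H) Lt.f u := by
  unfold dp_f_61 at h
  rcases brec_true h with h | h
  · exact dp_f_1_s hinv hr hH j u hu h
  · exact dp_f_60_s hinv hr hH j u hu h
theorem dp_f_62_s (hinv : ∀ x, g (inv x) = (g x)⁻¹) (hr : ∀ r ∈ rels, (r.map g).prod = 1) (hH : ∀ r ∈ subs, (r.map g).prod ∈ H)
    (j u : ℕ) (hu : u < M) (h : dp_f_62 j u = true) : Good (fa g) T MG M (cP g H) Lt.f u := by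
  unfold dp_f_62 at h
  rcases brec_true h with h | h
  · rcases brec_true h with h | h
    · exact lDef_good (T := T) (x := Lt.f) (by decide) rfl h
    · exact lPar_good (T := T) (x := Lt.f) (x' := Lt.fi) (by decide) rfl (inv_rel hinv _ _ rfl) h
  · exact dp_f_61_s hinv hr hH j u hu h
theorem snd_f (hinv : ∀ x, g (inv x) = (g x)⁻¹) (hr : ∀ r ∈ rels, (r.map g).prod = 1) (hH : ∀ r ∈ subs, (r.map g).prod ∈ H)
    (j u : ℕ) (hu : u < M) (h : disp_f j u = true) : Good (fa g) T MG M (cP g H) Lt.f u := by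
  unfold disp_f at h
  rcases brec_true h with h | h
  · rcases brec_true h with h | h
    · exact lF1_good (T := T) (x := Lt.f) (by decide) .fi (hole_at (rf_28 hinv hr) 1 rfl) h
    · exact lF3_good (T := T) (x := Lt.f) (by decide) .di .ei .d (hole_at (rb_4 hinv hr) 3 rfl) h
  · exact dp_f_62_s hinv hr hH j u hu h
theorem snc_f (hinv : ∀ x, g (inv x) = (g x)⁻¹) (hr : ∀ r ∈ rels, (r.map g).prod = 1) (hH : ∀ r ∈ subs, (r.map g).prod ∈ H)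
    (j u : ℕ) (hu : u < M) (h : chk_f j u = true) : (T Lt.f u < A ∧ Good (fa g) T MG M (cP g H) Lt.f u) ∨ (A ≤ T Lt.f u ∧ MG u < A) := by
  unfold chk_f at h
  cases hb : Nat.ble A (T_f u) with
  | true => rw [hb] at h; exact Or.inr ⟨le_of_ble hb, le_of_ble h⟩
  | false => rw [hb] at h; exact Or.inl ⟨lt_of_ble_false hb, snd_f hinv hr hH j u hu h⟩
theorem dp_fi_0_s (hinv : ∀ x, g (inv x) = (g x)⁻¹) (hr : ∀ r ∈ rels, (r.map g).prod = 1) (hH : ∀ r ∈ subs, (r.map g).prod ∈ H)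
    (j u : ℕ) (hu : u < M) (h : dp_fi_0 j u = true) : Good (fa g) T MG M (cP g H) Lt.fi u := by
  unfold dp_fi_0 at h
  rcases brec_true h with h | h
  · exact lF_good (T := T) (x := Lt.fi) (by decide) [Lt.fi, Lt.fi, Lt.fi, Lt.fi] (hole_at (rb_6 hinv hr) 0 rfl) h
  · exact lF_good (T := T) (x := Lt.fi) (by decide) [Lt.b, Lt.c, Lt.b, Lt.ei, Lt.fi, Lt.ei, Lt.c, Lt.bi] (hole_at (rf_7 hinv hr) 7 rfl) h
theorem dp_fi_1_s (hinv : ∀ x, g (inv x) = (g x)⁻¹) (hr : ∀ r ∈ rels, (r.map g).prod = 1) (hH : ∀ r ∈ subs, (r.map g).prod ∈ H)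
    (j u : ℕ) (hu : u < M) (h : dp_fi_1 j u = true) : Good (fa g) T MG M (cP g H) Lt.fi u := by
  unfold dp_fi_1 at h
  rcases brec_true h with h | h
  · exact lS_good (T := T) (x := Lt.fi) (by decide) hu [Lt.f] (hole_at (rf_28 hinv hr) 0 rfl) h
  · exact lF_good (T := T) (x := Lt.fi) (by decide) [Lt.ei, Lt.c, Lt.bi, Lt.fi, Lt.b, Lt.c, Lt.b, Lt.ei] (hole_at (rf_7 hinv hr) 3 rfl) h
theorem dp_fi_2_s (hinv : ∀ x, g (inv x) = (g x)⁻¹) (hr : ∀ r ∈ rels, (r.map g).prod = 1) (hH : ∀ r ∈ subs, (r.map g).prod ∈ H)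
    (j u : ℕ) (hu : u < M) (h : dp_fi_2 j u = true) : Good (fa g) T MG M (cP g H) Lt.fi u := by
  unfold dp_fi_2 at h
  rcases brec_true h with h | h
  · exact lS_good (T := T) (x := Lt.fi) (by decide) hu [Lt.ei, Lt.c, Lt.bi, Lt.fi, Lt.b, Lt.c, Lt.b, Lt.ei] (hole_at (rf_7 hinv hr) 3 rfl) h
  · exact lF_good (T := T) (x := Lt.fi) (by decide) [Lt.e, Lt.f, Lt.ei, Lt.bi, Lt.e, Lt.b, Lt.ei, Lt.bi, Lt.c] (hole_at (rb_15 hinv hr) 2 rfl) h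
theorem dp_fi_3_s (hinv : ∀ x, g (inv x) = (g x)⁻¹) (hr : ∀ r ∈ rels, (r.map g).prod = 1) (hH : ∀ r ∈ subs, (r.map g).prod ∈ H)
    (j u : ℕ) (hu : u < M) (h : dp_fi_3 j u = true) : Good (fa g) T MG M (cP g H) Lt.fi u := by
  unfold dp_fi_3 at h
  rcases brec_true h with h | h
  · exact lS_good (T := T) (x := Lt.fi) (by decide) hu [Lt.di, Lt.e, Lt.d] (hole_at (rf_4 hinv hr) 2 rfl) h
  · exact dp_fi_2_s hinv hr hH j u hu h
theorem dp_fi_4_s (hinv : ∀ x, g (inv x) = (g x)⁻¹) (hr : ∀ r ∈ rels, (r.map g).prod = 1) (hH : ∀ r ∈ subs, (r.map g).prod ∈ H)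
    (j u : ℕ) (hu : u < M) (h : dp_fi_4 j u = true) : Good (fa g) T MG M (cP g H) Lt.fi u := by
  unfold dp_fi_4 at h
  rcases brec_true h with h | h
  · exact lF_good (T := T) (x := Lt.fi) (by decide) [Lt.e, Lt.bi, Lt.e, Lt.bi, Lt.fi, Lt.e, Lt.bi, Lt.e, Lt.bi] (hole_at (rb_9 hinv hr) 1 rfl) h
  · exact lF_good (T := T) (x := Lt.fi) (by decide) [Lt.ei, Lt.f, Lt.ci, Lt.b, Lt.e, Lt.bi, Lt.ei, Lt.b, Lt.e] (hole_at (rf_15 hinv hr) 7 rfl) h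
theorem dp_fi_5_s (hinv : ∀ x, g (inv x) = (g x)⁻¹) (hr : ∀ r ∈ rels, (r.map g).prod = 1) (hH : ∀ r ∈ subs, (r.map g).prod ∈ H)
    (j u : ℕ) (hu : u < M) (h : dp_fi_5 j u = true) : Good (fa g) T MG M (cP g H) Lt.fi u := by
  unfold dp_fi_5 at h
  rcases brec_true h with h | h
  · exact lS_good (T := T) (x := Lt.fi) (by decide) hu [Lt.b, Lt.c, Lt.b, Lt.ei, Lt.fi, Lt.ei, Lt.c, Lt.bi] (hole_at (rf_7 hinv hr) 7 rfl) h
  · exact dp_fi_4_s hinv hr hH j u hu h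
theorem dp_fi_6_s (hinv : ∀ x, g (inv x) = (g x)⁻¹) (hr : ∀ r ∈ rels, (r.map g).prod = 1) (hH : ∀ r ∈ subs, (r.map g).prod ∈ H)
    (j u : ℕ) (hu : u < M) (h : dp_fi_6 j u = true) : Good (fa g) T MG M (cP g H) Lt.fi u := by
  unfold dp_fi_6 at h
  rcases brec_true h with h | h
  · exact lF_good (T := T) (x := Lt.fi) (by decide) [Lt.c, Lt.e, Lt.c, Lt.fi, Lt.ci, Lt.f, Lt.c, Lt.e, Lt.fi] (hole_at (rf_16 hinv hr) 9 rfl) h
  · exact lF_good (T := T) (x := Lt.fi) (by decide) [Lt.e, Lt.ci, Lt.fi, Lt.bi, Lt.ei, Lt.bi, Lt.ci, Lt.fi, Lt.bi] (hole_at (rb_19 hinv hr) 4 rfl) h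
theorem dp_fi_7_s (hinv : ∀ x, g (inv x) = (g x)⁻¹) (hr : ∀ r ∈ rels, (r.map g).prod = 1) (hH : ∀ r ∈ subs, (r.map g).prod ∈ H)
    (j u : ℕ) (hu : u < M) (h : dp_fi_7 j u = true) : Good (fa g) T MG M (cP g H) Lt.fi u := by
  unfold dp_fi_7 at h
  rcases brec_true h with h | h
  · exact lS_good (T := T) (x := Lt.fi) (by decide) hu [Lt.fi, Lt.fi, Lt.fi, Lt.fi] (hole_at (rb_6 hinv hr) 0 rfl) h
  · exact dp_fi_6_s hinv hr hH j u hu h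
theorem dp_fi_8_s (hinv : ∀ x, g (inv x) = (g x)⁻¹) (hr : ∀ r ∈ rels, (r.map g).prod = 1) (hH : ∀ r ∈ subs, (r.map g).prod ∈ H)
    (j u : ℕ) (hu : u < M) (h : dp_fi_8 j u = true) : Good (fa g) T MG M (cP g H) Lt.fi u := by
  unfold dp_fi_8 at h
  rcases brec_true h with h | h
  · exact dp_fi_5_s hinv hr hH j u hu h
  · exact dp_fi_7_s hinv hr hH j u hu h
theorem dp_fi_9_s (hinv : ∀ x, g (inv x) = (g x)⁻¹) (hr : ∀ r ∈ rels, (r.map g).prod = 1) (hH : ∀ r ∈ subs, (r.map g).prod ∈ H)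
    (j u : ℕ) (hu : u < M) (h : dp_fi_9 j u = true) : Good (fa g) T MG M (cP g H) Lt.fi u := by
  unfold dp_fi_9 at h
  rcases brec_true h with h | h
  · exact dp_fi_3_s hinv hr hH j u hu h
  · exact dp_fi_8_s hinv hr hH j u hu h
theorem dp_fi_10_s (hinv : ∀ x, g (inv x) = (g x)⁻¹) (hr : ∀ r ∈ rels, (r.map g).prod = 1) (hH : ∀ r ∈ subs, (r.map g).prod ∈ H)
    (j u : ℕ) (hu : u < M) (h : dp_fi_10 j u = true) : Good (fa g) T MG M (cP g H) Lt.fi u := by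
  unfold dp_fi_10 at h
  rcases brec_true h with h | h
  · exact lF_good (T := T) (x := Lt.fi) (by decide) [Lt.c, Lt.e, Lt.e, Lt.f, Lt.ci, Lt.fi, Lt.ci, Lt.ei, Lt.c] (hole_at (rf_10 hinv hr) 9 rfl) h
  · exact lF_good (T := T) (x := Lt.fi) (by decide) [Lt.ei, Lt.ci, Lt.b, Lt.ci, Lt.fi, Lt.c, Lt.bi, Lt.ei, Lt.ci] (hole_at (rb_12 hinv hr) 3 rfl) h
theorem dp_fi_11_s (hinv : ∀ x, g (inv x) = (g x)⁻¹) (hr : ∀ r ∈ rels, (r.map g).prod = 1) (hH : ∀ r ∈ subs, (r.map g).prod ∈ H)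
    (j u : ℕ) (hu : u < M) (h : dp_fi_11 j u = true) : Good (fa g) T MG M (cP g H) Lt.fi u := by
  unfold dp_fi_11 at h
  rcases brec_true h with h | h
  · exact lF_good (T := T) (x := Lt.fi) (by decide) [Lt.b, Lt.ci, Lt.e, Lt.bi, Lt.f, Lt.ci, Lt.e, Lt.b, Lt.e] (hole_at (rf_11 hinv hr) 3 rfl) h
  · exact lF_good (T := T) (x := Lt.fi) (by decide) [Lt.b, Lt.ei, Lt.c, Lt.bi, Lt.f, Lt.ei, Lt.bi, Lt.ei, Lt.c] (hole_at (rb_11 hinv hr) 3 rfl) h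
theorem dp_fi_12_s (hinv : ∀ x, g (inv x) = (g x)⁻¹) (hr : ∀ r ∈ rels, (r.map g).prod = 1) (hH : ∀ r ∈ subs, (r.map g).prod ∈ H)
    (j u : ℕ) (hu : u < M) (h : dp_fi_12 j u = true) : Good (fa g) T MG M (cP g H) Lt.fi u := by
  unfold dp_fi_12 at h
  rcases brec_true h with h | h
  · exact lF_good (T := T) (x := Lt.fi) (by decide) [Lt.bi, Lt.fi, Lt.e, Lt.ci, Lt.fi, Lt.bi, Lt.ei, Lt.bi, Lt.ci] (hole_at (rb_19 hinv hr) 2 rfl) h
  · exact dp_fi_11_s hinv hr hH j u hu h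
theorem dp_fi_13_s (hinv : ∀ x, g (inv x) = (g x)⁻¹) (hr : ∀ r ∈ rels, (r.map g).prod = 1) (hH : ∀ r ∈ subs, (r.map g).prod ∈ H)
    (j u : ℕ) (hu : u < M) (h : dp_fi_13 j u = true) : Good (fa g) T MG M (cP g H) Lt.fi u := by
  unfold dp_fi_13 at h
  rcases brec_true h with h | h
  · exact dp_fi_10_s hinv hr hH j u hu h
  · exact dp_fi_12_s hinv hr hH j u hu h
theorem dp_fi_14_s (hinv : ∀ x, g (inv x) = (g x)⁻¹) (hr : ∀ r ∈ rels, (r.map g).prod = 1) (hH : ∀ r ∈ subs, (r.map g).prod ∈ H)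
    (j u : ℕ) (hu : u < M) (h : dp_fi_14 j u = true) : Good (fa g) T MG M (cP g H) Lt.fi u := by
  unfold dp_fi_14 at h
  rcases brec_true h with h | h
  · exact lF_good (T := T) (x := Lt.fi) (by decide) [Lt.ei, Lt.ei, Lt.f, Lt.e, Lt.c, Lt.b, Lt.ci, Lt.fi, Lt.b] (hole_at (rf_18 hinv hr) 5 rfl) h
  · exact lS_good (T := T) (x := Lt.fi) (by decide) hu [Lt.ei, Lt.ci, Lt.b, Lt.ci, Lt.fi, Lt.c, Lt.bi, Lt.ei, Lt.ci] (hole_at (rb_12 hinv hr) 3 rfl) h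
theorem dp_fi_15_s (hinv : ∀ x, g (inv x) = (g x)⁻¹) (hr : ∀ r ∈ rels, (r.map g).prod = 1) (hH : ∀ r ∈ subs, (r.map g).prod ∈ H)
    (j u : ℕ) (hu : u < M) (h : dp_fi_15 j u = true) : Good (fa g) T MG M (cP g H) Lt.fi u := by
  unfold dp_fi_15 at h
  rcases brec_true h with h | h
  · exact lS_good (T := T) (x := Lt.fi) (by decide) hu [Lt.b, Lt.ci, Lt.e, Lt.bi, Lt.f, Lt.ci, Lt.e, Lt.b, Lt.e] (hole_at (rf_11 hinv hr) 3 rfl) h
  · exact lS_good (T := T) (x := Lt.fi) (by decide) hu [Lt.e, Lt.f, Lt.ei, Lt.bi, Lt.e, Lt.b, Lt.ei, Lt.bi, Lt.c] (hole_at (rb_15 hinv hr) 2 rfl) h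
theorem dp_fi_16_s (hinv : ∀ x, g (inv x) = (g x)⁻¹) (hr : ∀ r ∈ rels, (r.map g).prod = 1) (hH : ∀ r ∈ subs, (r.map g).prod ∈ H)
    (j u : ℕ) (hu : u < M) (h : dp_fi_16 j u = true) : Good (fa g) T MG M (cP g H) Lt.fi u := by
  unfold dp_fi_16 at h
  rcases brec_true h with h | h
  · exact dp_fi_14_s hinv hr hH j u hu h
  · exact dp_fi_15_s hinv hr hH j u hu h
theorem dp_fi_17_s (hinv : ∀ x, g (inv x) = (g x)⁻¹) (hr : ∀ r ∈ rels, (r.map g).prod = 1) (hH : ∀ r ∈ subs, (r.map g).prod ∈ H)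
    (j u : ℕ) (hu : u < M) (h : dp_fi_17 j u = true) : Good (fa g) T MG M (cP g H) Lt.fi u := by
  unfold dp_fi_17 at h
  rcases brec_true h with h | h
  · exact lF_good (T := T) (x := Lt.fi) (by decide) [Lt.c, Lt.fi, Lt.fi, Lt.ci, Lt.fi, Lt.c, Lt.fi, Lt.fi, Lt.ci] (hole_at (rb_13 hinv hr) 1 rfl) h
  · exact lS_good (T := T) (x := Lt.fi) (by decide) hu [Lt.e, Lt.bi, Lt.e, Lt.bi, Lt.fi, Lt.e, Lt.bi, Lt.e, Lt.bi] (hole_at (rb_9 hinv hr) 1 rfl) h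
theorem dp_fi_18_s (hinv : ∀ x, g (inv x) = (g x)⁻¹) (hr : ∀ r ∈ rels, (r.map g).prod = 1) (hH : ∀ r ∈ subs, (r.map g).prod ∈ H)
    (j u : ℕ) (hu : u < M) (h : dp_fi_18 j u = true) : Good (fa g) T MG M (cP g H) Lt.fi u := by
  unfold dp_fi_18 at h
  rcases brec_true h with h | h
  · exact lF_good (T := T) (x := Lt.fi) (by decide) [Lt.e, Lt.e, Lt.f, Lt.bi, Lt.f, Lt.c, Lt.bi, Lt.ci, Lt.ei] (hole_at (rb_18 hinv hr) 3 rfl) h
  · exact lS_good (T := T) (x := Lt.fi) (by decide) hu [Lt.ei, Lt.f, Lt.ci, Lt.b, Lt.e, Lt.bi, Lt.ei, Lt.b, Lt.e] (hole_at (rf_15 hinv hr) 7 rfl) h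
theorem dp_fi_19_s (hinv : ∀ x, g (inv x) = (g x)⁻¹) (hr : ∀ r ∈ rels, (r.map g).prod = 1) (hH : ∀ r ∈ subs, (r.map g).prod ∈ H)
    (j u : ℕ) (hu : u < M) (h : dp_fi_19 j u = true) : Good (fa g) T MG M (cP g H) Lt.fi u := by
  unfold dp_fi_19 at h
  rcases brec_true h with h | h
  · exact dp_fi_17_s hinv hr hH j u hu h
  · exact dp_fi_18_s hinv hr hH j u hu h
theorem dp_fi_20_s (hinv : ∀ x, g (inv x) = (g x)⁻¹) (hr : ∀ r ∈ rels, (r.map g).prod = 1) (hH : ∀ r ∈ subs, (r.map g).prod ∈ H)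
    (j u : ℕ) (hu : u < M) (h : dp_fi_20 j u = true) : Good (fa g) T MG M (cP g H) Lt.fi u := by
  unfold dp_fi_20 at h
  rcases brec_true h with h | h
  · exact dp_fi_16_s hinv hr hH j u hu h
  · exact dp_fi_19_s hinv hr hH j u hu h
theorem dp_fi_21_s (hinv : ∀ x, g (inv x) = (g x)⁻¹) (hr : ∀ r ∈ rels, (r.map g).prod = 1) (hH : ∀ r ∈ subs, (r.map g).prod ∈ H)
    (j u : ℕ) (hu : u < M) (h : dp_fi_21 j u = true) : Good (fa g) T MG M (cP g H) Lt.fi u := by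
  unfold dp_fi_21 at h
  rcases brec_true h with h | h
  · exact dp_fi_13_s hinv hr hH j u hu h
  · exact dp_fi_20_s hinv hr hH j u hu h
theorem dp_fi_22_s (hinv : ∀ x, g (inv x) = (g x)⁻¹) (hr : ∀ r ∈ rels, (r.map g).prod = 1) (hH : ∀ r ∈ subs, (r.map g).prod ∈ H)
    (j u : ℕ) (hu : u < M) (h : dp_fi_22 j u = true) : Good (fa g) T MG M (cP g H) Lt.fi u := by
  unfold dp_fi_22 at h
  rcases brec_true h with h | h
  · exact lS_good (T := T) (x := Lt.fi) (by decide) hu [Lt.ci, Lt.ei, Lt.c, Lt.fi, Lt.c, Lt.e, Lt.e, Lt.f, Lt.ci] (hole_at (rf_10 hinv hr) 5 rfl) h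
  · exact lS_good (T := T) (x := Lt.fi) (by decide) hu [Lt.ei, Lt.ei, Lt.f, Lt.e, Lt.c, Lt.b, Lt.ci, Lt.fi, Lt.b] (hole_at (rf_18 hinv hr) 5 rfl) h
theorem dp_fi_23_s (hinv : ∀ x, g (inv x) = (g x)⁻¹) (hr : ∀ r ∈ rels, (r.map g).prod = 1) (hH : ∀ r ∈ subs, (r.map g).prod ∈ H)
    (j u : ℕ) (hu : u < M) (h : dp_fi_23 j u = true) : Good (fa g) T MG M (cP g H) Lt.fi u := by
  unfold dp_fi_23 at h
  rcases brec_true h with h | h
  · exact lS_good (T := T) (x := Lt.fi) (by decide) hu [Lt.e, Lt.ci, Lt.fi, Lt.bi, Lt.ei, Lt.bi, Lt.ci, Lt.fi, Lt.bi] (hole_at (rb_19 hinv hr) 4 rfl) h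
  · exact lS_good (T := T) (x := Lt.fi) (by decide) hu [Lt.c, Lt.e, Lt.c, Lt.fi, Lt.ci, Lt.f, Lt.c, Lt.e, Lt.fi] (hole_at (rf_16 hinv hr) 9 rfl) h
theorem dp_fi_24_s (hinv : ∀ x, g (inv x) = (g x)⁻¹) (hr : ∀ r ∈ rels, (r.map g).prod = 1) (hH : ∀ r ∈ subs, (r.map g).prod ∈ H)
    (j u : ℕ) (hu : u < M) (h : dp_fi_24 j u = true) : Good (fa g) T MG M (cP g H) Lt.fi u := by
  unfold dp_fi_24 at h
  rcases brec_true h with h | h
  · exact lF_good (T := T) (x := Lt.fi) (by decide) [Lt.b, Lt.fi, Lt.ei, Lt.ei, Lt.f, Lt.e, Lt.c, Lt.b, Lt.ci] (hole_at (rf_18 hinv hr) 3 rfl) h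
  · exact dp_fi_23_s hinv hr hH j u hu h
theorem dp_fi_25_s (hinv : ∀ x, g (inv x) = (g x)⁻¹) (hr : ∀ r ∈ rels, (r.map g).prod = 1) (hH : ∀ r ∈ subs, (r.map g).prod ∈ H)
    (j u : ℕ) (hu : u < M) (h : dp_fi_25 j u = true) : Good (fa g) T MG M (cP g H) Lt.fi u := by
  unfold dp_fi_25 at h
  rcases brec_true h with h | h
  · exact dp_fi_22_s hinv hr hH j u hu h
  · exact dp_fi_24_s hinv hr hH j u hu h
theorem dp_fi_26_s (hinv : ∀ x, g (inv x) = (g x)⁻¹) (hr : ∀ r ∈ rels, (r.map g).prod = 1) (hH : ∀ r ∈ subs, (r.map g).prod ∈ H)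
    (j u : ℕ) (hu : u < M) (h : dp_fi_26 j u = true) : Good (fa g) T MG M (cP g H) Lt.fi u := by
  unfold dp_fi_26 at h
  rcases brec_true h with h | h
  · exact lF_good (T := T) (x := Lt.fi) (by decide) [Lt.ci, Lt.fi, Lt.c, Lt.fi, Lt.fi, Lt.ci, Lt.fi, Lt.c, Lt.fi] (hole_at (rb_13 hinv hr) 4 rfl) h
  · exact lF_good (T := T) (x := Lt.fi) (by decide) [Lt.c, Lt.bi, Lt.ei, Lt.ci, Lt.fi, Lt.ei, Lt.ci, Lt.b, Lt.ci] (hole_at (rb_12 hinv hr) 8 rfl) h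
theorem dp_fi_27_s (hinv : ∀ x, g (inv x) = (g x)⁻¹) (hr : ∀ r ∈ rels, (r.map g).prod = 1) (hH : ∀ r ∈ subs, (r.map g).prod ∈ H)
    (j u : ℕ) (hu : u < M) (h : dp_fi_27 j u = true) : Good (fa g) T MG M (cP g H) Lt.fi u := by
  unfold dp_fi_27 at h
  rcases brec_true h with h | h
  · exact lF_good (T := T) (x := Lt.fi) (by decide) [Lt.c, Lt.f, Lt.ci, Lt.ei, Lt.ci, Lt.f, Lt.f, Lt.ei, Lt.ci] (hole_at (rb_16 hinv hr) 6 rfl) h
  · exact dp_fi_26_s hinv hr hH j u hu h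
theorem dp_fi_28_s (hinv : ∀ x, g (inv x) = (g x)⁻¹) (hr : ∀ r ∈ rels, (r.map g).prod = 1) (hH : ∀ r ∈ subs, (r.map g).prod ∈ H)
    (j u : ℕ) (hu : u < M) (h : dp_fi_28 j u = true) : Good (fa g) T MG M (cP g H) Lt.fi u := by
  unfold dp_fi_28 at h
  rcases brec_true h with h | h
  · exact lF_good (T := T) (x := Lt.fi) (by decide) [Lt.ci, Lt.ei, Lt.c, Lt.fi, Lt.c, Lt.e, Lt.e, Lt.f, Lt.ci] (hole_at (rf_10 hinv hr) 5 rfl) h
  · exact lF_good (T := T) (x := Lt.fi) (by decide) [Lt.fi, Lt.ci, Lt.fi, Lt.c, Lt.fi, Lt.fi, Lt.ci, Lt.fi, Lt.c] (hole_at (rb_13 hinv hr) 3 rfl) h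
theorem dp_fi_29_s (hinv : ∀ x, g (inv x) = (g x)⁻¹) (hr : ∀ r ∈ rels, (r.map g).prod = 1) (hH : ∀ r ∈ subs, (r.map g).prod ∈ H)
    (j u : ℕ) (hu : u < M) (h : dp_fi_29 j u = true) : Good (fa g) T MG M (cP g H) Lt.fi u := by
  unfold dp_fi_29 at h
  rcases brec_true h with h | h
  · exact lF_good (T := T) (x := Lt.fi) (by decide) [Lt.c, Lt.bi, Lt.e, Lt.b, Lt.e, Lt.e, Lt.fi, Lt.fi, Lt.ci] (hole_at (rf_17 hinv hr) 7 rfl) h
  · exact dp_fi_28_s hinv hr hH j u hu h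
theorem dp_fi_30_s (hinv : ∀ x, g (inv x) = (g x)⁻¹) (hr : ∀ r ∈ rels, (r.map g).prod = 1) (hH : ∀ r ∈ subs, (r.map g).prod ∈ H)
    (j u : ℕ) (hu : u < M) (h : dp_fi_30 j u = true) : Good (fa g) T MG M (cP g H) Lt.fi u := by
  unfold dp_fi_30 at h
  rcases brec_true h with h | h
  · exact dp_fi_27_s hinv hr hH j u hu h
  · exact dp_fi_29_s hinv hr hH j u hu h
theorem dp_fi_31_s (hinv : ∀ x, g (inv x) = (g x)⁻¹) (hr : ∀ r ∈ rels, (r.map g).prod = 1) (hH : ∀ r ∈ subs, (r.map g).prod ∈ H)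
    (j u : ℕ) (hu : u < M) (h : dp_fi_31 j u = true) : Good (fa g) T MG M (cP g H) Lt.fi u := by
  unfold dp_fi_31 at h
  rcases brec_true h with h | h
  · exact dp_fi_25_s hinv hr hH j u hu h
  · exact dp_fi_30_s hinv hr hH j u hu h
theorem dp_fi_32_s (hinv : ∀ x, g (inv x) = (g x)⁻¹) (hr : ∀ r ∈ rels, (r.map g).prod = 1) (hH : ∀ r ∈ subs, (r.map g).prod ∈ H)
    (j u : ℕ) (hu : u < M) (h : dp_fi_32 j u = true) : Good (fa g) T MG M (cP g H) Lt.fi u := by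
  unfold dp_fi_32 at h
  rcases brec_true h with h | h
  · exact lF_good (T := T) (x := Lt.fi) (by decide) [Lt.fi, Lt.c, Lt.e, Lt.c, Lt.fi, Lt.ci, Lt.f, Lt.c, Lt.e] (hole_at (rf_16 hinv hr) 8 rfl) h
  · exact lF_good (T := T) (x := Lt.fi) (by decide) [Lt.bi, Lt.ei, Lt.bi, Lt.ci, Lt.fi, Lt.bi, Lt.fi, Lt.e, Lt.ci] (hole_at (rb_19 hinv hr) 7 rfl) h
theorem dp_fi_33_s (hinv : ∀ x, g (inv x) = (g x)⁻¹) (hr : ∀ r ∈ rels, (r.map g).prod = 1) (hH : ∀ r ∈ subs, (r.map g).prod ∈ H)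
    (j u : ℕ) (hu : u < M) (h : dp_fi_33 j u = true) : Good (fa g) T MG M (cP g H) Lt.fi u := by
  unfold dp_fi_33 at h
  rcases brec_true h with h | h
  · exact lF_good (T := T) (x := Lt.fi) (by decide) [Lt.ci, Lt.fi, Lt.c, Lt.bi, Lt.e, Lt.b, Lt.e, Lt.e, Lt.fi] (hole_at (rf_17 hinv hr) 5 rfl) h
  · exact dp_fi_32_s hinv hr hH j u hu h
theorem dp_fi_34_s (hinv : ∀ x, g (inv x) = (g x)⁻¹) (hr : ∀ r ∈ rels, (r.map g).prod = 1) (hH : ∀ r ∈ subs, (r.map g).prod ∈ H)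
    (j u : ℕ) (hu : u < M) (h : dp_fi_34 j u = true) : Good (fa g) T MG M (cP g H) Lt.fi u := by
  unfold dp_fi_34 at h
  rcases brec_true h with h | h
  · exact lS_good (T := T) (x := Lt.fi) (by decide) hu [Lt.bi, Lt.ei, Lt.bi, Lt.ci, Lt.fi, Lt.bi, Lt.fi, Lt.e, Lt.ci] (hole_at (rb_19 hinv hr) 7 rfl) h
  · exact lF_good (T := T) (x := Lt.fi) (by decide) [Lt.ci, Lt.f, Lt.c, Lt.e, Lt.fi, Lt.fi, Lt.c, Lt.e, Lt.c] (hole_at (rf_16 hinv hr) 3 rfl) h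
theorem dp_fi_35_s (hinv : ∀ x, g (inv x) = (g x)⁻¹) (hr : ∀ r ∈ rels, (r.map g).prod = 1) (hH : ∀ r ∈ subs, (r.map g).prod ∈ H)
    (j u : ℕ) (hu : u < M) (h : dp_fi_35 j u = true) : Good (fa g) T MG M (cP g H) Lt.fi u := by
  unfold dp_fi_35 at h
  rcases brec_true h with h | h
  · exact lS_good (T := T) (x := Lt.fi) (by decide) hu [Lt.ci, Lt.fi, Lt.c, Lt.bi, Lt.e, Lt.b, Lt.e, Lt.e, Lt.fi] (hole_at (rf_17 hinv hr) 5 rfl) h
  · exact lS_good (T := T) (x := Lt.fi) (by decide) hu [Lt.fi, Lt.c, Lt.e, Lt.c, Lt.fi, Lt.ci, Lt.f, Lt.c, Lt.e] (hole_at (rf_16 hinv hr) 8 rfl) h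
theorem dp_fi_36_s (hinv : ∀ x, g (inv x) = (g x)⁻¹) (hr : ∀ r ∈ rels, (r.map g).prod = 1) (hH : ∀ r ∈ subs, (r.map g).prod ∈ H)
    (j u : ℕ) (hu : u < M) (h : dp_fi_36 j u = true) : Good (fa g) T MG M (cP g H) Lt.fi u := by
  unfold dp_fi_36 at h
  rcases brec_true h with h | h
  · exact dp_fi_34_s hinv hr hH j u hu h
  · exact dp_fi_35_s hinv hr hH j u hu h
theorem dp_fi_37_s (hinv : ∀ x, g (inv x) = (g x)⁻¹) (hr : ∀ r ∈ rels, (r.map g).prod = 1) (hH : ∀ r ∈ subs, (r.map g).prod ∈ H)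
    (j u : ℕ) (hu : u < M) (h : dp_fi_37 j u = true) : Good (fa g) T MG M (cP g H) Lt.fi u := by
  unfold dp_fi_37 at h
  rcases brec_true h with h | h
  · exact dp_fi_33_s hinv hr hH j u hu h
  · exact dp_fi_36_s hinv hr hH j u hu h
theorem dp_fi_38_s (hinv : ∀ x, g (inv x) = (g x)⁻¹) (hr : ∀ r ∈ rels, (r.map g).prod = 1) (hH : ∀ r ∈ subs, (r.map g).prod ∈ H)
    (j u : ℕ) (hu : u < M) (h : dp_fi_38 j u = true) : Good (fa g) T MG M (cP g H) Lt.fi u := by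
  unfold dp_fi_38 at h
  rcases brec_true h with h | h
  · exact lS_good (T := T) (x := Lt.fi) (by decide) hu [Lt.ci, Lt.f, Lt.c, Lt.e, Lt.fi, Lt.fi, Lt.c, Lt.e, Lt.c] (hole_at (rf_16 hinv hr) 3 rfl) h
  · exact lS_good (T := T) (x := Lt.fi) (by decide) hu [Lt.c, Lt.bi, Lt.e, Lt.b, Lt.e, Lt.e, Lt.fi, Lt.fi, Lt.ci] (hole_at (rf_17 hinv hr) 7 rfl) h
theorem dp_fi_39_s (hinv : ∀ x, g (inv x) = (g x)⁻¹) (hr : ∀ r ∈ rels, (r.map g).prod = 1) (hH : ∀ r ∈ subs, (r.map g).prod ∈ H)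
    (j u : ℕ) (hu : u < M) (h : dp_fi_39 j u = true) : Good (fa g) T MG M (cP g H) Lt.fi u := by
  unfold dp_fi_39 at h
  rcases brec_true h with h | h
  · exact lF_good (T := T) (x := Lt.fi) (by decide) [Lt.fi, Lt.ci, Lt.fi, Lt.c, Lt.bi, Lt.e, Lt.b, Lt.e, Lt.e] (hole_at (rf_17 hinv hr) 4 rfl) h
  · exact lS_good (T := T) (x := Lt.fi) (by decide) hu [Lt.c, Lt.fi, Lt.fi, Lt.ci, Lt.fi, Lt.c, Lt.fi, Lt.fi, Lt.ci] (hole_at (rb_13 hinv hr) 1 rfl) h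
theorem dp_fi_40_s (hinv : ∀ x, g (inv x) = (g x)⁻¹) (hr : ∀ r ∈ rels, (r.map g).prod = 1) (hH : ∀ r ∈ subs, (r.map g).prod ∈ H)
    (j u : ℕ) (hu : u < M) (h : dp_fi_40 j u = true) : Good (fa g) T MG M (cP g H) Lt.fi u := by
  unfold dp_fi_40 at h
  rcases brec_true h with h | h
  · exact dp_fi_38_s hinv hr hH j u hu h
  · exact dp_fi_39_s hinv hr hH j u hu h
theorem dp_fi_41_s (hinv : ∀ x, g (inv x) = (g x)⁻¹) (hr : ∀ r ∈ rels, (r.map g).prod = 1) (hH : ∀ r ∈ subs, (r.map g).prod ∈ H)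
    (j u : ℕ) (hu : u < M) (h : dp_fi_41 j u = true) : Good (fa g) T MG M (cP g H) Lt.fi u := by
  unfold dp_fi_41 at h
  rcases brec_true h with h | h
  · exact lS_good (T := T) (x := Lt.fi) (by decide) hu [Lt.bi, Lt.fi, Lt.e, Lt.ci, Lt.fi, Lt.bi, Lt.ei, Lt.bi, Lt.ci] (hole_at (rb_19 hinv hr) 2 rfl) h
  · exact lS_good (T := T) (x := Lt.fi) (by decide) hu [Lt.fi, Lt.ci, Lt.fi, Lt.c, Lt.bi, Lt.e, Lt.b, Lt.e, Lt.e] (hole_at (rf_17 hinv hr) 4 rfl) h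
theorem dp_fi_42_s (hinv : ∀ x, g (inv x) = (g x)⁻¹) (hr : ∀ r ∈ rels, (r.map g).prod = 1) (hH : ∀ r ∈ subs, (r.map g).prod ∈ H)
    (j u : ℕ) (hu : u < M) (h : dp_fi_42 j u = true) : Good (fa g) T MG M (cP g H) Lt.fi u := by
  unfold dp_fi_42 at h
  rcases brec_true h with h | h
  · exact lS_good (T := T) (x := Lt.fi) (by decide) hu [Lt.e, Lt.e, Lt.f, Lt.bi, Lt.f, Lt.c, Lt.bi, Lt.ci, Lt.ei] (hole_at (rb_18 hinv hr) 3 rfl) h
  · exact dp_fi_41_s hinv hr hH j u hu h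
theorem dp_fi_43_s (hinv : ∀ x, g (inv x) = (g x)⁻¹) (hr : ∀ r ∈ rels, (r.map g).prod = 1) (hH : ∀ r ∈ subs, (r.map g).prod ∈ H)
    (j u : ℕ) (hu : u < M) (h : dp_fi_43 j u = true) : Good (fa g) T MG M (cP g H) Lt.fi u := by
  unfold dp_fi_43 at h
  rcases brec_true h with h | h
  · exact lS_good (T := T) (x := Lt.fi) (by decide) hu [Lt.ci, Lt.fi, Lt.c, Lt.fi, Lt.fi, Lt.ci, Lt.fi, Lt.c, Lt.fi] (hole_at (rb_13 hinv hr) 4 rfl) h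
  · exact lS_good (T := T) (x := Lt.fi) (by decide) hu [Lt.c, Lt.e, Lt.e, Lt.f, Lt.ci, Lt.fi, Lt.ci, Lt.ei, Lt.c] (hole_at (rf_10 hinv hr) 9 rfl) h
theorem dp_fi_44_s (hinv : ∀ x, g (inv x) = (g x)⁻¹) (hr : ∀ r ∈ rels, (r.map g).prod = 1) (hH : ∀ r ∈ subs, (r.map g).prod ∈ H)
    (j u : ℕ) (hu : u < M) (h : dp_fi_44 j u = true) : Good (fa g) T MG M (cP g H) Lt.fi u := by
  unfold dp_fi_44 at h
  rcases brec_true h with h | h
  · exact lS_good (T := T) (x := Lt.fi) (by decide) hu [Lt.c, Lt.f, Lt.ci, Lt.ei, Lt.ci, Lt.f, Lt.f, Lt.ei, Lt.ci] (hole_at (rb_16 hinv hr) 6 rfl) h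
  · exact lS_good (T := T) (x := Lt.fi) (by decide) hu [Lt.b, Lt.ei, Lt.c, Lt.bi, Lt.f, Lt.ei, Lt.bi, Lt.ei, Lt.c] (hole_at (rb_11 hinv hr) 3 rfl) h
theorem dp_fi_45_s (hinv : ∀ x, g (inv x) = (g x)⁻¹) (hr : ∀ r ∈ rels, (r.map g).prod = 1) (hH : ∀ r ∈ subs, (r.map g).prod ∈ H)
    (j u : ℕ) (hu : u < M) (h : dp_fi_45 j u = true) : Good (fa g) T MG M (cP g H) Lt.fi u := by
  unfold dp_fi_45 at h
  rcases brec_true h with h | h
  · exact lF_good (T := T) (x := Lt.fi) (by decide) [Lt.ei, Lt.ei, Lt.ci, Lt.f, Lt.ci, Lt.e, Lt.c, Lt.f, Lt.c] (hole_at (rb_10 hinv hr) 8 rfl) h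
  · exact lS_good (T := T) (x := Lt.fi) (by decide) hu [Lt.ei, Lt.fi, Lt.b, Lt.e, Lt.bi, Lt.fi, Lt.d, Lt.ci, Lt.di, Lt.f, Lt.b, Lt.ei] (hole_at (rf_20 hinv hr) 7 rfl) h
theorem dp_fi_46_s (hinv : ∀ x, g (inv x) = (g x)⁻¹) (hr : ∀ r ∈ rels, (r.map g).prod = 1) (hH : ∀ r ∈ subs, (r.map g).prod ∈ H)
    (j u : ℕ) (hu : u < M) (h : dp_fi_46 j u = true) : Good (fa g) T MG M (cP g H) Lt.fi u := by
  unfold dp_fi_46 at h
  rcases brec_true h with h | h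
  · exact dp_fi_44_s hinv hr hH j u hu h
  · exact dp_fi_45_s hinv hr hH j u hu h
theorem dp_fi_47_s (hinv : ∀ x, g (inv x) = (g x)⁻¹) (hr : ∀ r ∈ rels, (r.map g).prod = 1) (hH : ∀ r ∈ subs, (r.map g).prod ∈ H)
    (j u : ℕ) (hu : u < M) (h : dp_fi_47 j u = true) : Good (fa g) T MG M (cP g H) Lt.fi u := by
  unfold dp_fi_47 at h
  rcases brec_true h with h | h
  · exact dp_fi_43_s hinv hr hH j u hu h
  · exact dp_fi_46_s hinv hr hH j u hu h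
theorem dp_fi_48_s (hinv : ∀ x, g (inv x) = (g x)⁻¹) (hr : ∀ r ∈ rels, (r.map g).prod = 1) (hH : ∀ r ∈ subs, (r.map g).prod ∈ H)
    (j u : ℕ) (hu : u < M) (h : dp_fi_48 j u = true) : Good (fa g) T MG M (cP g H) Lt.fi u := by
  unfold dp_fi_48 at h
  rcases brec_true h with h | h
  · exact dp_fi_42_s hinv hr hH j u hu h
  · exact dp_fi_47_s hinv hr hH j u hu h
theorem dp_fi_49_s (hinv : ∀ x, g (inv x) = (g x)⁻¹) (hr : ∀ r ∈ rels, (r.map g).prod = 1) (hH : ∀ r ∈ subs, (r.map g).prod ∈ H)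
    (j u : ℕ) (hu : u < M) (h : dp_fi_49 j u = true) : Good (fa g) T MG M (cP g H) Lt.fi u := by
  unfold dp_fi_49 at h
  rcases brec_true h with h | h
  · exact dp_fi_40_s hinv hr hH j u hu h
  · exact dp_fi_48_s hinv hr hH j u hu h
theorem dp_fi_50_s (hinv : ∀ x, g (inv x) = (g x)⁻¹) (hr : ∀ r ∈ rels, (r.map g).prod = 1) (hH : ∀ r ∈ subs, (r.map g).prod ∈ H)
    (j u : ℕ) (hu : u < M) (h : dp_fi_50 j u = true) : Good (fa g) T MG M (cP g H) Lt.fi u := by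
  unfold dp_fi_50 at h
  rcases brec_true h with h | h
  · exact dp_fi_37_s hinv hr hH j u hu h
  · exact dp_fi_49_s hinv hr hH j u hu h
theorem dp_fi_51_s (hinv : ∀ x, g (inv x) = (g x)⁻¹) (hr : ∀ r ∈ rels, (r.map g).prod = 1) (hH : ∀ r ∈ subs, (r.map g).prod ∈ H)
    (j u : ℕ) (hu : u < M) (h : dp_fi_51 j u = true) : Good (fa g) T MG M (cP g H) Lt.fi u := by
  unfold dp_fi_51 at h
  rcases brec_true h with h | h
  · exact dp_fi_31_s hinv hr hH j u hu h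
  · exact dp_fi_50_s hinv hr hH j u hu h
theorem dp_fi_52_s (hinv : ∀ x, g (inv x) = (g x)⁻¹) (hr : ∀ r ∈ rels, (r.map g).prod = 1) (hH : ∀ r ∈ subs, (r.map g).prod ∈ H)
    (j u : ℕ) (hu : u < M) (h : dp_fi_52 j u = true) : Good (fa g) T MG M (cP g H) Lt.fi u := by
  unfold dp_fi_52 at h
  rcases brec_true h with h | h
  · exact dp_fi_21_s hinv hr hH j u hu h
  · exact dp_fi_51_s hinv hr hH j u hu h
theorem dp_fi_53_s (hinv : ∀ x, g (inv x) = (g x)⁻¹) (hr : ∀ r ∈ rels, (r.map g).prod = 1) (hH : ∀ r ∈ subs, (r.map g).prod ∈ H)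
    (j u : ℕ) (hu : u < M) (h : dp_fi_53 j u = true) : Good (fa g) T MG M (cP g H) Lt.fi u := by
  unfold dp_fi_53 at h
  rcases brec_true h with h | h
  · exact dp_fi_9_s hinv hr hH j u hu h
  · exact dp_fi_52_s hinv hr hH j u hu h
theorem dp_fi_54_s (hinv : ∀ x, g (inv x) = (g x)⁻¹) (hr : ∀ r ∈ rels, (r.map g).prod = 1) (hH : ∀ r ∈ subs, (r.map g).prod ∈ H)
    (j u : ℕ) (hu : u < M) (h : dp_fi_54 j u = true) : Good (fa g) T MG M (cP g H) Lt.fi u := by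
  unfold dp_fi_54 at h
  rcases brec_true h with h | h
  · rcases brec_true h with h | h
    · exact dp_fi_0_s hinv hr hH j u hu h
    · exact dp_fi_1_s hinv hr hH j u hu h
  · exact dp_fi_53_s hinv hr hH j u hu h
theorem dp_fi_55_s (hinv : ∀ x, g (inv x) = (g x)⁻¹) (hr : ∀ r ∈ rels, (r.map g).prod = 1) (hH : ∀ r ∈ subs, (r.map g).prod ∈ H)
    (j u : ℕ) (hu : u < M) (h : dp_fi_55 j u = true) : Good (fa g) T MG M (cP g H) Lt.fi u := by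
  unfold dp_fi_55 at h
  rcases brec_true h with h | h
  · rcases brec_true h with h | h
    · exact lPar_good (T := T) (x := Lt.fi) (x' := Lt.f) (by decide) rfl (inv_rel hinv _ _ rfl) h
    · exact lDef_good (T := T) (x := Lt.fi) (by decide) rfl h
  · exact dp_fi_54_s hinv hr hH j u hu h
theorem snd_fi (hinv : ∀ x, g (inv x) = (g x)⁻¹) (hr : ∀ r ∈ rels, (r.map g).prod = 1) (hH : ∀ r ∈ subs, (r.map g).prod ∈ H)
    (j u : ℕ) (hu : u < M) (h : disp_fi j u = true) : Good (fa g) T MG M (cP g H) Lt.fi u := by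
  unfold disp_fi at h
  rcases brec_true h with h | h
  · rcases brec_true h with h | h
    · exact lF1_good (T := T) (x := Lt.fi) (by decide) .f (hole_at (rf_28 hinv hr) 0 rfl) h
    · exact lF3_good (T := T) (x := Lt.fi) (by decide) .di .e .d (hole_at (rf_4 hinv hr) 2 rfl) h
  · exact dp_fi_55_s hinv hr hH j u hu h
theorem snc_fi (hinv : ∀ x, g (inv x) = (g x)⁻¹) (hr : ∀ r ∈ rels, (r.map g).prod = 1) (hH : ∀ r ∈ subs, (r.map g).prod ∈ H)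
    (j u : ℕ) (hu : u < M) (h : chk_fi j u = true) : (T Lt.fi u < A ∧ Good (fa g) T MG M (cP g H) Lt.fi u) ∨ (A ≤ T Lt.fi u ∧ MG u < A) := by
  unfold chk_fi at h
  cases hb : Nat.ble A (T_fi u) with
  | true => rw [hb] at h; exact Or.inr ⟨le_of_ble hb, le_of_ble h⟩
  | false => rw [hb] at h; exact Or.inl ⟨lt_of_ble_false hb, snd_fi hinv hr hH j u hu h⟩
theorem dp_d_0_s (hinv : ∀ x, g (inv x) = (g x)⁻¹) (hr : ∀ r ∈ rels, (r.map g).prod = 1) (hH : ∀ r ∈ subs, (r.map g).prod ∈ H)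
    (j u : ℕ) (hu : u < M) (h : dp_d_0 j u = true) : Good (fa g) T MG M (cP g H) Lt.d u := by
  unfold dp_d_0 at h
  rcases brec_true h with h | h
  · exact lS_good (T := T) (x := Lt.d) (by decide) hu [Lt.fi, Lt.di, Lt.e] (hole_at (rf_4 hinv hr) 1 rfl) h
  · exact lS_good (T := T) (x := Lt.d) (by decide) hu [Lt.f, Lt.di, Lt.ei] (hole_at (rb_4 hinv hr) 2 rfl) h
theorem dp_d_1_s (hinv : ∀ x, g (inv x) = (g x)⁻¹) (hr : ∀ r ∈ rels, (r.map g).prod = 1) (hH : ∀ r ∈ subs, (r.map g).prod ∈ H)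
    (j u : ℕ) (hu : u < M) (h : dp_d_1 j u = true) : Good (fa g) T MG M (cP g H) Lt.d u := by
  unfold dp_d_1 at h
  rcases brec_true h with h | h
  · exact lS_good (T := T) (x := Lt.d) (by decide) hu [Lt.d, Lt.d] (hole_at (rf_2 hinv hr) 0 rfl) h
  · exact lS_good (T := T) (x := Lt.d) (by decide) hu [Lt.bi, Lt.fi, Lt.d, Lt.ei, Lt.bi, Lt.di, Lt.f, Lt.f, Lt.bi, Lt.d, Lt.b, Lt.fi, Lt.fi, Lt.d, Lt.b, Lt.e, Lt.di, Lt.f, Lt.b] (hole_at (rf_21 hinv hr) 0 rfl) h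
theorem dp_d_2_s (hinv : ∀ x, g (inv x) = (g x)⁻¹) (hr : ∀ r ∈ rels, (r.map g).prod = 1) (hH : ∀ r ∈ subs, (r.map g).prod ∈ H)
    (j u : ℕ) (hu : u < M) (h : dp_d_2 j u = true) : Good (fa g) T MG M (cP g H) Lt.d u := by
  unfold dp_d_2 at h
  rcases brec_true h with h | h
  · exact lS_good (T := T) (x := Lt.d) (by decide) hu [Lt.c, Lt.di, Lt.bi] (hole_at (rb_3 hinv hr) 2 rfl) h
  · exact dp_d_1_s hinv hr hH j u hu h
theorem dp_d_3_s (hinv : ∀ x, g (inv x) = (g x)⁻¹) (hr : ∀ r ∈ rels, (r.map g).prod = 1) (hH : ∀ r ∈ subs, (r.map g).prod ∈ H)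
    (j u : ℕ) (hu : u < M) (h : dp_d_3 j u = true) : Good (fa g) T MG M (cP g H) Lt.d u := by
  unfold dp_d_3 at h
  rcases brec_true h with h | h
  · exact dp_d_0_s hinv hr hH j u hu h
  · exact dp_d_2_s hinv hr hH j u hu h
theorem dp_d_4_s (hinv : ∀ x, g (inv x) = (g x)⁻¹) (hr : ∀ r ∈ rels, (r.map g).prod = 1) (hH : ∀ r ∈ subs, (r.map g).prod ∈ H)
    (j u : ℕ) (hu : u < M) (h : dp_d_4 j u = true) : Good (fa g) T MG M (cP g H) Lt.d u := by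
  unfold dp_d_4 at h
  rcases brec_true h with h | h
  · exact lS_good (T := T) (x := Lt.d) (by decide) hu [Lt.di] (hole_at (rf_30 hinv hr) 1 rfl) h
  · exact dp_d_3_s hinv hr hH j u hu h
theorem dp_d_5_s (hinv : ∀ x, g (inv x) = (g x)⁻¹) (hr : ∀ r ∈ rels, (r.map g).prod = 1) (hH : ∀ r ∈ subs, (r.map g).prod ∈ H)
    (j u : ℕ) (hu : u < M) (h : dp_d_5 j u = true) : Good (fa g) T MG M (cP g H) Lt.d u := by
  unfold dp_d_5 at h
  rcases brec_true h with h | h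
  · exact lF3_good (T := T) (x := Lt.d) (by decide) .c .di .bi (hole_at (rb_3 hinv hr) 2 rfl) h
  · exact dp_d_4_s hinv hr hH j u hu h
theorem dp_d_6_s (hinv : ∀ x, g (inv x) = (g x)⁻¹) (hr : ∀ r ∈ rels, (r.map g).prod = 1) (hH : ∀ r ∈ subs, (r.map g).prod ∈ H)
    (j u : ℕ) (hu : u < M) (h : dp_d_6 j u = true) : Good (fa g) T MG M (cP g H) Lt.d u := by
  unfold dp_d_6 at h
  rcases brec_true h with h | h
  · rcases brec_true h with h | h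
    · exact lF3_good (T := T) (x := Lt.d) (by decide) .fi .di .e (hole_at (rf_4 hinv hr) 1 rfl) h
    · exact lF3_good (T := T) (x := Lt.d) (by decide) .ci .di .b (hole_at (rf_3 hinv hr) 1 rfl) h
  · exact dp_d_5_s hinv hr hH j u hu h
theorem snd_d (hinv : ∀ x, g (inv x) = (g x)⁻¹) (hr : ∀ r ∈ rels, (r.map g).prod = 1) (hH : ∀ r ∈ subs, (r.map g).prod ∈ H)
    (j u : ℕ) (hu : u < M) (h : disp_d j u = true) : Good (fa g) T MG M (cP g H) Lt.d u := by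
  unfold disp_d at h
  rcases brec_true h with h | h
  · rcases brec_true h with h | h
    · exact lF1_good (T := T) (x := Lt.d) (by decide) .di (hole_at (rf_30 hinv hr) 1 rfl) h
    · exact lF_good (T := T) (x := Lt.d) (by decide) [Lt.d, Lt.d] (hole_at (rf_2 hinv hr) 0 rfl) h
  · rcases brec_true h with h | h
    · rcases brec_true h with h | h
      · exact lPar_good (T := T) (x := Lt.d) (x' := Lt.di) (by decide) rfl (inv_rel hinv _ _ rfl) h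
      · rcases brec_true h with h | h
        · exact lF3_good (T := T) (x := Lt.d) (by decide) .f .di .ei (hole_at (rb_4 hinv hr) 2 rfl) h
        · exact lDef_good (T := T) (x := Lt.d) (by decide) rfl h
    · exact dp_d_6_s hinv hr hH j u hu h
theorem snc_d (hinv : ∀ x, g (inv x) = (g x)⁻¹) (hr : ∀ r ∈ rels, (r.map g).prod = 1) (hH : ∀ r ∈ subs, (r.map g).prod ∈ H)
    (j u : ℕ) (hu : u < M) (h : chk_d j u = true) : (T Lt.d u < A ∧ Good (fa g) T MG M (cP g H) Lt.d u) ∨ (A ≤ T Lt.d u ∧ MG u < A) := by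
  unfold chk_d at h
  cases hb : Nat.ble A (T_d u) with
  | true => rw [hb] at h; exact Or.inr ⟨le_of_ble hb, le_of_ble h⟩
  | false => rw [hb] at h; exact Or.inl ⟨lt_of_ble_false hb, snd_d hinv hr hH j u hu h⟩
theorem dp_di_0_s (hinv : ∀ x, g (inv x) = (g x)⁻¹) (hr : ∀ r ∈ rels, (r.map g).prod = 1) (hH : ∀ r ∈ subs, (r.map g).prod ∈ H)
    (j u : ℕ) (hu : u < M) (h : dp_di_0 j u = true) : Good (fa g) T MG M (cP g H) Lt.di u := by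
  unfold dp_di_0 at h
  rcases brec_true h with h | h
  · exact lPar_good (T := T) (x := Lt.di) (x' := Lt.d) (by decide) rfl (inv_rel hinv _ _ rfl) h
  · exact lF3_good (T := T) (x := Lt.di) (by decide) .e .d .fi (hole_at (rf_4 hinv hr) 3 rfl) h
theorem dp_di_1_s (hinv : ∀ x, g (inv x) = (g x)⁻¹) (hr : ∀ r ∈ rels, (r.map g).prod = 1) (hH : ∀ r ∈ subs, (r.map g).prod ∈ H)
    (j u : ℕ) (hu : u < M) (h : dp_di_1 j u = true) : Good (fa g) T MG M (cP g H) Lt.di u := by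
  unfold dp_di_1 at h
  rcases brec_true h with h | h
  · exact lF3_good (T := T) (x := Lt.di) (by decide) .ei .d .f (hole_at (rb_4 hinv hr) 0 rfl) h
  · exact lF3_good (T := T) (x := Lt.di) (by decide) .b .d .ci (hole_at (rf_3 hinv hr) 3 rfl) h
theorem dp_di_2_s (hinv : ∀ x, g (inv x) = (g x)⁻¹) (hr : ∀ r ∈ rels, (r.map g).prod = 1) (hH : ∀ r ∈ subs, (r.map g).prod ∈ H)
    (j u : ℕ) (hu : u < M) (h : dp_di_2 j u = true) : Good (fa g) T MG M (cP g H) Lt.di u := by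
  unfold dp_di_2 at h
  rcases brec_true h with h | h
  · exact lS_good (T := T) (x := Lt.di) (by decide) hu [Lt.bi, Lt.d, Lt.c] (hole_at (rb_3 hinv hr) 0 rfl) h
  · exact lS_good (T := T) (x := Lt.di) (by decide) hu [Lt.di, Lt.di] (hole_at (rb_2 hinv hr) 0 rfl) h
theorem dp_di_3_s (hinv : ∀ x, g (inv x) = (g x)⁻¹) (hr : ∀ r ∈ rels, (r.map g).prod = 1) (hH : ∀ r ∈ subs, (r.map g).prod ∈ H)
    (j u : ℕ) (hu : u < M) (h : dp_di_3 j u = true) : Good (fa g) T MG M (cP g H) Lt.di u := by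
  unfold dp_di_3 at h
  rcases brec_true h with h | h
  · exact lS_good (T := T) (x := Lt.di) (by decide) hu [Lt.ei, Lt.d, Lt.f] (hole_at (rb_4 hinv hr) 0 rfl) h
  · exact dp_di_2_s hinv hr hH j u hu h
theorem dp_di_4_s (hinv : ∀ x, g (inv x) = (g x)⁻¹) (hr : ∀ r ∈ rels, (r.map g).prod = 1) (hH : ∀ r ∈ subs, (r.map g).prod ∈ H)
    (j u : ℕ) (hu : u < M) (h : dp_di_4 j u = true) : Good (fa g) T MG M (cP g H) Lt.di u := by
  unfold dp_di_4 at h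
  rcases brec_true h with h | h
  · exact lS_good (T := T) (x := Lt.di) (by decide) hu [Lt.b, Lt.d, Lt.ci] (hole_at (rf_3 hinv hr) 3 rfl) h
  · exact dp_di_3_s hinv hr hH j u hu h
theorem dp_di_5_s (hinv : ∀ x, g (inv x) = (g x)⁻¹) (hr : ∀ r ∈ rels, (r.map g).prod = 1) (hH : ∀ r ∈ subs, (r.map g).prod ∈ H)
    (j u : ℕ) (hu : u < M) (h : dp_di_5 j u = true) : Good (fa g) T MG M (cP g H) Lt.di u := by
  unfold dp_di_5 at h
  rcases brec_true h with h | h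
  · exact lS_good (T := T) (x := Lt.di) (by decide) hu [Lt.e, Lt.d, Lt.fi] (hole_at (rf_4 hinv hr) 3 rfl) h
  · exact dp_di_4_s hinv hr hH j u hu h
theorem dp_di_6_s (hinv : ∀ x, g (inv x) = (g x)⁻¹) (hr : ∀ r ∈ rels, (r.map g).prod = 1) (hH : ∀ r ∈ subs, (r.map g).prod ∈ H)
    (j u : ℕ) (hu : u < M) (h : dp_di_6 j u = true) : Good (fa g) T MG M (cP g H) Lt.di u := by
  unfold dp_di_6 at h
  rcases brec_true h with h | h
  · exact lS_good (T := T) (x := Lt.di) (by decide) hu [Lt.d] (hole_at (rf_30 hinv hr) 0 rfl) h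
  · exact dp_di_5_s hinv hr hH j u hu h
theorem dp_di_7_s (hinv : ∀ x, g (inv x) = (g x)⁻¹) (hr : ∀ r ∈ rels, (r.map g).prod = 1) (hH : ∀ r ∈ subs, (r.map g).prod ∈ H)
    (j u : ℕ) (hu : u < M) (h : dp_di_7 j u = true) : Good (fa g) T MG M (cP g H) Lt.di u := by
  unfold dp_di_7 at h
  rcases brec_true h with h | h
  · exact lF3_good (T := T) (x := Lt.di) (by decide) .bi .d .c (hole_at (rb_3 hinv hr) 0 rfl) h
  · exact dp_di_6_s hinv hr hH j u hu h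
theorem dp_di_8_s (hinv : ∀ x, g (inv x) = (g x)⁻¹) (hr : ∀ r ∈ rels, (r.map g).prod = 1) (hH : ∀ r ∈ subs, (r.map g).prod ∈ H)
    (j u : ℕ) (hu : u < M) (h : dp_di_8 j u = true) : Good (fa g) T MG M (cP g H) Lt.di u := by
  unfold dp_di_8 at h
  rcases brec_true h with h | h
  · exact dp_di_1_s hinv hr hH j u hu h
  · exact dp_di_7_s hinv hr hH j u hu h
theorem dp_di_9_s (hinv : ∀ x, g (inv x) = (g x)⁻¹) (hr : ∀ r ∈ rels, (r.map g).prod = 1) (hH : ∀ r ∈ subs, (r.map g).prod ∈ H)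
    (j u : ℕ) (hu : u < M) (h : dp_di_9 j u = true) : Good (fa g) T MG M (cP g H) Lt.di u := by
  unfold dp_di_9 at h
  rcases brec_true h with h | h
  · exact dp_di_0_s hinv hr hH j u hu h
  · exact dp_di_8_s hinv hr hH j u hu h
theorem dp_di_10_s (hinv : ∀ x, g (inv x) = (g x)⁻¹) (hr : ∀ r ∈ rels, (r.map g).prod = 1) (hH : ∀ r ∈ subs, (r.map g).prod ∈ H)
    (j u : ℕ) (hu : u < M) (h : dp_di_10 j u = true) : Good (fa g) T MG M (cP g H) Lt.di u := by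
  unfold dp_di_10 at h
  rcases brec_true h with h | h
  · rcases brec_true h with h | h
    · exact lDef_good (T := T) (x := Lt.di) (by decide) rfl h
    · exact lF_good (T := T) (x := Lt.di) (by decide) [Lt.di, Lt.di] (hole_at (rb_2 hinv hr) 0 rfl) h
  · exact dp_di_9_s hinv hr hH j u hu h
theorem snd_di (hinv : ∀ x, g (inv x) = (g x)⁻¹) (hr : ∀ r ∈ rels, (r.map g).prod = 1) (hH : ∀ r ∈ subs, (r.map g).prod ∈ H)
    (j u : ℕ) (hu : u < M) (h : disp_di j u = true) : Good (fa g) T MG M (cP g H) Lt.di u := by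
  unfold disp_di at h
  rcases brec_true h with h | h
  · exact lF1_good (T := T) (x := Lt.di) (by decide) .d (hole_at (rf_30 hinv hr) 0 rfl) h
  · exact dp_di_10_s hinv hr hH j u hu h
theorem snc_di (hinv : ∀ x, g (inv x) = (g x)⁻¹) (hr : ∀ r ∈ rels, (r.map g).prod = 1) (hH : ∀ r ∈ subs, (r.map g).prod ∈ H)
    (j u : ℕ) (hu : u < M) (h : chk_di j u = true) : (T Lt.di u < A ∧ Good (fa g) T MG M (cP g H) Lt.di u) ∨ (A ≤ T Lt.di u ∧ MG u < A) := by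
  unfold chk_di at h
  cases hb : Nat.ble A (T_di u) with
  | true => rw [hb] at h; exact Or.inr ⟨le_of_ble hb, le_of_ble h⟩
  | false => rw [hb] at h; exact Or.inl ⟨lt_of_ble_false hb, snd_di hinv hr hH j u hu h⟩
theorem dM_0_s (hinv : ∀ x, g (inv x) = (g x)⁻¹) (hr : ∀ r ∈ rels, (r.map g).prod = 1) (j z1 z2 u : ℕ) (h : dM_0 j z1 z2 u = true) : GoodM (fa g) T MG M (cP g H) u := by
  unfold dM_0 at h
  rcases brec_true h with h | h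
  · rcases brec_true h with h | h
    · rcases brec_true h with h | h
      · exact mCo_good (T := T) (y := .di) (by decide) h
      · exact mCo_good (T := T) (y := .d) (by decide) h
    · rcases brec_true h with h | h
      · exact mCo_good (T := T) (y := .b) (by decide) h
      · rcases brec_true h with h | h
        · exact mCo_good (T := T) (y := .e) (by decide) h
        · exact mCo_good (T := T) (y := .c) (by decide) h
  · rcases brec_true h with h | h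
    · rcases brec_true h with h | h
      · exact mCo_good (T := T) (y := .ei) (by decide) h
      · rcases brec_true h with h | h
        · exact mCo_good (T := T) (y := .ci) (by decide) h
        · exact mCo_good (T := T) (y := .bi) (by decide) h
    · rcases brec_true h with h | h
      · exact mCo_good (T := T) (y := .f) (by decide) h
      · rcases brec_true h with h | h
        · exact mCo_good (T := T) (y := .fi) (by decide) h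
        · rcases brec_true h with h | h
          · exact mRel_good (T := T) (by decide) [Lt.d, Lt.d] [Lt.di] (pair_at hinv (rf_2 hinv hr) 0 rfl) h
          · exact mRel_good (T := T) (by decide) [Lt.di, Lt.di] [Lt.d] (pair_at hinv (rb_2 hinv hr) 0 rfl) h
theorem dM_1_s (hinv : ∀ x, g (inv x) = (g x)⁻¹) (hr : ∀ r ∈ rels, (r.map g).prod = 1) (j z1 z2 u : ℕ) (h : dM_1 j z1 z2 u = true) : GoodM (fa g) T MG M (cP g H) u := by
  unfold dM_1 at h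
  rcases brec_true h with h | h
  · rcases brec_true h with h | h
    · rcases brec_true h with h | h
      · exact mRel_good (T := T) (by decide) [Lt.ei, Lt.ei, Lt.ei] [Lt.e, Lt.e] (pair_at hinv (rb_5 hinv hr) 0 rfl) h
      · exact mRel_good (T := T) (by decide) [Lt.fi, Lt.fi, Lt.fi] [Lt.f, Lt.f] (pair_at hinv (rb_6 hinv hr) 0 rfl) h
    · rcases brec_true h with h | h
      · exact mRel_good (T := T) (by decide) [Lt.e, Lt.d, Lt.fi] [Lt.d] (pair_at hinv (rf_4 hinv hr) 3 rfl) h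
      · exact mRel_good (T := T) (by decide) [Lt.c, Lt.di, Lt.bi] [Lt.di] (pair_at hinv (rb_3 hinv hr) 2 rfl) h
  · rcases brec_true h with h | h
    · rcases brec_true h with h | h
      · exact mRel_good (T := T) (by decide) [Lt.bi, Lt.d, Lt.c] [Lt.d] (pair_at hinv (rb_3 hinv hr) 0 rfl) h
      · rcases brec_true h with h | h
        · exact mRel_good (T := T) (by decide) [Lt.bi, Lt.f, Lt.b, Lt.ci, Lt.e, Lt.f, Lt.e] [Lt.c, Lt.b] (pair_at hinv (rb_7 hinv hr) 1 rfl) h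
        · exact mRel_good (T := T) (by decide) [Lt.c, Lt.bi, Lt.fi, Lt.b] [Lt.e, Lt.f, Lt.e, Lt.bi, Lt.ci] (pair_at hinv (rf_7 hinv hr) 4 rfl) h
    · rcases brec_true h with h | h
      · rcases brec_true h with h | h
        · exact mRel_good (T := T) (by decide) [Lt.c, Lt.di] [Lt.di, Lt.b] (pair_at hinv (rb_3 hinv hr) 2 rfl) h
        · exact mRel_good (T := T) (by decide) [Lt.fi, Lt.b, Lt.c, Lt.b, Lt.ei, Lt.fi, Lt.ei] [Lt.b, Lt.ci] (pair_at hinv (rf_7 hinv hr) 6 rfl) h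
      · rcases brec_true h with h | h
        · exact mRel_good (T := T) (by decide) [Lt.e, Lt.d] [Lt.d, Lt.f] (pair_at hinv (rf_4 hinv hr) 3 rfl) h
        · exact mRel_good (T := T) (by decide) [Lt.fi, Lt.b] [Lt.b, Lt.ci, Lt.e, Lt.f, Lt.e, Lt.bi, Lt.ci] (pair_at hinv (rf_7 hinv hr) 6 rfl) h
theorem dM_2_s (hinv : ∀ x, g (inv x) = (g x)⁻¹) (hr : ∀ r ∈ rels, (r.map g).prod = 1) (j z1 z2 u : ℕ) (h : dM_2 j z1 z2 u = true) : GoodM (fa g) T MG M (cP g H) u := by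
  unfold dM_2 at h
  rcases brec_true h with h | h
  · rcases brec_true h with h | h
    · rcases brec_true h with h | h
      · exact mRel_good (T := T) (by decide) [Lt.c, Lt.bi] [Lt.e, Lt.f, Lt.e, Lt.bi, Lt.ci, Lt.bi, Lt.f] (pair_at hinv (rf_7 hinv hr) 4 rfl) h
      · exact mRel_good (T := T) (by decide) [Lt.ci, Lt.di, Lt.b] [Lt.di] (pair_at hinv (rf_3 hinv hr) 1 rfl) h
    · rcases brec_true h with h | h
      · exact mRel_good (T := T) (by decide) [Lt.d, Lt.ci] [Lt.bi, Lt.d] (pair_at hinv (rf_3 hinv hr) 0 rfl) h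
      · exact mRel_good (T := T) (by decide) [Lt.e, Lt.e] [Lt.ei, Lt.ei, Lt.ei] (pair_at hinv (rf_5 hinv hr) 0 rfl) h
  · rcases brec_true h with h | h
    · rcases brec_true h with h | h
      · exact mRel_good (T := T) (by decide) [Lt.bi, Lt.f] [Lt.c, Lt.b, Lt.ei, Lt.fi, Lt.ei, Lt.c, Lt.bi] (pair_at hinv (rb_7 hinv hr) 1 rfl) h
      · exact mRel_good (T := T) (by decide) [Lt.bi, Lt.fi, Lt.b] [Lt.ci, Lt.e, Lt.f, Lt.e, Lt.bi, Lt.ci] (pair_at hinv (rf_7 hinv hr) 5 rfl) h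
    · rcases brec_true h with h | h
      · exact mRel_good (T := T) (by decide) [Lt.ei, Lt.fi, Lt.ei] [Lt.bi, Lt.ci, Lt.bi, Lt.f, Lt.b, Lt.ci] (pair_at hinv (rf_7 hinv hr) 1 rfl) h
      · rcases brec_true h with h | h
        · exact mRel_good (T := T) (by decide) [Lt.bi, Lt.d] [Lt.d, Lt.ci] (pair_at hinv (rb_3 hinv hr) 0 rfl) h
        · exact mRel_good (T := T) (by decide) [Lt.b, Lt.d, Lt.ci] [Lt.d] (pair_at hinv (rf_3 hinv hr) 3 rfl) h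
theorem dM_3_s (hinv : ∀ x, g (inv x) = (g x)⁻¹) (hr : ∀ r ∈ rels, (r.map g).prod = 1) (j z1 z2 u : ℕ) (h : dM_3 j z1 z2 u = true) : GoodM (fa g) T MG M (cP g H) u := by
  unfold dM_3 at h
  rcases brec_true h with h | h
  · rcases brec_true h with h | h
    · rcases brec_true h with h | h
      · exact mRel_good (T := T) (by decide) [Lt.bi, Lt.f, Lt.b, Lt.ci] [Lt.c, Lt.b, Lt.ei, Lt.fi, Lt.ei] (pair_at hinv (rb_7 hinv hr) 1 rfl) h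
      · exact mRel_good (T := T) (by decide) [Lt.b, Lt.ci, Lt.e, Lt.f, Lt.e, Lt.bi, Lt.ci, Lt.bi] [Lt.fi] (pair_at hinv (rb_7 hinv hr) 3 rfl) h
    · rcases brec_true h with h | h
      · exact mRel_good (T := T) (by decide) [Lt.fi, Lt.e, Lt.bi, Lt.e, Lt.bi] [Lt.b, Lt.ei, Lt.b, Lt.ei, Lt.f] (pair_at hinv (rb_9 hinv hr) 0 rfl) h
      · exact mRel_good (T := T) (by decide) [Lt.ei, Lt.d] [Lt.d, Lt.fi] (pair_at hinv (rb_4 hinv hr) 0 rfl) h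
  · rcases brec_true h with h | h
    · rcases brec_true h with h | h
      · exact mRel_good (T := T) (by decide) [Lt.b, Lt.c, Lt.b, Lt.ei, Lt.fi, Lt.ei, Lt.c, Lt.bi] [Lt.f] (pair_at hinv (rf_7 hinv hr) 7 rfl) h
      · rcases brec_true h with h | h
        · exact mRel_good (T := T) (by decide) [Lt.ei, Lt.ei, Lt.ei, Lt.ei] [Lt.e] (pair_at hinv (rb_5 hinv hr) 0 rfl) h
        · exact mRel_good (T := T) (by decide) [Lt.ci, Lt.di] [Lt.di, Lt.bi] (pair_at hinv (rf_3 hinv hr) 1 rfl) h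
    · rcases brec_true h with h | h
      · rcases brec_true h with h | h
        · exact mRel_good (T := T) (by decide) [Lt.c, Lt.fi, Lt.b, Lt.ei, Lt.c, Lt.bi] [Lt.e, Lt.b, Lt.e, Lt.fi] (pair_at hinv (rb_11 hinv hr) 1 rfl) h
        · exact mRel_good (T := T) (by decide) [Lt.f, Lt.b, Lt.ci, Lt.e, Lt.f, Lt.e] [Lt.b, Lt.c, Lt.b] (pair_at hinv (rb_7 hinv hr) 2 rfl) h
      · rcases brec_true h with h | h
        · exact mRel_good (T := T) (by decide) [Lt.fi, Lt.ei, Lt.c, Lt.bi, Lt.fi, Lt.b, Lt.c] [Lt.e, Lt.bi] (pair_at hinv (rf_7 hinv hr) 2 rfl) h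
        · exact mRel_good (T := T) (by decide) [Lt.b, Lt.ci, Lt.f, Lt.c, Lt.f, Lt.f, Lt.ei] [Lt.e, Lt.b, Lt.e] (pair_at hinv (rb_17 hinv hr) 1 rfl) h
theorem dM_4_s (hinv : ∀ x, g (inv x) = (g x)⁻¹) (hr : ∀ r ∈ rels, (r.map g).prod = 1) (j z1 z2 u : ℕ) (h : dM_4 j z1 z2 u = true) : GoodM (fa g) T MG M (cP g H) u := by
  unfold dM_4 at h
  rcases brec_true h with h | h
  · exact dM_2_s hinv hr j z1 z2 u h
  · exact dM_3_s hinv hr j z1 z2 u h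
theorem dM_5_s (hinv : ∀ x, g (inv x) = (g x)⁻¹) (hr : ∀ r ∈ rels, (r.map g).prod = 1) (j z1 z2 u : ℕ) (h : dM_5 j z1 z2 u = true) : GoodM (fa g) T MG M (cP g H) u := by
  unfold dM_5 at h
  rcases brec_true h with h | h
  · exact dM_1_s hinv hr j z1 z2 u h
  · exact dM_4_s hinv hr j z1 z2 u h
theorem dM_6_s (hinv : ∀ x, g (inv x) = (g x)⁻¹) (hr : ∀ r ∈ rels, (r.map g).prod = 1) (j z1 z2 u : ℕ) (h : dM_6 j z1 z2 u = true) : GoodM (fa g) T MG M (cP g H) u := by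
  unfold dM_6 at h
  rcases brec_true h with h | h
  · rcases brec_true h with h | h
    · exact mRel_good (T := T) (by decide) [Lt.bi, Lt.fi, Lt.b, Lt.c, Lt.b, Lt.ei] [Lt.ci, Lt.e, Lt.f] (pair_at hinv (rf_7 hinv hr) 5 rfl) h
    · rcases brec_true h with h | h
      · exact mRel_good (T := T) (by decide) [Lt.bi, Lt.f, Lt.b, Lt.ci, Lt.e, Lt.f] [Lt.c, Lt.b, Lt.ei] (pair_at hinv (rb_7 hinv hr) 1 rfl) h
      · exact mRel_good (T := T) (by decide) [Lt.ci, Lt.fi, Lt.c, Lt.fi, Lt.fi, Lt.ci, Lt.fi] [Lt.f, Lt.f, Lt.ci] (pair_at hinv (rb_13 hinv hr) 4 rfl) h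
  · rcases brec_true h with h | h
    · exact mRel_good (T := T) (by decide) [Lt.fi, Lt.e, Lt.f, Lt.ei, Lt.bi, Lt.e, Lt.b, Lt.ei, Lt.bi, Lt.c] [] (pair_at hinv (rb_15 hinv hr) 1 rfl) h
    · rcases brec_true h with h | h
      · exact mRel_good (T := T) (by decide) [Lt.ci, Lt.e, Lt.f] [Lt.bi, Lt.fi, Lt.b, Lt.c, Lt.b, Lt.ei] (pair_at hinv (rb_7 hinv hr) 4 rfl) h
      · exact mRel_good (T := T) (by decide) [Lt.b, Lt.fi, Lt.ei, Lt.ei, Lt.f] [Lt.f, Lt.c, Lt.bi, Lt.ci, Lt.ei] (pair_at hinv (rf_18 hinv hr) 3 rfl) h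
theorem dM_7_s (hinv : ∀ x, g (inv x) = (g x)⁻¹) (hr : ∀ r ∈ rels, (r.map g).prod = 1) (j z1 z2 u : ℕ) (h : dM_7 j z1 z2 u = true) : GoodM (fa g) T MG M (cP g H) u := by
  unfold dM_7 at h
  rcases brec_true h with h | h
  · rcases brec_true h with h | h
    · exact mRel_good (T := T) (by decide) [Lt.bi, Lt.fi] [Lt.ci, Lt.e, Lt.f, Lt.e, Lt.bi, Lt.ci, Lt.bi] (pair_at hinv (rf_7 hinv hr) 5 rfl) h
    · rcases brec_true h with h | h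
      · exact mRel_good (T := T) (by decide) [Lt.bi, Lt.e, Lt.bi] [Lt.ei, Lt.f, Lt.b, Lt.ei, Lt.b, Lt.ei, Lt.f] (pair_at hinv (rb_9 hinv hr) 2 rfl) h
      · exact mRel_good (T := T) (by decide) [Lt.e, Lt.f, Lt.e, Lt.bi, Lt.ci, Lt.bi] [Lt.c, Lt.bi, Lt.fi] (pair_at hinv (rb_7 hinv hr) 5 rfl) h
  · rcases brec_true h with h | h
    · rcases brec_true h with h | h
      · exact mRel_good (T := T) (by decide) [Lt.e, Lt.bi, Lt.ci, Lt.bi, Lt.f, Lt.b] [Lt.fi, Lt.ei, Lt.c] (pair_at hinv (rb_7 hinv hr) 7 rfl) h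
      · exact mRel_good (T := T) (by decide) [Lt.b, Lt.d] [Lt.d, Lt.c] (pair_at hinv (rf_3 hinv hr) 3 rfl) h
    · rcases brec_true h with h | h
      · exact mRel_good (T := T) (by decide) [Lt.bi, Lt.ci, Lt.bi, Lt.f, Lt.b, Lt.ci, Lt.e, Lt.f] [Lt.ei] (pair_at hinv (rb_7 hinv hr) 8 rfl) h
      · exact mRel_good (T := T) (by decide) [Lt.bi, Lt.fi, Lt.b, Lt.c, Lt.b] [Lt.ci, Lt.e, Lt.f, Lt.e] (pair_at hinv (rf_7 hinv hr) 5 rfl) h
theorem dM_8_s (hinv : ∀ x, g (inv x) = (g x)⁻¹) (hr : ∀ r ∈ rels, (r.map g).prod = 1) (j z1 z2 u : ℕ) (h : dM_8 j z1 z2 u = true) : GoodM (fa g) T MG M (cP g H) u := by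
  unfold dM_8 at h
  rcases brec_true h with h | h
  · exact dM_6_s hinv hr j z1 z2 u h
  · exact dM_7_s hinv hr j z1 z2 u h
theorem dM_9_s (hinv : ∀ x, g (inv x) = (g x)⁻¹) (hr : ∀ r ∈ rels, (r.map g).prod = 1) (j z1 z2 u : ℕ) (h : dM_9 j z1 z2 u = true) : GoodM (fa g) T MG M (cP g H) u := by
  unfold dM_9 at h
  rcases brec_true h with h | h
  · rcases brec_true h with h | h
    · exact mRel_good (T := T) (by decide) [Lt.b, Lt.ei, Lt.fi, Lt.ei, Lt.c, Lt.bi, Lt.fi, Lt.b] [Lt.ci] (pair_at hinv (rf_7 hinv hr) 0 rfl) h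
    · rcases brec_true h with h | h
      · exact mRel_good (T := T) (by decide) [Lt.b, Lt.ci] [Lt.fi, Lt.b, Lt.c, Lt.b, Lt.ei, Lt.fi, Lt.ei] (pair_at hinv (rb_7 hinv hr) 3 rfl) h
      · exact mRel_good (T := T) (by decide) [Lt.e, Lt.bi, Lt.ci] [Lt.fi, Lt.ei, Lt.c, Lt.bi, Lt.fi, Lt.b] (pair_at hinv (rb_7 hinv hr) 7 rfl) h
  · rcases brec_true h with h | h
    · exact mRel_good (T := T) (by decide) [Lt.e, Lt.e, Lt.f, Lt.bi, Lt.f, Lt.c, Lt.bi, Lt.ci] [Lt.f, Lt.e] (pair_at hinv (rb_18 hinv hr) 3 rfl) h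
    · rcases brec_true h with h | h
      · exact mRel_good (T := T) (by decide) [Lt.ei, Lt.bi, Lt.e, Lt.b, Lt.ei, Lt.bi, Lt.c] [Lt.fi, Lt.ei, Lt.f] (pair_at hinv (rb_15 hinv hr) 4 rfl) h
      · exact mRel_good (T := T) (by decide) [Lt.ei, Lt.f, Lt.e, Lt.c] [Lt.e, Lt.f, Lt.bi, Lt.f, Lt.c, Lt.bi] (pair_at hinv (rf_18 hinv hr) 6 rfl) h
theorem dM_10_s (hinv : ∀ x, g (inv x) = (g x)⁻¹) (hr : ∀ r ∈ rels, (r.map g).prod = 1) (j z1 z2 u : ℕ) (h : dM_10 j z1 z2 u = true) : GoodM (fa g) T MG M (cP g H) u := by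
  unfold dM_10 at h
  rcases brec_true h with h | h
  · rcases brec_true h with h | h
    · exact mRel_good (T := T) (by decide) [Lt.f, Lt.e, Lt.bi, Lt.ci, Lt.bi] [Lt.ei, Lt.c, Lt.bi, Lt.fi] (pair_at hinv (rb_7 hinv hr) 6 rfl) h
    · rcases brec_true h with h | h
      · exact mRel_good (T := T) (by decide) [Lt.ci, Lt.e, Lt.f, Lt.e, Lt.bi, Lt.ci, Lt.bi] [Lt.bi, Lt.fi] (pair_at hinv (rb_7 hinv hr) 4 rfl) h
      · exact mRel_good (T := T) (by decide) [Lt.ei] [Lt.bi, Lt.ci, Lt.bi, Lt.f, Lt.b, Lt.ci, Lt.e, Lt.f] (pair_at hinv (rf_7 hinv hr) 1 rfl) h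
  · rcases brec_true h with h | h
    · rcases brec_true h with h | h
      · exact mRel_good (T := T) (by decide) [Lt.e, Lt.b, Lt.ci, Lt.f, Lt.c, Lt.bi] [Lt.ci, Lt.fi, Lt.ei, Lt.ci] (pair_at hinv (rf_12 hinv hr) 9 rfl) h
      · exact mRel_good (T := T) (by decide) [Lt.c, Lt.f, Lt.ci, Lt.ei, Lt.ci, Lt.f, Lt.f, Lt.ei] [Lt.f, Lt.c] (pair_at hinv (rb_16 hinv hr) 6 rfl) h
    · rcases brec_true h with h | h
      · exact mRel_good (T := T) (by decide) [Lt.b, Lt.c, Lt.b, Lt.ei, Lt.fi] [Lt.f, Lt.b, Lt.ci, Lt.e] (pair_at hinv (rf_7 hinv hr) 7 rfl) h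
      · exact mRel_good (T := T) (by decide) [Lt.bi, Lt.ci] [Lt.ei, Lt.fi, Lt.ei, Lt.c, Lt.bi, Lt.fi, Lt.b] (pair_at hinv (rb_7 hinv hr) 8 rfl) h
theorem dM_11_s (hinv : ∀ x, g (inv x) = (g x)⁻¹) (hr : ∀ r ∈ rels, (r.map g).prod = 1) (j z1 z2 u : ℕ) (h : dM_11 j z1 z2 u = true) : GoodM (fa g) T MG M (cP g H) u := by
  unfold dM_11 at h
  rcases brec_true h with h | h
  · exact dM_9_s hinv hr j z1 z2 u h
  · exact dM_10_s hinv hr j z1 z2 u h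
theorem dM_12_s (hinv : ∀ x, g (inv x) = (g x)⁻¹) (hr : ∀ r ∈ rels, (r.map g).prod = 1) (j z1 z2 u : ℕ) (h : dM_12 j z1 z2 u = true) : GoodM (fa g) T MG M (cP g H) u := by
  unfold dM_12 at h
  rcases brec_true h with h | h
  · exact dM_8_s hinv hr j z1 z2 u h
  · exact dM_11_s hinv hr j z1 z2 u h
theorem dM_13_s (hinv : ∀ x, g (inv x) = (g x)⁻¹) (hr : ∀ r ∈ rels, (r.map g).prod = 1) (j z1 z2 u : ℕ) (h : dM_13 j z1 z2 u = true) : GoodM (fa g) T MG M (cP g H) u := by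
  unfold dM_13 at h
  rcases brec_true h with h | h
  · rcases brec_true h with h | h
    · exact mRel_good (T := T) (by decide) [Lt.e, Lt.e, Lt.e] [Lt.ei, Lt.ei] (pair_at hinv (rf_5 hinv hr) 0 rfl) h
    · rcases brec_true h with h | h
      · exact mRel_good (T := T) (by decide) [Lt.e, Lt.bi, Lt.ci, Lt.bi, Lt.f, Lt.b, Lt.ci] [Lt.fi, Lt.ei] (pair_at hinv (rb_7 hinv hr) 7 rfl) h
      · exact mRel_good (T := T) (by decide) [Lt.b, Lt.ci, Lt.e, Lt.f, Lt.e, Lt.bi] [Lt.fi, Lt.b, Lt.c] (pair_at hinv (rb_7 hinv hr) 3 rfl) h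
  · rcases brec_true h with h | h
    · exact mRel_good (T := T) (by decide) [Lt.bi, Lt.e, Lt.b, Lt.ei, Lt.bi, Lt.c] [Lt.e, Lt.fi, Lt.ei, Lt.f] (pair_at hinv (rb_15 hinv hr) 5 rfl) h
    · rcases brec_true h with h | h
      · exact mRel_good (T := T) (by decide) [Lt.di, Lt.ei, Lt.d] [Lt.fi] (pair_at hinv (rb_4 hinv hr) 3 rfl) h
      · exact mRel_good (T := T) (by decide) [Lt.di, Lt.e, Lt.d] [Lt.f] (pair_at hinv (rf_4 hinv hr) 2 rfl) h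
theorem dM_14_s (hinv : ∀ x, g (inv x) = (g x)⁻¹) (hr : ∀ r ∈ rels, (r.map g).prod = 1) (j z1 z2 u : ℕ) (h : dM_14 j z1 z2 u = true) : GoodM (fa g) T MG M (cP g H) u := by
  unfold dM_14 at h
  rcases brec_true h with h | h
  · rcases brec_true h with h | h
    · exact mRel_good (T := T) (by decide) [Lt.ei, Lt.d, Lt.f] [Lt.d] (pair_at hinv (rb_4 hinv hr) 0 rfl) h
    · rcases brec_true h with h | h
      · exact mRel_good (T := T) (by decide) [Lt.bi, Lt.fi, Lt.b, Lt.c, Lt.b, Lt.ei, Lt.fi] [Lt.ci, Lt.e] (pair_at hinv (rf_7 hinv hr) 5 rfl) h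
      · exact mRel_good (T := T) (by decide) [Lt.di, Lt.b] [Lt.c, Lt.di] (pair_at hinv (rf_3 hinv hr) 2 rfl) h
  · rcases brec_true h with h | h
    · rcases brec_true h with h | h
      · exact mRel_good (T := T) (by decide) [Lt.di, Lt.ei] [Lt.fi, Lt.di] (pair_at hinv (rb_4 hinv hr) 3 rfl) h
      · exact mRel_good (T := T) (by decide) [Lt.e, Lt.bi, Lt.ci, Lt.bi, Lt.f, Lt.b, Lt.ci, Lt.e] [Lt.fi] (pair_at hinv (rb_7 hinv hr) 7 rfl) h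
    · rcases brec_true h with h | h
      · exact mRel_good (T := T) (by decide) [Lt.f, Lt.di] [Lt.di, Lt.e] (pair_at hinv (rb_4 hinv hr) 2 rfl) h
      · exact mRel_good (T := T) (by decide) [Lt.fi, Lt.b, Lt.fi, Lt.ei, Lt.ei, Lt.f] [Lt.c, Lt.bi, Lt.ci, Lt.ei] (pair_at hinv (rf_18 hinv hr) 2 rfl) h
theorem dM_15_s (hinv : ∀ x, g (inv x) = (g x)⁻¹) (hr : ∀ r ∈ rels, (r.map g).prod = 1) (j z1 z2 u : ℕ) (h : dM_15 j z1 z2 u = true) : GoodM (fa g) T MG M (cP g H) u := by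
  unfold dM_15 at h
  rcases brec_true h with h | h
  · exact dM_13_s hinv hr j z1 z2 u h
  · exact dM_14_s hinv hr j z1 z2 u h
theorem dM_16_s (hinv : ∀ x, g (inv x) = (g x)⁻¹) (hr : ∀ r ∈ rels, (r.map g).prod = 1) (j z1 z2 u : ℕ) (h : dM_16 j z1 z2 u = true) : GoodM (fa g) T MG M (cP g H) u := by
  unfold dM_16 at h
  rcases brec_true h with h | h
  · rcases brec_true h with h | h
    · rcases brec_true h with h | h
      · exact mRel_good (T := T) (by decide) [Lt.ei, Lt.fi, Lt.ei, Lt.c] [Lt.bi, Lt.ci, Lt.bi, Lt.f, Lt.b] (pair_at hinv (rf_7 hinv hr) 1 rfl) h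
      · exact mRel_good (T := T) (by decide) [Lt.ci, Lt.fi] [Lt.e, Lt.fi, Lt.fi, Lt.c, Lt.e, Lt.c, Lt.fi, Lt.ci] (pair_at hinv (rb_16 hinv hr) 4 rfl) h
    · rcases brec_true h with h | h
      · exact mRel_good (T := T) (by decide) [Lt.ei, Lt.c] [Lt.bi, Lt.f, Lt.ci, Lt.e, Lt.b, Lt.e, Lt.fi, Lt.b] (pair_at hinv (rb_11 hinv hr) 4 rfl) h
      · rcases brec_true h with h | h
        · exact mRel_good (T := T) (by decide) [Lt.e, Lt.e, Lt.bi, Lt.e] [Lt.bi, Lt.ei, Lt.b, Lt.ei, Lt.ei, Lt.bi] (pair_at hinv (rf_8 hinv hr) 1 rfl) h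
        · exact mRel_good (T := T) (by decide) [Lt.bi, Lt.c] [Lt.e, Lt.bi, Lt.ei, Lt.b, Lt.e, Lt.fi, Lt.ei, Lt.f] (pair_at hinv (rb_15 hinv hr) 9 rfl) h
  · rcases brec_true h with h | h
    · rcases brec_true h with h | h
      · exact mRel_good (T := T) (by decide) [Lt.c, Lt.bi, Lt.c, Lt.e, Lt.f, Lt.c, Lt.e, Lt.b] [Lt.fi, Lt.c] (pair_at hinv (rf_12 hinv hr) 3 rfl) h
      · rcases brec_true h with h | h
        · exact mRel_good (T := T) (by decide) [Lt.ei, Lt.ei, Lt.f, Lt.e] [Lt.f, Lt.bi, Lt.f, Lt.c, Lt.bi, Lt.ci] (pair_at hinv (rf_18 hinv hr) 5 rfl) h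
        · exact mRel_good (T := T) (by decide) [Lt.e, Lt.e] [Lt.b, Lt.ei, Lt.bi, Lt.ei, Lt.ei, Lt.b, Lt.ei, Lt.bi] (pair_at hinv (rf_14 hinv hr) 3 rfl) h
    · rcases brec_true h with h | h
      · rcases brec_true h with h | h
        · exact mRel_good (T := T) (by decide) [Lt.fi, Lt.b, Lt.c] [Lt.b, Lt.ci, Lt.e, Lt.f, Lt.e, Lt.bi] (pair_at hinv (rf_7 hinv hr) 6 rfl) h
        · exact mRel_good (T := T) (by decide) [Lt.e, Lt.bi, Lt.fi, Lt.e, Lt.bi, Lt.e, Lt.bi, Lt.fi, Lt.e] [Lt.b] (pair_at hinv (rb_9 hinv hr) 3 rfl) h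
      · rcases brec_true h with h | h
        · exact mRel_good (T := T) (by decide) [Lt.ei, Lt.bi, Lt.ei] [Lt.e, Lt.fi, Lt.fi, Lt.ci, Lt.fi, Lt.c, Lt.bi] (pair_at hinv (rb_17 hinv hr) 8 rfl) h
        · exact mRel_good (T := T) (by decide) [Lt.ci, Lt.e, Lt.f, Lt.e, Lt.bi, Lt.ci] [Lt.bi, Lt.fi, Lt.b] (pair_at hinv (rb_7 hinv hr) 4 rfl) h
theorem dM_17_s (hinv : ∀ x, g (inv x) = (g x)⁻¹) (hr : ∀ r ∈ rels, (r.map g).prod = 1) (j z1 z2 u : ℕ) (h : dM_17 j z1 z2 u = true) : GoodM (fa g) T MG M (cP g H) u := by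
  unfold dM_17 at h
  rcases brec_true h with h | h
  · rcases brec_true h with h | h
    · exact mRel_good (T := T) (by decide) [Lt.e, Lt.f, Lt.e] [Lt.c, Lt.bi, Lt.fi, Lt.b, Lt.c, Lt.b] (pair_at hinv (rb_7 hinv hr) 5 rfl) h
    · rcases brec_true h with h | h
      · exact mRel_good (T := T) (by decide) [Lt.ei, Lt.bi, Lt.ci, Lt.fi] [Lt.b, Lt.f, Lt.c, Lt.ei, Lt.f, Lt.b] (pair_at hinv (rb_19 hinv hr) 8 rfl) h
      · exact mRel_good (T := T) (by decide) [Lt.ei, Lt.c, Lt.bi] [Lt.f, Lt.e, Lt.bi, Lt.ci, Lt.bi, Lt.f] (pair_at hinv (rf_7 hinv hr) 3 rfl) h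
  · rcases brec_true h with h | h
    · rcases brec_true h with h | h
      · exact mRel_good (T := T) (by decide) [Lt.ci, Lt.e, Lt.c, Lt.f, Lt.c, Lt.fi, Lt.ei, Lt.ei, Lt.ci, Lt.f] [] (pair_at hinv (rb_10 hinv hr) 2 rfl) h
      · exact mRel_good (T := T) (by decide) [Lt.fi, Lt.fi, Lt.ci] [Lt.ci, Lt.f, Lt.c, Lt.f, Lt.f, Lt.ci, Lt.f] (pair_at hinv (rb_13 hinv hr) 2 rfl) h
    · rcases brec_true h with h | h
      · exact mRel_good (T := T) (by decide) [Lt.e, Lt.b, Lt.e, Lt.fi, Lt.b, Lt.ci, Lt.e, Lt.bi] [Lt.c, Lt.fi] (pair_at hinv (rf_11 hinv hr) 9 rfl) h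
      · exact mRel_good (T := T) (by decide) [Lt.fi, Lt.e, Lt.e, Lt.f, Lt.bi, Lt.f, Lt.c, Lt.bi] [Lt.e, Lt.c] (pair_at hinv (rb_18 hinv hr) 2 rfl) h
theorem dM_18_s (hinv : ∀ x, g (inv x) = (g x)⁻¹) (hr : ∀ r ∈ rels, (r.map g).prod = 1) (j z1 z2 u : ℕ) (h : dM_18 j z1 z2 u = true) : GoodM (fa g) T MG M (cP g H) u := by
  unfold dM_18 at h
  rcases brec_true h with h | h
  · rcases brec_true h with h | h
    · exact mRel_good (T := T) (by decide) [Lt.ci, Lt.f, Lt.f, Lt.ei, Lt.ci] [Lt.e, Lt.c, Lt.fi, Lt.ci, Lt.f] (pair_at hinv (rb_16 hinv hr) 0 rfl) h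
    · rcases brec_true h with h | h
      · exact mRel_good (T := T) (by decide) [Lt.b, Lt.fi, Lt.ei, Lt.ei, Lt.f, Lt.e, Lt.c] [Lt.f, Lt.c, Lt.bi] (pair_at hinv (rf_18 hinv hr) 3 rfl) h
      · exact mRel_good (T := T) (by decide) [Lt.f, Lt.ei, Lt.ci, Lt.fi, Lt.c, Lt.f, Lt.ci, Lt.ei, Lt.ci] [Lt.fi] (pair_at hinv (rb_16 hinv hr) 2 rfl) h
  · rcases brec_true h with h | h
    · rcases brec_true h with h | h
      · exact mRel_good (T := T) (by decide) [Lt.f, Lt.e, Lt.c, Lt.b] [Lt.e, Lt.e, Lt.f, Lt.bi, Lt.f, Lt.c] (pair_at hinv (rf_18 hinv hr) 7 rfl) h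
      · exact mRel_good (T := T) (by decide) [Lt.ci, Lt.f, Lt.f] [Lt.e, Lt.c, Lt.fi, Lt.ci, Lt.f, Lt.c, Lt.e] (pair_at hinv (rb_16 hinv hr) 0 rfl) h
    · rcases brec_true h with h | h
      · exact mRel_good (T := T) (by decide) [Lt.ei, Lt.f, Lt.ci] [Lt.f, Lt.ei, Lt.bi, Lt.e, Lt.b, Lt.ei, Lt.bi] (pair_at hinv (rf_15 hinv hr) 7 rfl) h
      · exact mRel_good (T := T) (by decide) [Lt.f, Lt.ci, Lt.e] [Lt.c, Lt.e, Lt.e, Lt.f, Lt.ci, Lt.fi, Lt.ci] (pair_at hinv (rb_10 hinv hr) 1 rfl) h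
theorem dM_19_s (hinv : ∀ x, g (inv x) = (g x)⁻¹) (hr : ∀ r ∈ rels, (r.map g).prod = 1) (j z1 z2 u : ℕ) (h : dM_19 j z1 z2 u = true) : GoodM (fa g) T MG M (cP g H) u := by
  unfold dM_19 at h
  rcases brec_true h with h | h
  · exact dM_17_s hinv hr j z1 z2 u h
  · exact dM_18_s hinv hr j z1 z2 u h
theorem dM_20_s (hinv : ∀ x, g (inv x) = (g x)⁻¹) (hr : ∀ r ∈ rels, (r.map g).prod = 1) (j z1 z2 u : ℕ) (h : dM_20 j z1 z2 u = true) : GoodM (fa g) T MG M (cP g H) u := by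
  unfold dM_20 at h
  rcases brec_true h with h | h
  · exact dM_16_s hinv hr j z1 z2 u h
  · exact dM_19_s hinv hr j z1 z2 u h
theorem dM_21_s (hinv : ∀ x, g (inv x) = (g x)⁻¹) (hr : ∀ r ∈ rels, (r.map g).prod = 1) (j z1 z2 u : ℕ) (h : dM_21 j z1 z2 u = true) : GoodM (fa g) T MG M (cP g H) u := by
  unfold dM_21 at h
  rcases brec_true h with h | h
  · exact dM_15_s hinv hr j z1 z2 u h
  · exact dM_20_s hinv hr j z1 z2 u h
theorem dM_22_s (hinv : ∀ x, g (inv x) = (g x)⁻¹) (hr : ∀ r ∈ rels, (r.map g).prod = 1) (j z1 z2 u : ℕ) (h : dM_22 j z1 z2 u = true) : GoodM (fa g) T MG M (cP g H) u := by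
  unfold dM_22 at h
  rcases brec_true h with h | h
  · exact dM_12_s hinv hr j z1 z2 u h
  · exact dM_21_s hinv hr j z1 z2 u h
theorem dM_23_s (hinv : ∀ x, g (inv x) = (g x)⁻¹) (hr : ∀ r ∈ rels, (r.map g).prod = 1) (j z1 z2 u : ℕ) (h : dM_23 j z1 z2 u = true) : GoodM (fa g) T MG M (cP g H) u := by
  unfold dM_23 at h
  rcases brec_true h with h | h
  · exact dM_5_s hinv hr j z1 z2 u h
  · exact dM_22_s hinv hr j z1 z2 u h
theorem dM_24_s (hinv : ∀ x, g (inv x) = (g x)⁻¹) (hr : ∀ r ∈ rels, (r.map g).prod = 1) (j z1 z2 u : ℕ) (h : dM_24 j z1 z2 u = true) : GoodM (fa g) T MG M (cP g H) u := by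
  unfold dM_24 at h
  rcases brec_true h with h | h
  · rcases brec_true h with h | h
    · exact mRel_good (T := T) (by decide) [Lt.bi, Lt.bi] [Lt.b] (pair_at hinv (rb_0 hinv hr) 0 rfl) h
    · rcases brec_true h with h | h
      · exact mRel_good (T := T) (by decide) [Lt.bi, Lt.fi, Lt.e, Lt.bi, Lt.e, Lt.bi] [Lt.ei, Lt.b, Lt.ei, Lt.f] (pair_at hinv (rb_9 hinv hr) 4 rfl) h
      · exact mRel_good (T := T) (by decide) [Lt.f, Lt.ei, Lt.ci] [Lt.fi, Lt.c, Lt.e, Lt.c, Lt.fi, Lt.ci, Lt.f] (pair_at hinv (rb_16 hinv hr) 2 rfl) h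
  · rcases brec_true h with h | h
    · exact mRel_good (T := T) (by decide) [Lt.fi, Lt.ei, Lt.ei, Lt.ci, Lt.f, Lt.ci, Lt.e] [Lt.ci, Lt.fi, Lt.ci] (pair_at hinv (rb_10 hinv hr) 7 rfl) h
    · rcases brec_true h with h | h
      · exact mRel_good (T := T) (by decide) [Lt.c, Lt.b, Lt.e, Lt.b, Lt.f, Lt.c, Lt.ei] [Lt.fi, Lt.bi, Lt.fi] (pair_at hinv (rf_19 hinv hr) 9 rfl) h
      · exact mRel_good (T := T) (by decide) [Lt.e, Lt.fi, Lt.fi, Lt.ci, Lt.fi, Lt.c] [Lt.ei, Lt.bi, Lt.ei, Lt.b] (pair_at hinv (rf_17 hinv hr) 2 rfl) h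
theorem dM_25_s (hinv : ∀ x, g (inv x) = (g x)⁻¹) (hr : ∀ r ∈ rels, (r.map g).prod = 1) (j z1 z2 u : ℕ) (h : dM_25 j z1 z2 u = true) : GoodM (fa g) T MG M (cP g H) u := by
  unfold dM_25 at h
  rcases brec_true h with h | h
  · rcases brec_true h with h | h
    · exact mRel_good (T := T) (by decide) [Lt.e] [Lt.bi, Lt.ei, Lt.ei, Lt.b, Lt.ei, Lt.bi, Lt.ei, Lt.ei, Lt.b] (pair_at hinv (rf_14 hinv hr) 1 rfl) h
    · rcases brec_true h with h | h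
      · exact mRel_good (T := T) (by decide) [Lt.ci, Lt.fi, Lt.bi, Lt.ei] [Lt.ei, Lt.f, Lt.b, Lt.f, Lt.c, Lt.b] (pair_at hinv (rb_19 hinv hr) 5 rfl) h
      · exact mRel_good (T := T) (by decide) [Lt.f, Lt.f, Lt.ci] [Lt.ci, Lt.fi, Lt.c, Lt.fi, Lt.fi, Lt.ci, Lt.fi] (pair_at hinv (rf_13 hinv hr) 1 rfl) h
  · rcases brec_true h with h | h
    · rcases brec_true h with h | h
      · exact mRel_good (T := T) (by decide) [Lt.bi, Lt.e, Lt.b, Lt.ei, Lt.bi, Lt.c, Lt.fi, Lt.e] [Lt.e, Lt.fi] (pair_at hinv (rb_15 hinv hr) 5 rfl) h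
      · exact mRel_good (T := T) (by decide) [Lt.e, Lt.e, Lt.f, Lt.bi, Lt.f] [Lt.f, Lt.e, Lt.c, Lt.b, Lt.ci] (pair_at hinv (rb_18 hinv hr) 3 rfl) h
    · rcases brec_true h with h | h
      · exact mRel_good (T := T) (by decide) [Lt.f, Lt.f, Lt.f] [Lt.fi, Lt.fi] (pair_at hinv (rf_6 hinv hr) 0 rfl) h
      · exact mRel_good (T := T) (by decide) [Lt.bi, Lt.ci, Lt.bi] [Lt.ei, Lt.fi, Lt.ei, Lt.c, Lt.bi, Lt.fi] (pair_at hinv (rb_7 hinv hr) 8 rfl) h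
theorem dM_26_s (hinv : ∀ x, g (inv x) = (g x)⁻¹) (hr : ∀ r ∈ rels, (r.map g).prod = 1) (j z1 z2 u : ℕ) (h : dM_26 j z1 z2 u = true) : GoodM (fa g) T MG M (cP g H) u := by
  unfold dM_26 at h
  rcases brec_true h with h | h
  · exact dM_24_s hinv hr j z1 z2 u h
  · exact dM_25_s hinv hr j z1 z2 u h
theorem dM_27_s (hinv : ∀ x, g (inv x) = (g x)⁻¹) (hr : ∀ r ∈ rels, (r.map g).prod = 1) (j z1 z2 u : ℕ) (h : dM_27 j z1 z2 u = true) : GoodM (fa g) T MG M (cP g H) u := by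
  unfold dM_27 at h
  rcases brec_true h with h | h
  · rcases brec_true h with h | h
    · exact mRel_good (T := T) (by decide) [Lt.e, Lt.e, Lt.b] [Lt.b, Lt.ei, Lt.bi, Lt.ei, Lt.ei, Lt.b, Lt.ei] (pair_at hinv (rf_14 hinv hr) 3 rfl) h
    · rcases brec_true h with h | h
      · exact mRel_good (T := T) (by decide) [Lt.fi, Lt.ei, Lt.ei, Lt.f, Lt.e, Lt.c, Lt.b] [Lt.bi, Lt.f, Lt.c] (pair_at hinv (rf_18 hinv hr) 4 rfl) h
      · exact mRel_good (T := T) (by decide) [Lt.b, Lt.c, Lt.b, Lt.ei] [Lt.f, Lt.b, Lt.ci, Lt.e, Lt.f] (pair_at hinv (rf_7 hinv hr) 7 rfl) h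
  · rcases brec_true h with h | h
    · exact mRel_good (T := T) (by decide) [Lt.ci, Lt.b, Lt.ci] [Lt.e, Lt.f, Lt.c, Lt.e, Lt.b, Lt.ci, Lt.f] (pair_at hinv (rb_12 hinv hr) 4 rfl) h
    · rcases brec_true h with h | h
      · exact mRel_good (T := T) (by decide) [Lt.bi, Lt.ci, Lt.bi, Lt.f] [Lt.ei, Lt.fi, Lt.ei, Lt.c, Lt.bi] (pair_at hinv (rb_7 hinv hr) 8 rfl) h
      · exact mRel_good (T := T) (by decide) [Lt.c, Lt.e, Lt.f, Lt.c, Lt.e, Lt.b, Lt.ci, Lt.f, Lt.c] [Lt.b] (pair_at hinv (rf_12 hinv hr) 5 rfl) h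
theorem dM_28_s (hinv : ∀ x, g (inv x) = (g x)⁻¹) (hr : ∀ r ∈ rels, (r.map g).prod = 1) (j z1 z2 u : ℕ) (h : dM_28 j z1 z2 u = true) : GoodM (fa g) T MG M (cP g H) u := by
  unfold dM_28 at h
  rcases brec_true h with h | h
  · rcases brec_true h with h | h
    · exact mRel_good (T := T) (by decide) [Lt.b, Lt.e, Lt.e, Lt.fi] [Lt.ei, Lt.b, Lt.ci, Lt.f, Lt.c, Lt.f] (pair_at hinv (rf_17 hinv hr) 0 rfl) h
    · rcases brec_true h with h | h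
      · exact mRel_good (T := T) (by decide) [Lt.fi, Lt.bi, Lt.ei, Lt.bi, Lt.ci, Lt.fi] [Lt.c, Lt.ei, Lt.f, Lt.b] (pair_at hinv (rb_19 hinv hr) 6 rfl) h
      · exact mRel_good (T := T) (by decide) [Lt.e, Lt.e, Lt.f, Lt.bi, Lt.f, Lt.c, Lt.bi] [Lt.f, Lt.e, Lt.c] (pair_at hinv (rb_18 hinv hr) 3 rfl) h
  · rcases brec_true h with h | h
    · rcases brec_true h with h | h
      · exact mRel_good (T := T) (by decide) [Lt.b, Lt.ei, Lt.bi] [Lt.ei, Lt.b, Lt.e, Lt.fi, Lt.ei, Lt.f, Lt.ci] (pair_at hinv (rb_15 hinv hr) 7 rfl) h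
      · exact mRel_good (T := T) (by decide) [Lt.c, Lt.b, Lt.e, Lt.b, Lt.f, Lt.c, Lt.ei, Lt.f, Lt.b] [Lt.fi] (pair_at hinv (rf_19 hinv hr) 9 rfl) h
    · rcases brec_true h with h | h
      · exact mRel_good (T := T) (by decide) [Lt.e, Lt.bi, Lt.e, Lt.bi, Lt.fi, Lt.e, Lt.bi] [Lt.f, Lt.b, Lt.ei] (pair_at hinv (rb_9 hinv hr) 1 rfl) h
      · exact mRel_good (T := T) (by decide) [Lt.fi, Lt.e, Lt.f] [Lt.ci, Lt.b, Lt.e, Lt.bi, Lt.ei, Lt.b, Lt.e] (pair_at hinv (rb_15 hinv hr) 1 rfl) h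
theorem dM_29_s (hinv : ∀ x, g (inv x) = (g x)⁻¹) (hr : ∀ r ∈ rels, (r.map g).prod = 1) (j z1 z2 u : ℕ) (h : dM_29 j z1 z2 u = true) : GoodM (fa g) T MG M (cP g H) u := by
  unfold dM_29 at h
  rcases brec_true h with h | h
  · exact dM_27_s hinv hr j z1 z2 u h
  · exact dM_28_s hinv hr j z1 z2 u h
theorem dM_30_s (hinv : ∀ x, g (inv x) = (g x)⁻¹) (hr : ∀ r ∈ rels, (r.map g).prod = 1) (j z1 z2 u : ℕ) (h : dM_30 j z1 z2 u = true) : GoodM (fa g) T MG M (cP g H) u := by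
  unfold dM_30 at h
  rcases brec_true h with h | h
  · exact dM_26_s hinv hr j z1 z2 u h
  · exact dM_29_s hinv hr j z1 z2 u h
theorem dM_31_s (hinv : ∀ x, g (inv x) = (g x)⁻¹) (hr : ∀ r ∈ rels, (r.map g).prod = 1) (j z1 z2 u : ℕ) (h : dM_31 j z1 z2 u = true) : GoodM (fa g) T MG M (cP g H) u := by
  unfold dM_31 at h
  rcases brec_true h with h | h
  · rcases brec_true h with h | h
    · exact mRel_good (T := T) (by decide) [Lt.f, Lt.b, Lt.ci] [Lt.b, Lt.c, Lt.b, Lt.ei, Lt.fi, Lt.ei] (pair_at hinv (rb_7 hinv hr) 2 rfl) h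
    · rcases brec_true h with h | h
      · exact mRel_good (T := T) (by decide) [Lt.ei, Lt.b, Lt.ei, Lt.ei, Lt.bi, Lt.ei] [Lt.b, Lt.e, Lt.e, Lt.bi] (pair_at hinv (rb_8 hinv hr) 0 rfl) h
      · exact mRel_good (T := T) (by decide) [Lt.e, Lt.e, Lt.f, Lt.ci, Lt.fi, Lt.ci, Lt.ei, Lt.c, Lt.fi] [Lt.ci] (pair_at hinv (rf_10 hinv hr) 0 rfl) h
  · rcases brec_true h with h | h
    · exact mRel_good (T := T) (by decide) [Lt.ci, Lt.fi, Lt.bi, Lt.ei, Lt.bi, Lt.ci, Lt.fi, Lt.bi] [Lt.ei, Lt.f] (pair_at hinv (rb_19 hinv hr) 5 rfl) h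
    · rcases brec_true h with h | h
      · exact mRel_good (T := T) (by decide) [Lt.fi, Lt.e, Lt.bi, Lt.e, Lt.bi, Lt.fi, Lt.e] [Lt.b, Lt.ei, Lt.b] (pair_at hinv (rb_9 hinv hr) 0 rfl) h
      · exact mRel_good (T := T) (by decide) [Lt.ei, Lt.c, Lt.bi, Lt.f, Lt.ei] [Lt.bi, Lt.f, Lt.ci, Lt.e, Lt.b] (pair_at hinv (rb_11 hinv hr) 4 rfl) h
theorem dM_32_s (hinv : ∀ x, g (inv x) = (g x)⁻¹) (hr : ∀ r ∈ rels, (r.map g).prod = 1) (j z1 z2 u : ℕ) (h : dM_32 j z1 z2 u = true) : GoodM (fa g) T MG M (cP g H) u := by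
  unfold dM_32 at h
  rcases brec_true h with h | h
  · rcases brec_true h with h | h
    · exact mRel_good (T := T) (by decide) [Lt.ei, Lt.b, Lt.ci, Lt.f, Lt.c] [Lt.b, Lt.e, Lt.e, Lt.fi, Lt.fi] (pair_at hinv (rb_17 hinv hr) 0 rfl) h
    · rcases brec_true h with h | h
      · exact mRel_good (T := T) (by decide) [Lt.ei, Lt.c, Lt.fi, Lt.b, Lt.ei, Lt.c, Lt.bi, Lt.f] [Lt.b, Lt.e] (pair_at hinv (rb_11 hinv hr) 0 rfl) h
      · exact mRel_good (T := T) (by decide) [Lt.b, Lt.ci, Lt.e] [Lt.fi, Lt.b, Lt.c, Lt.b, Lt.ei, Lt.fi] (pair_at hinv (rb_7 hinv hr) 3 rfl) h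
  · rcases brec_true h with h | h
    · rcases brec_true h with h | h
      · exact mRel_good (T := T) (by decide) [Lt.bi, Lt.c, Lt.fi, Lt.e, Lt.f, Lt.ei] [Lt.e, Lt.bi, Lt.ei, Lt.b] (pair_at hinv (rb_15 hinv hr) 9 rfl) h
      · exact mRel_good (T := T) (by decide) [Lt.e, Lt.b, Lt.ei, Lt.bi, Lt.c, Lt.fi, Lt.e] [Lt.b, Lt.e, Lt.fi] (pair_at hinv (rb_15 hinv hr) 6 rfl) h
    · rcases brec_true h with h | h
      · exact mRel_good (T := T) (by decide) [Lt.b, Lt.ci, Lt.fi, Lt.c, Lt.bi, Lt.ei] [Lt.c, Lt.e, Lt.f, Lt.c] (pair_at hinv (rb_12 hinv hr) 5 rfl) h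
      · exact mRel_good (T := T) (by decide) [Lt.e, Lt.b, Lt.ci] [Lt.ci, Lt.fi, Lt.ei, Lt.ci, Lt.b, Lt.ci, Lt.fi] (pair_at hinv (rf_12 hinv hr) 9 rfl) h
theorem dM_33_s (hinv : ∀ x, g (inv x) = (g x)⁻¹) (hr : ∀ r ∈ rels, (r.map g).prod = 1) (j z1 z2 u : ℕ) (h : dM_33 j z1 z2 u = true) : GoodM (fa g) T MG M (cP g H) u := by
  unfold dM_33 at h
  rcases brec_true h with h | h
  · exact dM_31_s hinv hr j z1 z2 u h
  · exact dM_32_s hinv hr j z1 z2 u h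
theorem dM_34_s (hinv : ∀ x, g (inv x) = (g x)⁻¹) (hr : ∀ r ∈ rels, (r.map g).prod = 1) (j z1 z2 u : ℕ) (h : dM_34 j z1 z2 u = true) : GoodM (fa g) T MG M (cP g H) u := by
  unfold dM_34 at h
  rcases brec_true h with h | h
  · rcases brec_true h with h | h
    · exact mRel_good (T := T) (by decide) [Lt.b, Lt.e, Lt.bi, Lt.e, Lt.e, Lt.b, Lt.e] [Lt.ei, Lt.ei, Lt.b] (pair_at hinv (rf_14 hinv hr) 0 rfl) h
    · rcases brec_true h with h | h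
      · exact mRel_good (T := T) (by decide) [Lt.b, Lt.e, Lt.e, Lt.bi, Lt.e, Lt.b, Lt.e] [Lt.ei, Lt.b, Lt.ei] (pair_at hinv (rf_8 hinv hr) 0 rfl) h
      · exact mRel_good (T := T) (by decide) [Lt.ci, Lt.fi, Lt.c, Lt.fi, Lt.fi] [Lt.f, Lt.f, Lt.ci, Lt.f, Lt.c] (pair_at hinv (rb_13 hinv hr) 4 rfl) h
  · rcases brec_true h with h | h
    · exact mRel_good (T := T) (by decide) [Lt.fi, Lt.ei, Lt.ci, Lt.b] [Lt.c, Lt.e, Lt.b, Lt.ci, Lt.f, Lt.c] (pair_at hinv (rb_12 hinv hr) 2 rfl) h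
    · rcases brec_true h with h | h
      · exact mRel_good (T := T) (by decide) [Lt.b] [Lt.fi, Lt.e, Lt.bi, Lt.e, Lt.bi, Lt.fi, Lt.e, Lt.bi, Lt.e] (pair_at hinv (rf_9 hinv hr) 0 rfl) h
      · exact mRel_good (T := T) (by decide) [Lt.b, Lt.c, Lt.b, Lt.ei, Lt.fi, Lt.ei, Lt.c] [Lt.f, Lt.b] (pair_at hinv (rf_7 hinv hr) 7 rfl) h
theorem dM_35_s (hinv : ∀ x, g (inv x) = (g x)⁻¹) (hr : ∀ r ∈ rels, (r.map g).prod = 1) (j z1 z2 u : ℕ) (h : dM_35 j z1 z2 u = true) : GoodM (fa g) T MG M (cP g H) u := by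
  unfold dM_35 at h
  rcases brec_true h with h | h
  · rcases brec_true h with h | h
    · exact mRel_good (T := T) (by decide) [Lt.c, Lt.e, Lt.f, Lt.c, Lt.e, Lt.b, Lt.ci, Lt.f, Lt.c, Lt.bi] [] (pair_at hinv (rf_12 hinv hr) 5 rfl) h
    · rcases brec_true h with h | h
      · exact mRel_good (T := T) (by decide) [Lt.b, Lt.ei, Lt.b, Lt.ei, Lt.f] [Lt.fi, Lt.e, Lt.bi, Lt.e, Lt.bi] (pair_at hinv (rf_9 hinv hr) 0 rfl) h
      · exact mRel_good (T := T) (by decide) [Lt.c, Lt.bi, Lt.fi, Lt.b, Lt.c, Lt.b] [Lt.e, Lt.f, Lt.e] (pair_at hinv (rf_7 hinv hr) 4 rfl) h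
  · rcases brec_true h with h | h
    · rcases brec_true h with h | h
      · exact mRel_good (T := T) (by decide) [Lt.e, Lt.fi, Lt.fi, Lt.c, Lt.e] [Lt.ci, Lt.fi, Lt.c, Lt.f, Lt.ci] (pair_at hinv (rf_16 hinv hr) 6 rfl) h
      · exact mRel_good (T := T) (by decide) [Lt.fi, Lt.fi] [Lt.f, Lt.f, Lt.f] (pair_at hinv (rb_6 hinv hr) 0 rfl) h
    · rcases brec_true h with h | h
      · exact mRel_good (T := T) (by decide) [Lt.c, Lt.b, Lt.ei, Lt.fi, Lt.ei] [Lt.bi, Lt.f, Lt.b, Lt.ci] (pair_at hinv (rf_7 hinv hr) 8 rfl) h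
      · exact mRel_good (T := T) (by decide) [Lt.f, Lt.ci, Lt.b, Lt.e, Lt.bi, Lt.ei, Lt.b, Lt.e] [Lt.e, Lt.f] (pair_at hinv (rf_15 hinv hr) 8 rfl) h
theorem dM_36_s (hinv : ∀ x, g (inv x) = (g x)⁻¹) (hr : ∀ r ∈ rels, (r.map g).prod = 1) (j z1 z2 u : ℕ) (h : dM_36 j z1 z2 u = true) : GoodM (fa g) T MG M (cP g H) u := by
  unfold dM_36 at h
  rcases brec_true h with h | h
  · exact dM_34_s hinv hr j z1 z2 u h
  · exact dM_35_s hinv hr j z1 z2 u h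
theorem dM_37_s (hinv : ∀ x, g (inv x) = (g x)⁻¹) (hr : ∀ r ∈ rels, (r.map g).prod = 1) (j z1 z2 u : ℕ) (h : dM_37 j z1 z2 u = true) : GoodM (fa g) T MG M (cP g H) u := by
  unfold dM_37 at h
  rcases brec_true h with h | h
  · exact dM_33_s hinv hr j z1 z2 u h
  · exact dM_36_s hinv hr j z1 z2 u h
theorem dM_38_s (hinv : ∀ x, g (inv x) = (g x)⁻¹) (hr : ∀ r ∈ rels, (r.map g).prod = 1) (j z1 z2 u : ℕ) (h : dM_38 j z1 z2 u = true) : GoodM (fa g) T MG M (cP g H) u := by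
  unfold dM_38 at h
  rcases brec_true h with h | h
  · exact dM_30_s hinv hr j z1 z2 u h
  · exact dM_37_s hinv hr j z1 z2 u h
theorem dM_39_s (hinv : ∀ x, g (inv x) = (g x)⁻¹) (hr : ∀ r ∈ rels, (r.map g).prod = 1) (j z1 z2 u : ℕ) (h : dM_39 j z1 z2 u = true) : GoodM (fa g) T MG M (cP g H) u := by
  unfold dM_39 at h
  rcases brec_true h with h | h
  · rcases brec_true h with h | h
    · exact mRel_good (T := T) (by decide) [Lt.ci, Lt.ei, Lt.fi, Lt.e, Lt.e, Lt.f, Lt.bi] [Lt.b, Lt.ci, Lt.fi] (pair_at hinv (rb_18 hinv hr) 0 rfl) h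
    · rcases brec_true h with h | h
      · exact mRel_good (T := T) (by decide) [Lt.fi] [Lt.e, Lt.bi, Lt.ci, Lt.bi, Lt.f, Lt.b, Lt.ci, Lt.e] (pair_at hinv (rf_7 hinv hr) 2 rfl) h
      · exact mRel_good (T := T) (by decide) [Lt.c, Lt.fi, Lt.c, Lt.e, Lt.e, Lt.f, Lt.ci, Lt.fi] [Lt.e, Lt.c] (pair_at hinv (rf_10 hinv hr) 7 rfl) h
  · rcases brec_true h with h | h
    · exact mRel_good (T := T) (by decide) [Lt.bi, Lt.f, Lt.ci, Lt.e, Lt.b, Lt.e] [Lt.ei, Lt.c, Lt.bi, Lt.f] (pair_at hinv (rf_11 hinv hr) 6 rfl) h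
    · rcases brec_true h with h | h
      · exact mRel_good (T := T) (by decide) [Lt.bi, Lt.f, Lt.ei, Lt.bi, Lt.ei] [Lt.ci, Lt.e, Lt.bi, Lt.f, Lt.ci] (pair_at hinv (rb_11 hinv hr) 6 rfl) h
      · exact mRel_good (T := T) (by decide) [Lt.ei, Lt.ei, Lt.bi] [Lt.bi, Lt.e, Lt.b, Lt.e, Lt.e, Lt.bi, Lt.e] (pair_at hinv (rb_8 hinv hr) 2 rfl) h
theorem dM_40_s (hinv : ∀ x, g (inv x) = (g x)⁻¹) (hr : ∀ r ∈ rels, (r.map g).prod = 1) (j z1 z2 u : ℕ) (h : dM_40 j z1 z2 u = true) : GoodM (fa g) T MG M (cP g H) u := by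
  unfold dM_40 at h
  rcases brec_true h with h | h
  · rcases brec_true h with h | h
    · exact mRel_good (T := T) (by decide) [Lt.e, Lt.bi, Lt.ei, Lt.b, Lt.e, Lt.fi, Lt.ei] [Lt.bi, Lt.c, Lt.fi] (pair_at hinv (rf_15 hinv hr) 1 rfl) h
    · rcases brec_true h with h | h
      · exact mRel_good (T := T) (by decide) [Lt.e] [Lt.f, Lt.ci, Lt.b, Lt.e, Lt.bi, Lt.ei, Lt.b, Lt.e, Lt.fi] (pair_at hinv (rb_15 hinv hr) 2 rfl) h
      · exact mRel_good (T := T) (by decide) [Lt.fi, Lt.c, Lt.bi, Lt.ei, Lt.ci, Lt.fi] [Lt.c, Lt.bi, Lt.c, Lt.e] (pair_at hinv (rb_12 hinv hr) 7 rfl) h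
  · rcases brec_true h with h | h
    · rcases brec_true h with h | h
      · exact mRel_good (T := T) (by decide) [Lt.ei, Lt.ei] [Lt.e, Lt.e, Lt.e] (pair_at hinv (rb_5 hinv hr) 0 rfl) h
      · exact mRel_good (T := T) (by decide) [Lt.b, Lt.ei, Lt.f, Lt.b, Lt.ei, Lt.b, Lt.ei, Lt.f, Lt.b] [Lt.e] (pair_at hinv (rf_9 hinv hr) 2 rfl) h
    · rcases brec_true h with h | h
      · exact mRel_good (T := T) (by decide) [Lt.e, Lt.bi, Lt.e, Lt.bi, Lt.fi, Lt.e, Lt.bi, Lt.e, Lt.bi] [Lt.f] (pair_at hinv (rb_9 hinv hr) 1 rfl) h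
      · exact mRel_good (T := T) (by decide) [Lt.ci, Lt.f, Lt.f, Lt.ei, Lt.ci, Lt.fi, Lt.c] [Lt.e, Lt.c, Lt.fi] (pair_at hinv (rb_16 hinv hr) 0 rfl) h
theorem dM_41_s (hinv : ∀ x, g (inv x) = (g x)⁻¹) (hr : ∀ r ∈ rels, (r.map g).prod = 1) (j z1 z2 u : ℕ) (h : dM_41 j z1 z2 u = true) : GoodM (fa g) T MG M (cP g H) u := by
  unfold dM_41 at h
  rcases brec_true h with h | h
  · exact dM_39_s hinv hr j z1 z2 u h
  · exact dM_40_s hinv hr j z1 z2 u h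
theorem dM_42_s (hinv : ∀ x, g (inv x) = (g x)⁻¹) (hr : ∀ r ∈ rels, (r.map g).prod = 1) (j z1 z2 u : ℕ) (h : dM_42 j z1 z2 u = true) : GoodM (fa g) T MG M (cP g H) u := by
  unfold dM_42 at h
  rcases brec_true h with h | h
  · rcases brec_true h with h | h
    · exact mRel_good (T := T) (by decide) [Lt.b, Lt.ci, Lt.e, Lt.f, Lt.e, Lt.bi, Lt.ci] [Lt.fi, Lt.b] (pair_at hinv (rb_7 hinv hr) 3 rfl) h
    · rcases brec_true h with h | h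
      · exact mRel_good (T := T) (by decide) [Lt.bi, Lt.e, Lt.e] [Lt.ei, Lt.bi, Lt.ei, Lt.ei, Lt.b, Lt.ei, Lt.bi] (pair_at hinv (rf_14 hinv hr) 2 rfl) h
      · exact mRel_good (T := T) (by decide) [Lt.b, Lt.ci, Lt.e, Lt.f] [Lt.fi, Lt.b, Lt.c, Lt.b, Lt.ei] (pair_at hinv (rb_7 hinv hr) 3 rfl) h
  · rcases brec_true h with h | h
    · exact mRel_good (T := T) (by decide) [Lt.c, Lt.bi, Lt.ci, Lt.ei, Lt.fi] [Lt.fi, Lt.b, Lt.fi, Lt.ei, Lt.ei] (pair_at hinv (rb_18 hinv hr) 8 rfl) h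
    · rcases brec_true h with h | h
      · exact mRel_good (T := T) (by decide) [Lt.f, Lt.f] [Lt.fi, Lt.fi, Lt.fi] (pair_at hinv (rf_6 hinv hr) 0 rfl) h
      · exact mRel_good (T := T) (by decide) [Lt.ei, Lt.b, Lt.e, Lt.fi] [Lt.b, Lt.ei, Lt.bi, Lt.c, Lt.fi, Lt.e] (pair_at hinv (rf_15 hinv hr) 3 rfl) h
theorem dM_43_s (hinv : ∀ x, g (inv x) = (g x)⁻¹) (hr : ∀ r ∈ rels, (r.map g).prod = 1) (j z1 z2 u : ℕ) (h : dM_43 j z1 z2 u = true) : GoodM (fa g) T MG M (cP g H) u := by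
  unfold dM_43 at h
  rcases brec_true h with h | h
  · rcases brec_true h with h | h
    · exact mRel_good (T := T) (by decide) [Lt.ei, Lt.fi, Lt.ei, Lt.c, Lt.bi, Lt.fi] [Lt.bi, Lt.ci, Lt.bi] (pair_at hinv (rf_7 hinv hr) 1 rfl) h
    · rcases brec_true h with h | h
      · exact mRel_good (T := T) (by decide) [Lt.b, Lt.f, Lt.c, Lt.b, Lt.e, Lt.b, Lt.f] [Lt.fi, Lt.e, Lt.ci] (pair_at hinv (rf_19 hinv hr) 7 rfl) h
      · exact mRel_good (T := T) (by decide) [Lt.fi, Lt.ei] [Lt.e, Lt.bi, Lt.ci, Lt.bi, Lt.f, Lt.b, Lt.ci] (pair_at hinv (rf_7 hinv hr) 2 rfl) h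
  · rcases brec_true h with h | h
    · rcases brec_true h with h | h
      · exact mRel_good (T := T) (by decide) [Lt.bi, Lt.fi, Lt.e, Lt.bi, Lt.e, Lt.bi, Lt.fi] [Lt.ei, Lt.b, Lt.ei] (pair_at hinv (rb_9 hinv hr) 4 rfl) h
      · exact mRel_good (T := T) (by decide) [Lt.b, Lt.ei] [Lt.ci, Lt.bi, Lt.f, Lt.b, Lt.ci, Lt.e, Lt.f] (pair_at hinv (rf_7 hinv hr) 0 rfl) h
    · rcases brec_true h with h | h
      · exact mRel_good (T := T) (by decide) [Lt.e, Lt.fi, Lt.fi, Lt.c, Lt.e, Lt.c] [Lt.ci, Lt.fi, Lt.c, Lt.f] (pair_at hinv (rf_16 hinv hr) 6 rfl) h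
      · exact mRel_good (T := T) (by decide) [Lt.b, Lt.ei, Lt.fi, Lt.ei, Lt.c, Lt.bi, Lt.fi] [Lt.ci, Lt.bi] (pair_at hinv (rf_7 hinv hr) 0 rfl) h
theorem dM_44_s (hinv : ∀ x, g (inv x) = (g x)⁻¹) (hr : ∀ r ∈ rels, (r.map g).prod = 1) (j z1 z2 u : ℕ) (h : dM_44 j z1 z2 u = true) : GoodM (fa g) T MG M (cP g H) u := by
  unfold dM_44 at h
  rcases brec_true h with h | h
  · exact dM_42_s hinv hr j z1 z2 u h
  · exact dM_43_s hinv hr j z1 z2 u h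
theorem dM_45_s (hinv : ∀ x, g (inv x) = (g x)⁻¹) (hr : ∀ r ∈ rels, (r.map g).prod = 1) (j z1 z2 u : ℕ) (h : dM_45 j z1 z2 u = true) : GoodM (fa g) T MG M (cP g H) u := by
  unfold dM_45 at h
  rcases brec_true h with h | h
  · exact dM_41_s hinv hr j z1 z2 u h
  · exact dM_44_s hinv hr j z1 z2 u h
theorem dM_46_s (hinv : ∀ x, g (inv x) = (g x)⁻¹) (hr : ∀ r ∈ rels, (r.map g).prod = 1) (j z1 z2 u : ℕ) (h : dM_46 j z1 z2 u = true) : GoodM (fa g) T MG M (cP g H) u := by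
  unfold dM_46 at h
  rcases brec_true h with h | h
  · rcases brec_true h with h | h
    · exact mRel_good (T := T) (by decide) [Lt.ei, Lt.bi, Lt.ei, Lt.b, Lt.ci, Lt.f, Lt.c] [Lt.e, Lt.fi, Lt.fi] (pair_at hinv (rb_17 hinv hr) 8 rfl) h
    · rcases brec_true h with h | h
      · exact mRel_good (T := T) (by decide) [Lt.b, Lt.f, Lt.c, Lt.b, Lt.e, Lt.b, Lt.f, Lt.c, Lt.ei] [Lt.fi] (pair_at hinv (rf_19 hinv hr) 7 rfl) h
      · exact mRel_good (T := T) (by decide) [Lt.e, Lt.e, Lt.f, Lt.ci, Lt.fi, Lt.ci] [Lt.ci, Lt.f, Lt.ci, Lt.e] (pair_at hinv (rf_10 hinv hr) 0 rfl) h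
  · rcases brec_true h with h | h
    · exact mRel_good (T := T) (by decide) [Lt.e, Lt.b, Lt.f, Lt.c, Lt.ei, Lt.f, Lt.b] [Lt.bi, Lt.ci, Lt.fi] (pair_at hinv (rf_19 hinv hr) 1 rfl) h
    · rcases brec_true h with h | h
      · exact mRel_good (T := T) (by decide) [Lt.e, Lt.b, Lt.e, Lt.fi, Lt.b, Lt.ci] [Lt.c, Lt.fi, Lt.b, Lt.ei] (pair_at hinv (rf_11 hinv hr) 9 rfl) h
      · exact mRel_good (T := T) (by decide) [Lt.e, Lt.f, Lt.c, Lt.e, Lt.b, Lt.ci] [Lt.ci, Lt.b, Lt.ci, Lt.fi] (pair_at hinv (rf_12 hinv hr) 6 rfl) h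
theorem dM_47_s (hinv : ∀ x, g (inv x) = (g x)⁻¹) (hr : ∀ r ∈ rels, (r.map g).prod = 1) (j z1 z2 u : ℕ) (h : dM_47 j z1 z2 u = true) : GoodM (fa g) T MG M (cP g H) u := by
  unfold dM_47 at h
  rcases brec_true h with h | h
  · rcases brec_true h with h | h
    · exact mRel_good (T := T) (by decide) [Lt.b, Lt.ei, Lt.bi, Lt.ei, Lt.ei, Lt.b, Lt.ei, Lt.bi] [Lt.e, Lt.e] (pair_at hinv (rb_14 hinv hr) 2 rfl) h
    · rcases brec_true h with h | h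
      · exact mRel_good (T := T) (by decide) [Lt.ci, Lt.f, Lt.f, Lt.ei, Lt.ci, Lt.fi, Lt.c, Lt.f] [Lt.e, Lt.c] (pair_at hinv (rb_16 hinv hr) 0 rfl) h
      · exact mRel_good (T := T) (by decide) [Lt.ei] [Lt.f, Lt.ci, Lt.fi, Lt.ci, Lt.ei, Lt.c, Lt.fi, Lt.c, Lt.e] (pair_at hinv (rb_10 hinv hr) 8 rfl) h
  · rcases brec_true h with h | h
    · rcases brec_true h with h | h
      · exact mRel_good (T := T) (by decide) [Lt.fi, Lt.fi, Lt.ci, Lt.fi, Lt.c, Lt.bi] [Lt.ei, Lt.ei, Lt.bi, Lt.ei] (pair_at hinv (rf_17 hinv hr) 3 rfl) h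
      · exact mRel_good (T := T) (by decide) [Lt.e, Lt.f, Lt.e, Lt.bi] [Lt.c, Lt.bi, Lt.fi, Lt.b, Lt.c] (pair_at hinv (rb_7 hinv hr) 5 rfl) h
    · rcases brec_true h with h | h
      · exact mRel_good (T := T) (by decide) [Lt.c, Lt.ei, Lt.f, Lt.b, Lt.f, Lt.c, Lt.b] [Lt.fi, Lt.bi, Lt.ei] (pair_at hinv (rf_19 hinv hr) 4 rfl) h
      · exact mRel_good (T := T) (by decide) [Lt.f, Lt.ei, Lt.bi, Lt.e, Lt.b, Lt.ei] [Lt.ei, Lt.f, Lt.ci, Lt.b] (pair_at hinv (rb_15 hinv hr) 3 rfl) h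
theorem dM_48_s (hinv : ∀ x, g (inv x) = (g x)⁻¹) (hr : ∀ r ∈ rels, (r.map g).prod = 1) (j z1 z2 u : ℕ) (h : dM_48 j z1 z2 u = true) : GoodM (fa g) T MG M (cP g H) u := by
  unfold dM_48 at h
  rcases brec_true h with h | h
  · exact dM_46_s hinv hr j z1 z2 u h
  · exact dM_47_s hinv hr j z1 z2 u h
theorem dM_49_s (hinv : ∀ x, g (inv x) = (g x)⁻¹) (hr : ∀ r ∈ rels, (r.map g).prod = 1) (j z1 z2 u : ℕ) (h : dM_49 j z1 z2 u = true) : GoodM (fa g) T MG M (cP g H) u := by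
  unfold dM_49 at h
  rcases brec_true h with h | h
  · rcases brec_true h with h | h
    · exact mRel_good (T := T) (by decide) [Lt.c, Lt.bi, Lt.ei] [Lt.f, Lt.c, Lt.bi, Lt.c, Lt.e, Lt.f, Lt.c] (pair_at hinv (rb_12 hinv hr) 8 rfl) h
    · rcases brec_true h with h | h
      · exact mRel_good (T := T) (by decide) [Lt.e, Lt.f, Lt.c, Lt.e, Lt.b, Lt.ci, Lt.f, Lt.c, Lt.bi] [Lt.ci] (pair_at hinv (rf_12 hinv hr) 6 rfl) h
      · exact mRel_good (T := T) (by decide) [Lt.e, Lt.c, Lt.f, Lt.c, Lt.fi] [Lt.c, Lt.fi, Lt.c, Lt.e, Lt.e] (pair_at hinv (rb_10 hinv hr) 3 rfl) h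
  · rcases brec_true h with h | h
    · rcases brec_true h with h | h
      · exact mRel_good (T := T) (by decide) [Lt.bi, Lt.ci, Lt.ei, Lt.fi, Lt.e, Lt.e] [Lt.ci, Lt.fi, Lt.b, Lt.fi] (pair_at hinv (rb_18 hinv hr) 9 rfl) h
      · exact mRel_good (T := T) (by decide) [Lt.f, Lt.c, Lt.fi, Lt.ei, Lt.ei, Lt.ci, Lt.f, Lt.ci] [Lt.ci, Lt.ei] (pair_at hinv (rb_10 hinv hr) 5 rfl) h
    · rcases brec_true h with h | h
      · exact mRel_good (T := T) (by decide) [Lt.e, Lt.c, Lt.f, Lt.c, Lt.fi, Lt.ei, Lt.ei, Lt.ci] [Lt.c, Lt.fi] (pair_at hinv (rb_10 hinv hr) 3 rfl) h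
      · exact mRel_good (T := T) (by decide) [Lt.f, Lt.e, Lt.bi, Lt.ci, Lt.bi, Lt.f] [Lt.ei, Lt.c, Lt.bi] (pair_at hinv (rb_7 hinv hr) 6 rfl) h
theorem dM_50_s (hinv : ∀ x, g (inv x) = (g x)⁻¹) (hr : ∀ r ∈ rels, (r.map g).prod = 1) (j z1 z2 u : ℕ) (h : dM_50 j z1 z2 u = true) : GoodM (fa g) T MG M (cP g H) u := by
  unfold dM_50 at h
  rcases brec_true h with h | h
  · rcases brec_true h with h | h
    · exact mRel_good (T := T) (by decide) [Lt.e, Lt.f, Lt.ci, Lt.fi, Lt.ci, Lt.ei] [Lt.ei, Lt.ci, Lt.f, Lt.ci] (pair_at hinv (rf_10 hinv hr) 1 rfl) h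
    · rcases brec_true h with h | h
      · exact mRel_good (T := T) (by decide) [Lt.b, Lt.e, Lt.e, Lt.fi, Lt.fi, Lt.ci] [Lt.ei, Lt.b, Lt.ci, Lt.f] (pair_at hinv (rf_17 hinv hr) 0 rfl) h
      · exact mRel_good (T := T) (by decide) [Lt.ci, Lt.f, Lt.c, Lt.f, Lt.f] [Lt.fi, Lt.fi, Lt.ci, Lt.fi, Lt.c] (pair_at hinv (rf_13 hinv hr) 3 rfl) h
  · rcases brec_true h with h | h
    · rcases brec_true h with h | h
      · exact mRel_good (T := T) (by decide) [Lt.c, Lt.fi, Lt.c, Lt.e, Lt.e] [Lt.e, Lt.c, Lt.f, Lt.c, Lt.fi] (pair_at hinv (rf_10 hinv hr) 7 rfl) h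
      · exact mRel_good (T := T) (by decide) [Lt.bi, Lt.ei, Lt.b, Lt.e, Lt.fi, Lt.ei] [Lt.ei, Lt.bi, Lt.c, Lt.fi] (pair_at hinv (rf_15 hinv hr) 2 rfl) h
    · rcases brec_true h with h | h
      · exact mRel_good (T := T) (by decide) [Lt.ci, Lt.ei] [Lt.f, Lt.c, Lt.fi, Lt.ei, Lt.ei, Lt.ci, Lt.f, Lt.ci] (pair_at hinv (rf_10 hinv hr) 5 rfl) h
      · exact mRel_good (T := T) (by decide) [Lt.b, Lt.ei, Lt.fi, Lt.ei] [Lt.ci, Lt.bi, Lt.f, Lt.b, Lt.ci] (pair_at hinv (rf_7 hinv hr) 0 rfl) h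
theorem dM_51_s (hinv : ∀ x, g (inv x) = (g x)⁻¹) (hr : ∀ r ∈ rels, (r.map g).prod = 1) (j z1 z2 u : ℕ) (h : dM_51 j z1 z2 u = true) : GoodM (fa g) T MG M (cP g H) u := by
  unfold dM_51 at h
  rcases brec_true h with h | h
  · exact dM_49_s hinv hr j z1 z2 u h
  · exact dM_50_s hinv hr j z1 z2 u h
theorem dM_52_s (hinv : ∀ x, g (inv x) = (g x)⁻¹) (hr : ∀ r ∈ rels, (r.map g).prod = 1) (j z1 z2 u : ℕ) (h : dM_52 j z1 z2 u = true) : GoodM (fa g) T MG M (cP g H) u := by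
  unfold dM_52 at h
  rcases brec_true h with h | h
  · exact dM_48_s hinv hr j z1 z2 u h
  · exact dM_51_s hinv hr j z1 z2 u h
theorem dM_53_s (hinv : ∀ x, g (inv x) = (g x)⁻¹) (hr : ∀ r ∈ rels, (r.map g).prod = 1) (j z1 z2 u : ℕ) (h : dM_53 j z1 z2 u = true) : GoodM (fa g) T MG M (cP g H) u := by
  unfold dM_53 at h
  rcases brec_true h with h | h
  · exact dM_45_s hinv hr j z1 z2 u h
  · exact dM_52_s hinv hr j z1 z2 u h
theorem dM_54_s (hinv : ∀ x, g (inv x) = (g x)⁻¹) (hr : ∀ r ∈ rels, (r.map g).prod = 1) (j z1 z2 u : ℕ) (h : dM_54 j z1 z2 u = true) : GoodM (fa g) T MG M (cP g H) u := by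
  unfold dM_54 at h
  rcases brec_true h with h | h
  · exact dM_38_s hinv hr j z1 z2 u h
  · exact dM_53_s hinv hr j z1 z2 u h
theorem dM_55_s (hinv : ∀ x, g (inv x) = (g x)⁻¹) (hr : ∀ r ∈ rels, (r.map g).prod = 1) (j z1 z2 u : ℕ) (h : dM_55 j z1 z2 u = true) : GoodM (fa g) T MG M (cP g H) u := by
  unfold dM_55 at h
  rcases brec_true h with h | h
  · rcases brec_true h with h | h
    · exact mRel_good (T := T) (by decide) [Lt.f, Lt.c, Lt.f, Lt.f, Lt.ci, Lt.f] [Lt.c, Lt.fi, Lt.fi, Lt.ci] (pair_at hinv (rf_13 hinv hr) 4 rfl) h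
    · rcases brec_true h with h | h
      · exact mRel_good (T := T) (by decide) [Lt.ei, Lt.f] [Lt.ci, Lt.fi, Lt.bi, Lt.ei, Lt.bi, Lt.ci, Lt.fi, Lt.bi] (pair_at hinv (rf_19 hinv hr) 5 rfl) h
      · exact mRel_good (T := T) (by decide) [Lt.ei, Lt.ci, Lt.f, Lt.f, Lt.ei, Lt.ci, Lt.fi, Lt.c, Lt.f, Lt.ci] [] (pair_at hinv (rb_16 hinv hr) 9 rfl) h
  · rcases brec_true h with h | h
    · exact mRel_good (T := T) (by decide) [Lt.d, Lt.c, Lt.di] [Lt.b] (pair_at hinv (rb_3 hinv hr) 1 rfl) h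
    · rcases brec_true h with h | h
      · exact mRel_good (T := T) (by decide) [Lt.fi, Lt.ei, Lt.ei, Lt.f, Lt.e, Lt.c] [Lt.bi, Lt.f, Lt.c, Lt.bi] (pair_at hinv (rf_18 hinv hr) 4 rfl) h
      · exact mRel_good (T := T) (by decide) [Lt.bi] [Lt.ei, Lt.b, Lt.ei, Lt.f, Lt.b, Lt.ei, Lt.b, Lt.ei, Lt.f] (pair_at hinv (rb_9 hinv hr) 4 rfl) h
theorem dM_56_s (hinv : ∀ x, g (inv x) = (g x)⁻¹) (hr : ∀ r ∈ rels, (r.map g).prod = 1) (j z1 z2 u : ℕ) (h : dM_56 j z1 z2 u = true) : GoodM (fa g) T MG M (cP g H) u := by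
  unfold dM_56 at h
  rcases brec_true h with h | h
  · rcases brec_true h with h | h
    · exact mRel_good (T := T) (by decide) [Lt.e, Lt.c, Lt.b, Lt.ci, Lt.fi, Lt.b] [Lt.fi, Lt.e, Lt.e, Lt.f] (pair_at hinv (rf_18 hinv hr) 8 rfl) h
    · rcases brec_true h with h | h
      · exact mRel_good (T := T) (by decide) [Lt.b, Lt.ei, Lt.c, Lt.bi, Lt.f] [Lt.f, Lt.ci, Lt.e, Lt.b, Lt.e] (pair_at hinv (rb_11 hinv hr) 3 rfl) h
      · exact mRel_good (T := T) (by decide) [Lt.c, Lt.f, Lt.c, Lt.fi, Lt.ei, Lt.ei, Lt.ci] [Lt.ei, Lt.c, Lt.fi] (pair_at hinv (rb_10 hinv hr) 4 rfl) h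
  · rcases brec_true h with h | h
    · rcases brec_true h with h | h
      · exact mRel_good (T := T) (by decide) [Lt.c, Lt.ei] [Lt.fi, Lt.bi, Lt.ei, Lt.bi, Lt.ci, Lt.fi, Lt.bi, Lt.fi] (pair_at hinv (rf_19 hinv hr) 4 rfl) h
      · exact mRel_good (T := T) (by decide) [Lt.fi, Lt.b, Lt.c, Lt.b, Lt.ei, Lt.fi, Lt.ei, Lt.c] [Lt.b] (pair_at hinv (rf_7 hinv hr) 6 rfl) h
    · rcases brec_true h with h | h
      · exact mRel_good (T := T) (by decide) [Lt.e, Lt.e, Lt.f, Lt.bi, Lt.f, Lt.c] [Lt.f, Lt.e, Lt.c, Lt.b] (pair_at hinv (rb_18 hinv hr) 3 rfl) h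
      · exact mRel_good (T := T) (by decide) [Lt.f, Lt.b] [Lt.e, Lt.ci, Lt.fi, Lt.bi, Lt.ei, Lt.bi, Lt.ci, Lt.fi] (pair_at hinv (rf_19 hinv hr) 6 rfl) h
theorem dM_57_s (hinv : ∀ x, g (inv x) = (g x)⁻¹) (hr : ∀ r ∈ rels, (r.map g).prod = 1) (j z1 z2 u : ℕ) (h : dM_57 j z1 z2 u = true) : GoodM (fa g) T MG M (cP g H) u := by
  unfold dM_57 at h
  rcases brec_true h with h | h
  · exact dM_55_s hinv hr j z1 z2 u h
  · exact dM_56_s hinv hr j z1 z2 u h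
theorem dM_58_s (hinv : ∀ x, g (inv x) = (g x)⁻¹) (hr : ∀ r ∈ rels, (r.map g).prod = 1) (j z1 z2 u : ℕ) (h : dM_58 j z1 z2 u = true) : GoodM (fa g) T MG M (cP g H) u := by
  unfold dM_58 at h
  rcases brec_true h with h | h
  · rcases brec_true h with h | h
    · exact mRel_good (T := T) (by decide) [Lt.f, Lt.ei, Lt.ei, Lt.bi, Lt.ei, Lt.b] [Lt.fi, Lt.ci, Lt.fi, Lt.c] (pair_at hinv (rb_17 hinv hr) 6 rfl) h
    · rcases brec_true h with h | h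
      · exact mRel_good (T := T) (by decide) [Lt.fi, Lt.e] [Lt.b, Lt.f, Lt.c, Lt.b, Lt.e, Lt.b, Lt.f, Lt.c] (pair_at hinv (rb_19 hinv hr) 3 rfl) h
      · exact mRel_good (T := T) (by decide) [Lt.b, Lt.f, Lt.c, Lt.ei, Lt.f, Lt.b, Lt.f, Lt.c, Lt.b] [Lt.ei] (pair_at hinv (rf_19 hinv hr) 2 rfl) h
  · rcases brec_true h with h | h
    · exact mRel_good (T := T) (by decide) [Lt.ci, Lt.bi, Lt.f, Lt.b, Lt.ci, Lt.e] [Lt.b, Lt.ei, Lt.fi] (pair_at hinv (rb_7 hinv hr) 0 rfl) h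
    · rcases brec_true h with h | h
      · exact mRel_good (T := T) (by decide) [Lt.f, Lt.c, Lt.fi, Lt.ei, Lt.ei, Lt.ci, Lt.f] [Lt.ci, Lt.ei, Lt.c] (pair_at hinv (rb_10 hinv hr) 5 rfl) h
      · exact mRel_good (T := T) (by decide) [Lt.ei, Lt.fi, Lt.e, Lt.e, Lt.f, Lt.bi, Lt.f] [Lt.c, Lt.b, Lt.ci] (pair_at hinv (rb_18 hinv hr) 1 rfl) h
theorem dM_59_s (hinv : ∀ x, g (inv x) = (g x)⁻¹) (hr : ∀ r ∈ rels, (r.map g).prod = 1) (j z1 z2 u : ℕ) (h : dM_59 j z1 z2 u = true) : GoodM (fa g) T MG M (cP g H) u := by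
  unfold dM_59 at h
  rcases brec_true h with h | h
  · rcases brec_true h with h | h
    · exact mRel_good (T := T) (by decide) [Lt.ci, Lt.fi, Lt.ci, Lt.ei, Lt.c, Lt.fi, Lt.c] [Lt.fi, Lt.ei, Lt.ei] (pair_at hinv (rf_10 hinv hr) 3 rfl) h
    · rcases brec_true h with h | h
      · exact mRel_good (T := T) (by decide) [Lt.b, Lt.e, Lt.fi, Lt.b] [Lt.ei, Lt.c, Lt.fi, Lt.b, Lt.ei, Lt.c] (pair_at hinv (rf_11 hinv hr) 0 rfl) h
      · exact mRel_good (T := T) (by decide) [Lt.d, Lt.fi] [Lt.ei, Lt.d] (pair_at hinv (rf_4 hinv hr) 0 rfl) h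
  · rcases brec_true h with h | h
    · rcases brec_true h with h | h
      · exact mRel_good (T := T) (by decide) [Lt.ei, Lt.fi, Lt.ei, Lt.c, Lt.bi] [Lt.bi, Lt.ci, Lt.bi, Lt.f] (pair_at hinv (rf_7 hinv hr) 1 rfl) h
      · exact mRel_good (T := T) (by decide) [Lt.b, Lt.ci, Lt.f, Lt.c, Lt.bi, Lt.c, Lt.e] [Lt.ei, Lt.ci, Lt.fi] (pair_at hinv (rf_12 hinv hr) 0 rfl) h
    · rcases brec_true h with h | h
      · exact mRel_good (T := T) (by decide) [Lt.f, Lt.ei, Lt.bi, Lt.ei, Lt.c, Lt.fi] [Lt.b, Lt.ci, Lt.e, Lt.bi] (pair_at hinv (rb_11 hinv hr) 7 rfl) h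
      · exact mRel_good (T := T) (by decide) [Lt.f, Lt.ci] [Lt.ci, Lt.f, Lt.c, Lt.e, Lt.fi, Lt.fi, Lt.c, Lt.e] (pair_at hinv (rb_16 hinv hr) 7 rfl) h
theorem dM_60_s (hinv : ∀ x, g (inv x) = (g x)⁻¹) (hr : ∀ r ∈ rels, (r.map g).prod = 1) (j z1 z2 u : ℕ) (h : dM_60 j z1 z2 u = true) : GoodM (fa g) T MG M (cP g H) u := by
  unfold dM_60 at h
  rcases brec_true h with h | h
  · exact dM_58_s hinv hr j z1 z2 u h
  · exact dM_59_s hinv hr j z1 z2 u h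
theorem dM_61_s (hinv : ∀ x, g (inv x) = (g x)⁻¹) (hr : ∀ r ∈ rels, (r.map g).prod = 1) (j z1 z2 u : ℕ) (h : dM_61 j z1 z2 u = true) : GoodM (fa g) T MG M (cP g H) u := by
  unfold dM_61 at h
  rcases brec_true h with h | h
  · exact dM_57_s hinv hr j z1 z2 u h
  · exact dM_60_s hinv hr j z1 z2 u h
theorem dM_62_s (hinv : ∀ x, g (inv x) = (g x)⁻¹) (hr : ∀ r ∈ rels, (r.map g).prod = 1) (j z1 z2 u : ℕ) (h : dM_62 j z1 z2 u = true) : GoodM (fa g) T MG M (cP g H) u := by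
  unfold dM_62 at h
  rcases brec_true h with h | h
  · rcases brec_true h with h | h
    · exact mRel_good (T := T) (by decide) [Lt.f, Lt.e, Lt.bi, Lt.ci] [Lt.ei, Lt.c, Lt.bi, Lt.fi, Lt.b] (pair_at hinv (rb_7 hinv hr) 6 rfl) h
    · rcases brec_true h with h | h
      · exact mRel_good (T := T) (by decide) [Lt.fi, Lt.b, Lt.ei, Lt.c, Lt.bi] [Lt.ci, Lt.e, Lt.b, Lt.e, Lt.fi] (pair_at hinv (rb_11 hinv hr) 2 rfl) h
      · exact mRel_good (T := T) (by decide) [Lt.bi, Lt.ei, Lt.ei, Lt.b, Lt.ei, Lt.bi] [Lt.e, Lt.bi, Lt.e, Lt.e] (pair_at hinv (rb_14 hinv hr) 4 rfl) h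
  · rcases brec_true h with h | h
    · exact mRel_good (T := T) (by decide) [Lt.ci, Lt.f, Lt.ci, Lt.e, Lt.c] [Lt.e, Lt.e, Lt.f, Lt.ci, Lt.fi] (pair_at hinv (rb_10 hinv hr) 0 rfl) h
    · rcases brec_true h with h | h
      · exact mRel_good (T := T) (by decide) [Lt.ci, Lt.f, Lt.c, Lt.e, Lt.fi, Lt.fi] [Lt.f, Lt.ci, Lt.ei, Lt.ci] (pair_at hinv (rf_16 hinv hr) 3 rfl) h
      · exact mRel_good (T := T) (by decide) [Lt.ci, Lt.e, Lt.bi, Lt.f, Lt.ci, Lt.e, Lt.b, Lt.e, Lt.fi] [Lt.bi] (pair_at hinv (rf_11 hinv hr) 4 rfl) h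
theorem dM_63_s (hinv : ∀ x, g (inv x) = (g x)⁻¹) (hr : ∀ r ∈ rels, (r.map g).prod = 1) (j z1 z2 u : ℕ) (h : dM_63 j z1 z2 u = true) : GoodM (fa g) T MG M (cP g H) u := by
  unfold dM_63 at h
  rcases brec_true h with h | h
  · rcases brec_true h with h | h
    · exact mRel_good (T := T) (by decide) [Lt.c, Lt.e, Lt.fi, Lt.fi] [Lt.fi, Lt.c, Lt.f, Lt.ci, Lt.ei, Lt.ci] (pair_at hinv (rf_16 hinv hr) 5 rfl) h
    · rcases brec_true h with h | h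
      · exact mRel_good (T := T) (by decide) [Lt.c, Lt.fi, Lt.c, Lt.e, Lt.e, Lt.f, Lt.ci, Lt.fi, Lt.ci] [Lt.e] (pair_at hinv (rf_10 hinv hr) 7 rfl) h
      · exact mRel_good (T := T) (by decide) [Lt.d, Lt.ci, Lt.di] [Lt.bi] (pair_at hinv (rf_3 hinv hr) 0 rfl) h
  · rcases brec_true h with h | h
    · rcases brec_true h with h | h
      · exact mRel_good (T := T) (by decide) [Lt.f, Lt.b] [Lt.b, Lt.c, Lt.b, Lt.ei, Lt.fi, Lt.ei, Lt.c] (pair_at hinv (rb_7 hinv hr) 2 rfl) h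
      · exact mRel_good (T := T) (by decide) [Lt.ei, Lt.ci] [Lt.f, Lt.c, Lt.e, Lt.b, Lt.ci, Lt.f, Lt.c, Lt.bi] (pair_at hinv (rb_12 hinv hr) 3 rfl) h
    · rcases brec_true h with h | h
      · exact mRel_good (T := T) (by decide) [Lt.ei, Lt.bi, Lt.e, Lt.b, Lt.ei, Lt.bi, Lt.c, Lt.fi, Lt.e] [Lt.fi] (pair_at hinv (rb_15 hinv hr) 4 rfl) h
      · exact mRel_good (T := T) (by decide) [Lt.e, Lt.f, Lt.e, Lt.bi, Lt.ci, Lt.bi, Lt.f] [Lt.c, Lt.bi] (pair_at hinv (rb_7 hinv hr) 5 rfl) h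
theorem dM_64_s (hinv : ∀ x, g (inv x) = (g x)⁻¹) (hr : ∀ r ∈ rels, (r.map g).prod = 1) (j z1 z2 u : ℕ) (h : dM_64 j z1 z2 u = true) : GoodM (fa g) T MG M (cP g H) u := by
  unfold dM_64 at h
  rcases brec_true h with h | h
  · exact dM_62_s hinv hr j z1 z2 u h
  · exact dM_63_s hinv hr j z1 z2 u h
theorem dM_65_s (hinv : ∀ x, g (inv x) = (g x)⁻¹) (hr : ∀ r ∈ rels, (r.map g).prod = 1) (j z1 z2 u : ℕ) (h : dM_65 j z1 z2 u = true) : GoodM (fa g) T MG M (cP g H) u := by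
  unfold dM_65 at h
  rcases brec_true h with h | h
  · rcases brec_true h with h | h
    · exact mRel_good (T := T) (by decide) [Lt.c, Lt.bi, Lt.fi, Lt.b, Lt.c] [Lt.e, Lt.f, Lt.e, Lt.bi] (pair_at hinv (rf_7 hinv hr) 4 rfl) h
    · rcases brec_true h with h | h
      · exact mRel_good (T := T) (by decide) [Lt.e, Lt.bi] [Lt.fi, Lt.ei, Lt.c, Lt.bi, Lt.fi, Lt.b, Lt.c] (pair_at hinv (rb_7 hinv hr) 7 rfl) h
      · exact mRel_good (T := T) (by decide) [Lt.f, Lt.e, Lt.c, Lt.b, Lt.ci] [Lt.e, Lt.e, Lt.f, Lt.bi, Lt.f] (pair_at hinv (rf_18 hinv hr) 7 rfl) h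
  · rcases brec_true h with h | h
    · rcases brec_true h with h | h
      · exact mRel_good (T := T) (by decide) [Lt.fi, Lt.c, Lt.bi, Lt.ei, Lt.ci] [Lt.c, Lt.bi, Lt.c, Lt.e, Lt.f] (pair_at hinv (rb_12 hinv hr) 7 rfl) h
      · exact mRel_good (T := T) (by decide) [Lt.b, Lt.e] [Lt.ei, Lt.c, Lt.fi, Lt.b, Lt.ei, Lt.c, Lt.bi, Lt.f] (pair_at hinv (rf_11 hinv hr) 0 rfl) h
    · rcases brec_true h with h | h
      · exact mRel_good (T := T) (by decide) [Lt.ei, Lt.b, Lt.ei, Lt.f, Lt.b, Lt.ei, Lt.b, Lt.ei, Lt.f] [Lt.bi] (pair_at hinv (rf_9 hinv hr) 1 rfl) h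
      · exact mRel_good (T := T) (by decide) [Lt.ci, Lt.bi, Lt.f, Lt.b] [Lt.b, Lt.ei, Lt.fi, Lt.ei, Lt.c] (pair_at hinv (rb_7 hinv hr) 0 rfl) h
theorem dM_66_s (hinv : ∀ x, g (inv x) = (g x)⁻¹) (hr : ∀ r ∈ rels, (r.map g).prod = 1) (j z1 z2 u : ℕ) (h : dM_66 j z1 z2 u = true) : GoodM (fa g) T MG M (cP g H) u := by
  unfold dM_66 at h
  rcases brec_true h with h | h
  · rcases brec_true h with h | h
    · exact mRel_good (T := T) (by decide) [Lt.d, Lt.fi, Lt.di] [Lt.ei] (pair_at hinv (rf_4 hinv hr) 0 rfl) h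
    · rcases brec_true h with h | h
      · exact mRel_good (T := T) (by decide) [Lt.f, Lt.ci, Lt.fi, Lt.ci, Lt.ei, Lt.c, Lt.fi, Lt.c] [Lt.ei, Lt.ei] (pair_at hinv (rf_10 hinv hr) 2 rfl) h
      · exact mRel_good (T := T) (by decide) [Lt.fi, Lt.fi, Lt.ci, Lt.fi, Lt.c, Lt.fi, Lt.fi, Lt.ci, Lt.fi, Lt.c] [] (pair_at hinv (rb_13 hinv hr) 2 rfl) h
  · rcases brec_true h with h | h
    · rcases brec_true h with h | h
      · exact mRel_good (T := T) (by decide) [Lt.ei, Lt.bi, Lt.ei, Lt.c, Lt.fi, Lt.b, Lt.ei, Lt.c] [Lt.fi, Lt.b] (pair_at hinv (rb_11 hinv hr) 8 rfl) h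
      · exact mRel_good (T := T) (by decide) [Lt.f, Lt.f, Lt.ci, Lt.f, Lt.c, Lt.f, Lt.f, Lt.ci] [Lt.ci, Lt.fi] (pair_at hinv (rf_13 hinv hr) 1 rfl) h
    · rcases brec_true h with h | h
      · exact mRel_good (T := T) (by decide) [Lt.f, Lt.b, Lt.ei, Lt.b, Lt.ei, Lt.f] [Lt.e, Lt.bi, Lt.e, Lt.bi] (pair_at hinv (rf_9 hinv hr) 4 rfl) h
      · exact mRel_good (T := T) (by decide) [Lt.ei, Lt.fi] [Lt.c, Lt.b, Lt.ci, Lt.fi, Lt.b, Lt.fi, Lt.ei, Lt.ei] (pair_at hinv (rb_18 hinv hr) 1 rfl) h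
theorem dM_67_s (hinv : ∀ x, g (inv x) = (g x)⁻¹) (hr : ∀ r ∈ rels, (r.map g).prod = 1) (j z1 z2 u : ℕ) (h : dM_67 j z1 z2 u = true) : GoodM (fa g) T MG M (cP g H) u := by
  unfold dM_67 at h
  rcases brec_true h with h | h
  · exact dM_65_s hinv hr j z1 z2 u h
  · exact dM_66_s hinv hr j z1 z2 u h
theorem dM_68_s (hinv : ∀ x, g (inv x) = (g x)⁻¹) (hr : ∀ r ∈ rels, (r.map g).prod = 1) (j z1 z2 u : ℕ) (h : dM_68 j z1 z2 u = true) : GoodM (fa g) T MG M (cP g H) u := by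
  unfold dM_68 at h
  rcases brec_true h with h | h
  · exact dM_64_s hinv hr j z1 z2 u h
  · exact dM_67_s hinv hr j z1 z2 u h
theorem dM_69_s (hinv : ∀ x, g (inv x) = (g x)⁻¹) (hr : ∀ r ∈ rels, (r.map g).prod = 1) (j z1 z2 u : ℕ) (h : dM_69 j z1 z2 u = true) : GoodM (fa g) T MG M (cP g H) u := by
  unfold dM_69 at h
  rcases brec_true h with h | h
  · exact dM_61_s hinv hr j z1 z2 u h
  · exact dM_68_s hinv hr j z1 z2 u h
theorem dM_70_s (hinv : ∀ x, g (inv x) = (g x)⁻¹) (hr : ∀ r ∈ rels, (r.map g).prod = 1) (j z1 z2 u : ℕ) (h : dM_70 j z1 z2 u = true) : GoodM (fa g) T MG M (cP g H) u := by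
  unfold dM_70 at h
  rcases brec_true h with h | h
  · rcases brec_true h with h | h
    · exact mRel_good (T := T) (by decide) [Lt.bi, Lt.ei, Lt.c, Lt.fi, Lt.b, Lt.ei, Lt.c, Lt.bi] [Lt.e, Lt.fi] (pair_at hinv (rb_11 hinv hr) 9 rfl) h
    · rcases brec_true h with h | h
      · exact mRel_good (T := T) (by decide) [Lt.fi, Lt.ci, Lt.ei, Lt.c] [Lt.c, Lt.fi, Lt.ei, Lt.ei, Lt.ci, Lt.f] (pair_at hinv (rf_10 hinv hr) 4 rfl) h
      · exact mRel_good (T := T) (by decide) [Lt.ci, Lt.fi, Lt.bi, Lt.ei, Lt.bi] [Lt.ei, Lt.f, Lt.b, Lt.f, Lt.c] (pair_at hinv (rb_19 hinv hr) 5 rfl) h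
  · rcases brec_true h with h | h
    · exact mRel_good (T := T) (by decide) [Lt.fi, Lt.c, Lt.e] [Lt.f, Lt.ei, Lt.ci, Lt.fi, Lt.c, Lt.f, Lt.ci] (pair_at hinv (rf_16 hinv hr) 8 rfl) h
    · rcases brec_true h with h | h
      · exact mRel_good (T := T) (by decide) [Lt.ci, Lt.e, Lt.c, Lt.f, Lt.c, Lt.fi, Lt.ei] [Lt.fi, Lt.c, Lt.e] (pair_at hinv (rb_10 hinv hr) 2 rfl) h
      · exact mRel_good (T := T) (by decide) [Lt.c, Lt.e] [Lt.b, Lt.ci, Lt.fi, Lt.c, Lt.bi, Lt.ei, Lt.ci, Lt.fi] (pair_at hinv (rf_12 hinv hr) 5 rfl) h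
theorem dM_71_s (hinv : ∀ x, g (inv x) = (g x)⁻¹) (hr : ∀ r ∈ rels, (r.map g).prod = 1) (j z1 z2 u : ℕ) (h : dM_71 j z1 z2 u = true) : GoodM (fa g) T MG M (cP g H) u := by
  unfold dM_71 at h
  rcases brec_true h with h | h
  · rcases brec_true h with h | h
    · exact mRel_good (T := T) (by decide) [Lt.c, Lt.b, Lt.ci] [Lt.ei, Lt.fi, Lt.e, Lt.e, Lt.f, Lt.bi, Lt.f] (pair_at hinv (rf_18 hinv hr) 9 rfl) h
    · rcases brec_true h with h | h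
      · exact mRel_good (T := T) (by decide) [Lt.di, Lt.b, Lt.d] [Lt.c] (pair_at hinv (rf_3 hinv hr) 2 rfl) h
      · exact mRel_good (T := T) (by decide) [Lt.c, Lt.bi, Lt.fi] [Lt.e, Lt.f, Lt.e, Lt.bi, Lt.ci, Lt.bi] (pair_at hinv (rf_7 hinv hr) 4 rfl) h
  · rcases brec_true h with h | h
    · rcases brec_true h with h | h
      · exact mRel_good (T := T) (by decide) [Lt.fi, Lt.ei, Lt.ei, Lt.f] [Lt.bi, Lt.f, Lt.c, Lt.bi, Lt.ci, Lt.ei] (pair_at hinv (rf_18 hinv hr) 4 rfl) h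
      · exact mRel_good (T := T) (by decide) [Lt.c, Lt.e] [Lt.f, Lt.ci, Lt.e, Lt.c, Lt.f, Lt.c, Lt.fi, Lt.ei] (pair_at hinv (rf_10 hinv hr) 9 rfl) h
    · rcases brec_true h with h | h
      · exact mRel_good (T := T) (by decide) [Lt.bi, Lt.ei, Lt.b, Lt.e] [Lt.ei, Lt.bi, Lt.c, Lt.fi, Lt.e, Lt.f] (pair_at hinv (rf_15 hinv hr) 2 rfl) h
      · exact mRel_good (T := T) (by decide) [Lt.c, Lt.bi, Lt.f, Lt.ei, Lt.bi, Lt.ei, Lt.c] [Lt.e, Lt.bi, Lt.f] (pair_at hinv (rb_11 hinv hr) 5 rfl) h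
theorem dM_72_s (hinv : ∀ x, g (inv x) = (g x)⁻¹) (hr : ∀ r ∈ rels, (r.map g).prod = 1) (j z1 z2 u : ℕ) (h : dM_72 j z1 z2 u = true) : GoodM (fa g) T MG M (cP g H) u := by
  unfold dM_72 at h
  rcases brec_true h with h | h
  · exact dM_70_s hinv hr j z1 z2 u h
  · exact dM_71_s hinv hr j z1 z2 u h
theorem dM_73_s (hinv : ∀ x, g (inv x) = (g x)⁻¹) (hr : ∀ r ∈ rels, (r.map g).prod = 1) (j z1 z2 u : ℕ) (h : dM_73 j z1 z2 u = true) : GoodM (fa g) T MG M (cP g H) u := by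
  unfold dM_73 at h
  rcases brec_true h with h | h
  · rcases brec_true h with h | h
    · exact mRel_good (T := T) (by decide) [Lt.f, Lt.b, Lt.ci, Lt.e, Lt.f, Lt.e, Lt.bi] [Lt.b, Lt.c] (pair_at hinv (rb_7 hinv hr) 2 rfl) h
    · rcases brec_true h with h | h
      · exact mRel_good (T := T) (by decide) [Lt.fi, Lt.fi] [Lt.ei, Lt.ei, Lt.bi, Lt.ei, Lt.b, Lt.ci, Lt.f, Lt.c] (pair_at hinv (rf_17 hinv hr) 3 rfl) h
      · exact mRel_good (T := T) (by decide) [Lt.bi, Lt.ei, Lt.b, Lt.ci, Lt.f, Lt.c] [Lt.e, Lt.e, Lt.fi, Lt.fi] (pair_at hinv (rb_17 hinv hr) 9 rfl) h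
  · rcases brec_true h with h | h
    · exact mRel_good (T := T) (by decide) [Lt.bi, Lt.ci, Lt.bi, Lt.f, Lt.b] [Lt.ei, Lt.fi, Lt.ei, Lt.c] (pair_at hinv (rb_7 hinv hr) 8 rfl) h
    · rcases brec_true h with h | h
      · exact mRel_good (T := T) (by decide) [Lt.c, Lt.bi, Lt.fi, Lt.b, Lt.c, Lt.b, Lt.ei] [Lt.e, Lt.f] (pair_at hinv (rf_7 hinv hr) 4 rfl) h
      · exact mRel_good (T := T) (by decide) [Lt.bi, Lt.fi] [Lt.f, Lt.c, Lt.b, Lt.e, Lt.b, Lt.f, Lt.c, Lt.ei] (pair_at hinv (rb_19 hinv hr) 2 rfl) h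
theorem dM_74_s (hinv : ∀ x, g (inv x) = (g x)⁻¹) (hr : ∀ r ∈ rels, (r.map g).prod = 1) (j z1 z2 u : ℕ) (h : dM_74 j z1 z2 u = true) : GoodM (fa g) T MG M (cP g H) u := by
  unfold dM_74 at h
  rcases brec_true h with h | h
  · rcases brec_true h with h | h
    · exact mRel_good (T := T) (by decide) [Lt.bi, Lt.f, Lt.ei, Lt.bi, Lt.ei, Lt.c] [Lt.ci, Lt.e, Lt.bi, Lt.f] (pair_at hinv (rb_11 hinv hr) 6 rfl) h
    · rcases brec_true h with h | h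
      · exact mRel_good (T := T) (by decide) [Lt.bi, Lt.ci, Lt.fi] [Lt.e, Lt.b, Lt.f, Lt.c, Lt.ei, Lt.f, Lt.b] (pair_at hinv (rb_19 hinv hr) 9 rfl) h
      · exact mRel_good (T := T) (by decide) [Lt.ci, Lt.ei, Lt.c, Lt.fi, Lt.c, Lt.e] [Lt.f, Lt.c, Lt.fi, Lt.ei] (pair_at hinv (rf_10 hinv hr) 5 rfl) h
  · rcases brec_true h with h | h
    · rcases brec_true h with h | h
      · exact mRel_good (T := T) (by decide) [Lt.c, Lt.b, Lt.ei, Lt.fi, Lt.ei, Lt.c] [Lt.bi, Lt.f, Lt.b] (pair_at hinv (rf_7 hinv hr) 8 rfl) h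
      · exact mRel_good (T := T) (by decide) [Lt.b, Lt.fi, Lt.ei, Lt.ei, Lt.f, Lt.e] [Lt.f, Lt.c, Lt.bi, Lt.ci] (pair_at hinv (rf_18 hinv hr) 3 rfl) h
    · rcases brec_true h with h | h
      · exact mRel_good (T := T) (by decide) [Lt.ei, Lt.b, Lt.e, Lt.fi, Lt.ei] [Lt.b, Lt.ei, Lt.bi, Lt.c, Lt.fi] (pair_at hinv (rf_15 hinv hr) 3 rfl) h
      · exact mRel_good (T := T) (by decide) [Lt.ei, Lt.b, Lt.ei, Lt.f, Lt.b, Lt.ei, Lt.b, Lt.ei] [Lt.bi, Lt.fi] (pair_at hinv (rf_9 hinv hr) 1 rfl) h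
theorem dM_75_s (hinv : ∀ x, g (inv x) = (g x)⁻¹) (hr : ∀ r ∈ rels, (r.map g).prod = 1) (j z1 z2 u : ℕ) (h : dM_75 j z1 z2 u = true) : GoodM (fa g) T MG M (cP g H) u := by
  unfold dM_75 at h
  rcases brec_true h with h | h
  · exact dM_73_s hinv hr j z1 z2 u h
  · exact dM_74_s hinv hr j z1 z2 u h
theorem dM_76_s (hinv : ∀ x, g (inv x) = (g x)⁻¹) (hr : ∀ r ∈ rels, (r.map g).prod = 1) (j z1 z2 u : ℕ) (h : dM_76 j z1 z2 u = true) : GoodM (fa g) T MG M (cP g H) u := by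
  unfold dM_76 at h
  rcases brec_true h with h | h
  · exact dM_72_s hinv hr j z1 z2 u h
  · exact dM_75_s hinv hr j z1 z2 u h
theorem dM_77_s (hinv : ∀ x, g (inv x) = (g x)⁻¹) (hr : ∀ r ∈ rels, (r.map g).prod = 1) (j z1 z2 u : ℕ) (h : dM_77 j z1 z2 u = true) : GoodM (fa g) T MG M (cP g H) u := by
  unfold dM_77 at h
  rcases brec_true h with h | h
  · rcases brec_true h with h | h
    · exact mRel_good (T := T) (by decide) [Lt.fi, Lt.di, Lt.e] [Lt.di] (pair_at hinv (rf_4 hinv hr) 1 rfl) h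
    · rcases brec_true h with h | h
      · exact mRel_good (T := T) (by decide) [Lt.ci, Lt.e, Lt.f, Lt.e, Lt.bi] [Lt.bi, Lt.fi, Lt.b, Lt.c] (pair_at hinv (rb_7 hinv hr) 4 rfl) h
      · exact mRel_good (T := T) (by decide) [Lt.fi, Lt.e] [Lt.ci, Lt.b, Lt.e, Lt.bi, Lt.ei, Lt.b, Lt.e, Lt.fi] (pair_at hinv (rb_15 hinv hr) 1 rfl) h
  · rcases brec_true h with h | h
    · exact mRel_good (T := T) (by decide) [Lt.ci, Lt.e, Lt.b, Lt.e, Lt.fi, Lt.b, Lt.ci] [Lt.fi, Lt.b, Lt.ei] (pair_at hinv (rf_11 hinv hr) 8 rfl) h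
    · rcases brec_true h with h | h
      · exact mRel_good (T := T) (by decide) [Lt.ci, Lt.fi] [Lt.b, Lt.e, Lt.b, Lt.f, Lt.c, Lt.ei, Lt.f, Lt.b] (pair_at hinv (rb_19 hinv hr) 0 rfl) h
      · exact mRel_good (T := T) (by decide) [Lt.e, Lt.f, Lt.e, Lt.bi, Lt.ci, Lt.bi, Lt.f, Lt.b] [Lt.c] (pair_at hinv (rb_7 hinv hr) 5 rfl) h
theorem dM_78_s (hinv : ∀ x, g (inv x) = (g x)⁻¹) (hr : ∀ r ∈ rels, (r.map g).prod = 1) (j z1 z2 u : ℕ) (h : dM_78 j z1 z2 u = true) : GoodM (fa g) T MG M (cP g H) u := by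
  unfold dM_78 at h
  rcases brec_true h with h | h
  · rcases brec_true h with h | h
    · exact mRel_good (T := T) (by decide) [Lt.d, Lt.f] [Lt.e, Lt.d] (pair_at hinv (rb_4 hinv hr) 1 rfl) h
    · rcases brec_true h with h | h
      · exact mRel_good (T := T) (by decide) [Lt.ei, Lt.c, Lt.bi, Lt.fi] [Lt.f, Lt.e, Lt.bi, Lt.ci, Lt.bi] (pair_at hinv (rf_7 hinv hr) 3 rfl) h
      · exact mRel_good (T := T) (by decide) [Lt.ei, Lt.c] [Lt.f, Lt.e, Lt.bi, Lt.ci, Lt.bi, Lt.f, Lt.b] (pair_at hinv (rf_7 hinv hr) 3 rfl) h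
  · rcases brec_true h with h | h
    · rcases brec_true h with h | h
      · exact mRel_good (T := T) (by decide) [Lt.c, Lt.b, Lt.ei, Lt.fi] [Lt.bi, Lt.f, Lt.b, Lt.ci, Lt.e] (pair_at hinv (rf_7 hinv hr) 8 rfl) h
      · exact mRel_good (T := T) (by decide) [Lt.c, Lt.fi, Lt.ei, Lt.ei, Lt.ci, Lt.f, Lt.ci, Lt.e] [Lt.fi, Lt.ci] (pair_at hinv (rb_10 hinv hr) 6 rfl) h
    · rcases brec_true h with h | h
      · exact mRel_good (T := T) (by decide) [Lt.b, Lt.c] [Lt.f, Lt.b, Lt.ci, Lt.e, Lt.f, Lt.e, Lt.bi] (pair_at hinv (rf_7 hinv hr) 7 rfl) h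
      · exact mRel_good (T := T) (by decide) [Lt.f, Lt.ei] [Lt.b, Lt.ci, Lt.e, Lt.bi, Lt.f, Lt.ci, Lt.e, Lt.b] (pair_at hinv (rb_11 hinv hr) 7 rfl) h
theorem dM_79_s (hinv : ∀ x, g (inv x) = (g x)⁻¹) (hr : ∀ r ∈ rels, (r.map g).prod = 1) (j z1 z2 u : ℕ) (h : dM_79 j z1 z2 u = true) : GoodM (fa g) T MG M (cP g H) u := by
  unfold dM_79 at h
  rcases brec_true h with h | h
  · exact dM_77_s hinv hr j z1 z2 u h
  · exact dM_78_s hinv hr j z1 z2 u h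
theorem dM_80_s (hinv : ∀ x, g (inv x) = (g x)⁻¹) (hr : ∀ r ∈ rels, (r.map g).prod = 1) (j z1 z2 u : ℕ) (h : dM_80 j z1 z2 u = true) : GoodM (fa g) T MG M (cP g H) u := by
  unfold dM_80 at h
  rcases brec_true h with h | h
  · rcases brec_true h with h | h
    · exact mRel_good (T := T) (by decide) [Lt.f, Lt.e] [Lt.ei, Lt.c, Lt.bi, Lt.fi, Lt.b, Lt.c, Lt.b] (pair_at hinv (rb_7 hinv hr) 6 rfl) h
    · rcases brec_true h with h | h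
      · exact mRel_good (T := T) (by decide) [Lt.bi, Lt.ci, Lt.bi, Lt.f, Lt.b, Lt.ci] [Lt.ei, Lt.fi, Lt.ei] (pair_at hinv (rb_7 hinv hr) 8 rfl) h
      · exact mRel_good (T := T) (by decide) [Lt.di, Lt.e] [Lt.f, Lt.di] (pair_at hinv (rf_4 hinv hr) 2 rfl) h
  · rcases brec_true h with h | h
    · rcases brec_true h with h | h
      · exact mRel_good (T := T) (by decide) [Lt.fi, Lt.di] [Lt.di, Lt.ei] (pair_at hinv (rf_4 hinv hr) 1 rfl) h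
      · exact mRel_good (T := T) (by decide) [Lt.e, Lt.b, Lt.f, Lt.c, Lt.ei] [Lt.bi, Lt.ci, Lt.fi, Lt.bi, Lt.fi] (pair_at hinv (rf_19 hinv hr) 1 rfl) h
    · rcases brec_true h with h | h
      · exact mRel_good (T := T) (by decide) [Lt.b, Lt.f, Lt.c, Lt.ei, Lt.f, Lt.b, Lt.f] [Lt.ei, Lt.bi, Lt.ci] (pair_at hinv (rf_19 hinv hr) 2 rfl) h
      · exact mRel_good (T := T) (by decide) [Lt.f, Lt.di, Lt.ei] [Lt.di] (pair_at hinv (rb_4 hinv hr) 2 rfl) h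
theorem dM_81_s (hinv : ∀ x, g (inv x) = (g x)⁻¹) (hr : ∀ r ∈ rels, (r.map g).prod = 1) (j z1 z2 u : ℕ) (h : dM_81 j z1 z2 u = true) : GoodM (fa g) T MG M (cP g H) u := by
  unfold dM_81 at h
  rcases brec_true h with h | h
  · rcases brec_true h with h | h
    · exact mRel_good (T := T) (by decide) [Lt.fi, Lt.ci, Lt.ei, Lt.c, Lt.fi, Lt.c] [Lt.c, Lt.fi, Lt.ei, Lt.ei] (pair_at hinv (rf_10 hinv hr) 4 rfl) h
    · rcases brec_true h with h | h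
      · exact mRel_good (T := T) (by decide) [Lt.bi, Lt.c, Lt.fi, Lt.e, Lt.f] [Lt.e, Lt.bi, Lt.ei, Lt.b, Lt.e] (pair_at hinv (rb_15 hinv hr) 9 rfl) h
      · exact mRel_good (T := T) (by decide) [Lt.b, Lt.ci, Lt.e, Lt.f, Lt.e] [Lt.fi, Lt.b, Lt.c, Lt.b] (pair_at hinv (rb_7 hinv hr) 3 rfl) h
  · rcases brec_true h with h | h
    · rcases brec_true h with h | h
      · exact mRel_good (T := T) (by decide) [Lt.fi, Lt.bi] [Lt.c, Lt.ei, Lt.f, Lt.b, Lt.f, Lt.c, Lt.b, Lt.e] (pair_at hinv (rb_19 hinv hr) 6 rfl) h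
      · exact mRel_good (T := T) (by decide) [Lt.f, Lt.c, Lt.e, Lt.b, Lt.ci, Lt.f, Lt.c, Lt.bi] [Lt.ei, Lt.ci] (pair_at hinv (rf_12 hinv hr) 7 rfl) h
    · rcases brec_true h with h | h
      · exact mRel_good (T := T) (by decide) [Lt.e, Lt.bi, Lt.fi, Lt.e, Lt.bi, Lt.e, Lt.bi] [Lt.b, Lt.ei, Lt.f] (pair_at hinv (rb_9 hinv hr) 3 rfl) h
      · exact mRel_good (T := T) (by decide) [Lt.b, Lt.c, Lt.b] [Lt.f, Lt.b, Lt.ci, Lt.e, Lt.f, Lt.e] (pair_at hinv (rf_7 hinv hr) 7 rfl) h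
theorem dM_82_s (hinv : ∀ x, g (inv x) = (g x)⁻¹) (hr : ∀ r ∈ rels, (r.map g).prod = 1) (j z1 z2 u : ℕ) (h : dM_82 j z1 z2 u = true) : GoodM (fa g) T MG M (cP g H) u := by
  unfold dM_82 at h
  rcases brec_true h with h | h
  · exact dM_80_s hinv hr j z1 z2 u h
  · exact dM_81_s hinv hr j z1 z2 u h
theorem dM_83_s (hinv : ∀ x, g (inv x) = (g x)⁻¹) (hr : ∀ r ∈ rels, (r.map g).prod = 1) (j z1 z2 u : ℕ) (h : dM_83 j z1 z2 u = true) : GoodM (fa g) T MG M (cP g H) u := by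
  unfold dM_83 at h
  rcases brec_true h with h | h
  · exact dM_79_s hinv hr j z1 z2 u h
  · exact dM_82_s hinv hr j z1 z2 u h
theorem dM_84_s (hinv : ∀ x, g (inv x) = (g x)⁻¹) (hr : ∀ r ∈ rels, (r.map g).prod = 1) (j z1 z2 u : ℕ) (h : dM_84 j z1 z2 u = true) : GoodM (fa g) T MG M (cP g H) u := by
  unfold dM_84 at h
  rcases brec_true h with h | h
  · exact dM_76_s hinv hr j z1 z2 u h
  · exact dM_83_s hinv hr j z1 z2 u h
theorem dM_85_s (hinv : ∀ x, g (inv x) = (g x)⁻¹) (hr : ∀ r ∈ rels, (r.map g).prod = 1) (j z1 z2 u : ℕ) (h : dM_85 j z1 z2 u = true) : GoodM (fa g) T MG M (cP g H) u := by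
  unfold dM_85 at h
  rcases brec_true h with h | h
  · exact dM_69_s hinv hr j z1 z2 u h
  · exact dM_84_s hinv hr j z1 z2 u h
theorem dM_86_s (hinv : ∀ x, g (inv x) = (g x)⁻¹) (hr : ∀ r ∈ rels, (r.map g).prod = 1) (j z1 z2 u : ℕ) (h : dM_86 j z1 z2 u = true) : GoodM (fa g) T MG M (cP g H) u := by
  unfold dM_86 at h
  rcases brec_true h with h | h
  · exact dM_54_s hinv hr j z1 z2 u h
  · exact dM_85_s hinv hr j z1 z2 u h
theorem dM_87_s (hinv : ∀ x, g (inv x) = (g x)⁻¹) (hr : ∀ r ∈ rels, (r.map g).prod = 1) (j z1 z2 u : ℕ) (h : dM_87 j z1 z2 u = true) : GoodM (fa g) T MG M (cP g H) u := by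
  unfold dM_87 at h
  rcases brec_true h with h | h
  · exact dM_23_s hinv hr j z1 z2 u h
  · exact dM_86_s hinv hr j z1 z2 u h
theorem dM_88_s (hinv : ∀ x, g (inv x) = (g x)⁻¹) (hr : ∀ r ∈ rels, (r.map g).prod = 1) (j z1 z2 u : ℕ) (h : dM_88 j z1 z2 u = true) : GoodM (fa g) T MG M (cP g H) u := by
  unfold dM_88 at h
  rcases brec_true h with h | h
  · exact dM_0_s hinv hr j z1 z2 u h
  · exact dM_87_s hinv hr j z1 z2 u h
theorem sndM (hinv : ∀ x, g (inv x) = (g x)⁻¹) (hr : ∀ r ∈ rels, (r.map g).prod = 1) (u : ℕ) (h : chkM u = true) :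
    MG u < A → MG u % M < u ∧ GoodM (fa g) T MG M (cP g H) u := by
  intro hA
  unfold chkM at h
  cases hb : Nat.ble A (MG u) with
  | true => exact absurd (le_of_ble hb) (by omega)
  | false =>
    rw [hb] at h
    obtain ⟨h1, h2⟩ := band_eq_true.1 h
    exact ⟨le_of_ble h1, dM_88_s hinv hr _ _ _ _ h2⟩
theorem sndN (hinv : ∀ x, g (inv x) = (g x)⁻¹) (hr : ∀ r ∈ rels, (r.map g).prod = 1) (hH : ∀ r ∈ subs, (r.map g).prod ∈ H)
    (u : ℕ) (hu : u < M) (h : chkP u = true) : (∀ x, (T x u < A ∧ Good (fa g) T MG M (cP g H) x u) ∨ (A ≤ T x u ∧ MG u < A)) ∧ (MG u < A → MG u % M < u ∧ GoodM (fa g) T MG M (cP g H) u) := by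
  unfold chkP at h
  cases hb : Nat.ble M u with
  | true => exact absurd (le_of_ble hb) (by omega)
  | false =>
    rw [hb] at h
    change chkN u = true at h
    unfold chkN at h
    obtain ⟨h0, h⟩ := band_eq_true.1 h
    obtain ⟨h1, h⟩ := band_eq_true.1 h
    obtain ⟨h2, h⟩ := band_eq_true.1 h
    obtain ⟨h3, h⟩ := band_eq_true.1 h
    obtain ⟨h4, h⟩ := band_eq_true.1 h
    obtain ⟨h5, h⟩ := band_eq_true.1 h
    obtain ⟨h6, h⟩ := band_eq_true.1 h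
    obtain ⟨h7, h⟩ := band_eq_true.1 h
    obtain ⟨h8, h⟩ := band_eq_true.1 h
    obtain ⟨h9, h⟩ := band_eq_true.1 h
    refine ⟨?_, sndM hinv hr u h⟩
    intro x
    cases x
    · exact snc_b hinv hr hH _ u hu h0
    · exact snc_bi hinv hr hH _ u hu h1
    · exact snc_e hinv hr hH _ u hu h2
    · exact snc_ei hinv hr hH _ u hu h3
    · exact snc_c hinv hr hH _ u hu h4
    · exact snc_ci hinv hr hH _ u hu h5
    · exact snc_f hinv hr hH _ u hu h6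
    · exact snc_fi hinv hr hH _ u hu h7
    · exact snc_d hinv hr hH _ u hu h8
    · exact snc_di hinv hr hH _ u hu h9
theorem final (hinv : ∀ x, g (inv x) = (g x)⁻¹) (hr : ∀ r ∈ rels, (r.map g).prod = 1) (hH : ∀ r ∈ subs, (r.map g).prod ∈ H)
    (hall : ∀ u, u < M → chkP u = true) (hc : cntB liveP 13 0 = 4116) :
    H.relIndex (Subgroup.closure (Set.range g)) ≤ 4116 ∧ H.relIndex (Subgroup.closure (Set.range g)) ≠ 0 := by
  have hn := fun u hu => sndN hinv hr hH u hu (hall u hu)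
  have h1 : ∀ x u, u < M → T x u < A → Good (fa g) T MG M (cP g H) x u := by
    intro x u hu hx
    rcases (hn u hu).1 x with h | h
    · exact h.2
    · exact absurd h.1 (by omega)
  have h2 : ∀ u, u < M → MG u < A → GoodM (fa g) T MG M (cP g H) u := fun u hu h => ((hn u hu).2 h).2
  refine relIndex_le (M := M) (A := A) (T := T) (MG := MG) (c := cP g H) (by decide) cc_zero (sound_of_good h1 h2) ?_ ?_ ?_
  · intro u hu h
    exact ((hn u hu).2 h).1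
  · intro x u hu h
    rcases (hn u hu).1 x with h' | h'
    · exact h'.1
    · exact absurd h'.2 (by omega)
  · rw [← hc, ← cntB_spec]
    apply Finset.card_le_card
    intro u
    simp only [Finset.mem_filter, Finset.mem_Ico]
    rintro ⟨⟨_, h3⟩, h4⟩
    refine ⟨⟨Nat.zero_le _, lt_of_lt_of_le h3 (by decide)⟩, ?_⟩
    unfold liveP
    cases hb : Nat.ble M u with
    | true => exact absurd (le_of_ble hb) (by omega)
    | false => exact h4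
end
end H35.TCMHeA
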